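import Cfsg.Agent.OrthMax.Proper

/-!
`Ω(Q)` in dimension at least seven lies in no decomposition stabiliser and no subfield group.
-/

set_option autoImplicit false
set_option linter.style.haveILetI false

namespace Cfsg.Agent.OrthMax

open Matrix Cfsg.Geo QuadraticMap Module
open Cfsg.Agent.Classical (OQ BNondeg TwoPairs IsPair)
open Cfsg.Agent.GeoClasses (oqToGL oqToGL_mulVec map_oqToGL_commutator)
open Cfsg.Agent.ClassicalMax (exists_adapted_basis exists_blockData)
open scoped MatrixGroups Matrix

variable {F : Type*} [Field F] [Finite F] {ι : Type} [Fintype ι] [DecidableEq ι]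
  {Q : QuadraticForm F (ι → F)}

/-- `Ω` is transitive on non-zero singular vectors. -/
theorem exists_omega_singular (hB : BNondeg Q) (hn : 5 ≤ Fintype.card ι) {u z : ι → F} (hu : Q u = 0)
    (hu0 : u ≠ 0) (hz : Q z = 0) (hz0 : z ≠ 0) :
    ∃ g ∈ omegaGL ⇑Q, (g : Matrix ι ι F) *ᵥ u = z := by
  have hn' : 5 ≤ finrank F (ι → F) := by rwa [Module.finrank_fintype_fun_eq_card]
  obtain ⟨k, hk, hku⟩ := Classical.EQ_transitive_singular hB.qNondeg
    (OrthGen.hasTwoPairs_of_five_le hB hn') hu0 hu hz0 hz
  refine ⟨oqToGL Q k, ?_, by rw [oqToGL_mulVec, hku]⟩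
  rw [← map_oqToGL_commutator]
  exact ⟨k, by rw [GeoClasses.commutator_eq_EQ hB hn']; exact hk, rfl⟩

section Support

variable {t m : ℕ} {D : Fin t → Submodule F (ι → F)} {b : Basis (Fin m × Fin t) F (ι → F)}

open scoped _root_.Classical in
/-- The parts met by a vector. -/
noncomputable def supp (b : Basis (Fin m × Fin t) F (ι → F)) (v : ι → F) : Finset (Fin t) :=
  Finset.univ.filter fun i => ∃ k, b.equivFun v (k, i) ≠ 0

omit [Finite F] [Fintype ι] [DecidableEq ι] in
theorem mem_supp {v : ι → F} {i : Fin t} : i ∈ supp b v ↔ ∃ k, b.equivFun v (k, i) ≠ 0 := by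
  classical
  exact Finset.mem_filter.trans ⟨fun h => h.2, fun h => ⟨Finset.mem_univ _, h⟩⟩

omit [Finite F] [Fintype ι] [DecidableEq ι] in
theorem supp_add {v w : ι → F} {S : Finset (Fin t)} (hv : supp b v ⊆ S) (hw : supp b w ⊆ S) :
    supp b (v + w) ⊆ S := by
  intro i hi
  obtain ⟨k, hk⟩ := mem_supp.1 hi
  by_contra hiS
  have h1 : b.equivFun v (k, i) = 0 := by
    by_contra h
    exact hiS (hv (mem_supp.2 ⟨k, h⟩))
  have h2 : b.equivFun w (k, i) = 0 := by
    by_contra h
    exact hiS (hw (mem_supp.2 ⟨k, h⟩))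
  exact hk (by rw [map_add, Pi.add_apply, h1, h2, add_zero])

omit [Finite F] [Fintype ι] [DecidableEq ι] in
theorem supp_smul {v : ι → F} (c : F) {S : Finset (Fin t)} (hv : supp b v ⊆ S) : supp b (c • v) ⊆ S := by
  intro i hi
  obtain ⟨k, hk⟩ := mem_supp.1 hi
  refine hv (mem_supp.2 ⟨k, fun h => hk ?_⟩)
  rw [map_smul, Pi.smul_apply, h, smul_zero]

omit [Finite F] in
theorem supp_eq_of_mem (hb : ∀ i, D i = Submodule.span F (Set.range fun k => b (k, i))) {i : Fin t}
    {v : ι → F} (hv : v ∈ D i) (hv0 : v ≠ 0) : supp b v = {i} := by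
  have h := (NotMax.mem_block_iff hb).1 hv
  refine Finset.eq_singleton_iff_unique_mem.2 ⟨?_, fun j hj => ?_⟩
  · rw [mem_supp]
    by_contra hno
    push Not at hno
    refine hv0 (b.equivFun.injective (funext fun r => ?_))
    rw [map_zero, Pi.zero_apply]
    by_cases hr : r.2 = i
    · obtain ⟨k, j⟩ := r
      subst hr
      exact hno k
    · exact h r hr
  · obtain ⟨k, hk⟩ := mem_supp.1 hj
    by_contra hji
    exact hk (h (k, j) hji)

omit [Finite F] in
theorem supp_sub_pair (hb : ∀ i, D i = Submodule.span F (Set.range fun k => b (k, i))) {i j : Fin t}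
    (hij : i ≠ j) {x y : ι → F} (hx : x ∈ D i) (hx0 : x ≠ 0) (hy : y ∈ D j) (hy0 : y ≠ 0) :
    supp b (x - y) = {i, j} := by
  apply Finset.Subset.antisymm
  · rw [sub_eq_add_neg]
    refine supp_add ?_ ?_
    · rw [supp_eq_of_mem hb hx hx0]; simp
    · rw [supp_eq_of_mem hb ((D j).neg_mem hy) (neg_ne_zero.2 hy0)]; simp
  · intro l hl
    have hx' := (NotMax.mem_block_iff hb).1 hx
    have hy' := (NotMax.mem_block_iff hb).1 hy
    rw [Finset.mem_insert, Finset.mem_singleton] at hl
    rcases hl with rfl | rfl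
    · obtain ⟨k, hk⟩ := mem_supp.1 (show l ∈ supp b x by rw [supp_eq_of_mem hb hx hx0]; simp)
      exact mem_supp.2 ⟨k, by rw [map_sub, Pi.sub_apply, hy' (k, l) hij, sub_zero]; exact hk⟩
    · obtain ⟨k, hk⟩ := mem_supp.1 (show l ∈ supp b y by rw [supp_eq_of_mem hb hy hy0]; simp)
      exact mem_supp.2 ⟨k, by
        rw [map_sub, Pi.sub_apply, hx' (k, l) hij.symm, zero_sub]; exact neg_ne_zero.2 hk⟩

omit [Finite F] in
theorem card_supp_mulVec (hb : ∀ i, D i = Submodule.span F (Set.range fun k => b (k, i))) {g : GL ι F}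
    (hg : g ∈ decompositionStabilizer D) (v : ι → F) :
    (supp b ((g : Matrix ι ι F) *ᵥ v)).card = (supp b v).card := by
  classical
  have key : ∀ {g : GL ι F}, g ∈ decompositionStabilizer D → ∀ v,
      (supp b ((g : Matrix ι ι F) *ᵥ v)).card ≤ (supp b v).card := by
    intro g hg v
    obtain ⟨B⟩ := exists_blockData hb hg
    refine (Finset.card_le_card (t := (supp b v).image B.perm) fun j hj => ?_).trans Finset.card_image_le
    obtain ⟨i, rfl⟩ := B.perm.surjective j
    obtain ⟨k, hk⟩ := mem_supp.1 hj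
    rw [B.repr_mulVec] at hk
    obtain ⟨l, -, hl⟩ := Finset.exists_ne_zero_of_sum_ne_zero hk
    exact Finset.mem_image_of_mem _ (mem_supp.2 ⟨l, right_ne_zero_of_mul hl⟩)
  refine le_antisymm (key hg v) ?_
  have h := key (inv_mem hg) ((g : Matrix ι ι F) *ᵥ v)
  rwa [GeoClasses.gl_inv_mulVec] at h

omit [Finite F] [Fintype ι] [DecidableEq ι] in
theorem exists_polar_vec (hB : BNondeg Q) {u a : ι → F} (hna : ∀ c : F, u ≠ c • a) :
    ∃ v, polar Q u v = 1 ∧ polar Q a v = 0 := by
  obtain ⟨w, hw1, hw2⟩ : ∃ w, polar Q u w ≠ 0 ∧ polar Q a w = 0 := by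
    by_contra hno
    push Not at hno
    have hker : LinearMap.ker (polarBilin Q a) ≤ LinearMap.ker (polarBilin Q u) := fun x hx => by
      by_contra h
      exact hno x h hx
    by_cases ha : ∀ y, polar Q a y = 0
    · refine hna 0 ?_
      rw [zero_smul]
      refine hB u fun y => ?_
      by_contra h
      exact hno y h (ha y)
    push Not at ha
    obtain ⟨y, hy⟩ := ha
    refine hna (polar Q u y / polar Q a y) (sub_eq_zero.1 (hB _ fun x => ?_))
    have hmem : x - (polar Q a x / polar Q a y) • y ∈ LinearMap.ker (polarBilin Q a) := by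
      show polar Q a _ = 0
      rw [polar_sub_right, polar_smul_right, smul_eq_mul, div_mul_cancel₀ _ hy, sub_self]
    have h2 : polar Q u (x - (polar Q a x / polar Q a y) • y) = 0 := hker hmem
    rw [polar_sub_right, polar_smul_right, smul_eq_mul] at h2
    rw [polar_sub_left, polar_smul_left, smul_eq_mul]
    linear_combination h2
  exact ⟨(polar Q u w)⁻¹ • w, by rw [polar_smul_right, smul_eq_mul, inv_mul_cancel₀ hw1],
    by rw [polar_smul_right, hw2, smul_zero]⟩

end Support

/-- `Ω` stabilises no decomposition. -/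
theorem omega_not_le_decompositionStabilizer (hB : BNondeg Q) (hn : 7 ≤ Fintype.card ι) {t m : ℕ}
    {D : Fin t → Submodule F (ι → F)} (hD : IsMDecomposition m D) :
    ¬ omegaGL ⇑Q ≤ decompositionStabilizer D := by
  classical
  intro hle
  have hn' : 5 ≤ finrank F (ι → F) := by rw [Module.finrank_fintype_fun_eq_card]; omega
  obtain ⟨b, hb⟩ := exists_adapted_basis hD
  have hnt : Fintype.card ι = t * m := by
    have h := Module.finrank_eq_card_basis b
    rw [Module.finrank_fintype_fun_eq_card, Fintype.card_prod, Fintype.card_fin, Fintype.card_fin] at h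
    rw [h, mul_comm]
  have hcard : ∀ u z, Q u = 0 → u ≠ 0 → Q z = 0 → z ≠ 0 → (supp b u).card = (supp b z).card := by
    intro u z hu hu0 hz hz0
    obtain ⟨g, hg, rfl⟩ := exists_omega_singular hB (by omega) hu hu0 hz hz0
    exact (card_supp_mulVec hb (hle hg) u).symm
  have key : ∀ u a, Q u = 0 → Q a = 0 → polar Q u a = 0 → (∀ c : F, a ≠ c • u) → u ≠ 0 →
      supp b u = supp b a ∧ ((supp b u).card = 1 ∨ (supp b u).card = 2 ∧ m ≤ 2) := by
    intro u a hu ha hua hau hu0
    have ha0 : a ≠ 0 := fun h => hau 0 (by rw [h, zero_smul])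
    have hua' : ∀ c : F, u ≠ c • a := by
      intro c hc
      by_cases h0 : c = 0
      · exact hu0 (by rw [hc, h0, zero_smul])
      · exact hau c⁻¹ (by rw [hc, inv_smul_smul₀ h0])
    obtain ⟨v₁, hv₁u, hv₁a⟩ := exists_polar_vec hB hua'
    obtain ⟨v₂, hv₂a, hv₂u⟩ := exists_polar_vec hB hau
    obtain ⟨g, hg, hgv⟩ := exists_root hB (by omega) hu ha hua
    obtain ⟨σ, hσ⟩ := hle hg
    have hmap : ∀ i, ∀ v ∈ D i, (g : Matrix ι ι F) *ᵥ v ∈ D (σ i) := fun i v hv => by
      rw [← hσ i]; exact ⟨v, hv, Matrix.toLin'_apply _ _⟩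
    let N : (ι → F) →ₗ[F] (ι → F) := Matrix.toLin' (g : Matrix ι ι F) - LinearMap.id
    have hN : ∀ v, N v = polar Q u v • a - polar Q a v • u := fun v => by
      simp only [N, LinearMap.sub_apply, Matrix.toLin'_apply, LinearMap.id_apply, hgv, add_sub_cancel_left]
    have hgN : ∀ v, (g : Matrix ι ι F) *ᵥ v = v + N v := fun v => by rw [hN, hgv]
    have hNu : N u = 0 := by
      rw [hN, polar_self_zero hu, polar_comm Q a u, hua, zero_smul, zero_smul, sub_zero]
    have hNa : N a = 0 := by rw [hN, hua, polar_self_zero ha, zero_smul, zero_smul, sub_zero]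
    have hNN : ∀ v, N (N v) = 0 := fun v => by
      rw [hN v, map_sub, map_smul, map_smul, hNu, hNa, smul_zero, smul_zero, sub_zero]
    have hNQ : ∀ v, Q (N v) = 0 := fun v => by
      rw [hN, Classical.qf_sub, QuadraticMap.map_smul, QuadraticMap.map_smul, ha, hu, polar_smul_left,
        polar_smul_right, polar_comm Q a u, hua]
      simp
    have hN₁ : N v₁ = a := by rw [hN, hv₁u, hv₁a, one_smul, zero_smul, sub_zero]
    have hN₂ : N v₂ = -u := by rw [hN, hv₂u, hv₂a, one_smul, zero_smul, zero_sub]
    have hNsum : ∀ {S : Finset (Fin t)}, (∀ j, ∀ v ∈ D j, supp b (N v) ⊆ S) → ∀ v, supp b (N v) ⊆ S := by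
      intro S h v
      have hv : v ∈ ⨆ i, D i := hD.iSup_eq_top ▸ Submodule.mem_top
      refine Submodule.iSup_induction D (motive := fun v => supp b (N v) ⊆ S) hv (fun j x hx => h j x hx)
        ?_ fun x y hx hy => by rw [map_add]; exact supp_add hx hy
      rw [map_zero]
      intro i hi
      obtain ⟨k, hk⟩ := mem_supp.1 hi
      simp at hk
    have hconst : ∀ v, N v ≠ 0 → (supp b (N v)).card = (supp b u).card :=
      fun v h => hcard _ _ (hNQ v) h hu hu0
    have hinvo : ∀ i, σ i ≠ i → (2 : F) = 0 ∧ σ (σ i) = i := by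
      intro i hi
      obtain ⟨v, hv, hv0⟩ := Submodule.exists_mem_ne_zero_of_ne_bot (p := D i) fun h => by
        have := hD.finrank_eq i; rw [h, finrank_bot] at this; have := hD.pos; omega
      have hgv0 : (g : Matrix ι ι F) *ᵥ v ≠ 0 := fun h =>
        hv0 (GeoClasses.mulVec_injective g (h.trans (Matrix.mulVec_zero _).symm))
      have h2 := hmap _ _ (hmap i v hv)
      have e : (g : Matrix ι ι F) *ᵥ ((g : Matrix ι ι F) *ᵥ v) = (2 : F) • ((g : Matrix ι ι F) *ᵥ v) - v := by
        rw [hgN v, hgN (v + N v), map_add, hNN, add_zero]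
        module
      rw [e] at h2
      by_cases hc : (2 : F) = 0
      · refine ⟨hc, ?_⟩
        rw [hc, zero_smul, zero_sub] at h2
        have h3 := supp_eq_of_mem hb h2 (neg_ne_zero.2 hv0)
        rw [supp_eq_of_mem hb ((D i).neg_mem hv) (neg_ne_zero.2 hv0)] at h3
        exact (Finset.singleton_injective h3).symm
      · exfalso
        have h3 := supp_sub_pair hb hi ((D (σ i)).smul_mem (2 : F) (hmap i v hv)) (smul_ne_zero hc hgv0) hv hv0
        rw [supp_eq_of_mem hb h2 (fun h0 => by
          rw [h0] at h3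
          have : σ i ∈ supp b (0 : ι → F) := by rw [h3]; simp
          obtain ⟨k, hk⟩ := mem_supp.1 this
          simp at hk)] at h3
        have := congrArg Finset.card h3
        rw [Finset.card_singleton, Finset.card_pair hi] at this
        omega
    -- a common support
    suffices h : ∃ S : Finset (Fin t), (∀ v, supp b (N v) ⊆ S) ∧ S.card = (supp b u).card ∧
        ((supp b u).card = 1 ∨ (supp b u).card = 2 ∧ m ≤ 2) by
      obtain ⟨S, hS, hSc, hs⟩ := h
      have h1 : supp b u ⊆ S := by
        rw [← neg_neg u, ← hN₂, ← neg_one_smul F (N v₂)]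
        exact supp_smul _ (hS v₂)
      have h2 : supp b a ⊆ S := hN₁ ▸ hS v₁
      refine ⟨?_, hs⟩
      rw [Finset.eq_of_subset_of_card_le h1 hSc.le,
        Finset.eq_of_subset_of_card_le h2 (by rw [hSc, hcard u a hu hu0 ha ha0])]
    by_cases hall : ∀ i, σ i = i
    · -- no part moves
      have hpart : ∀ i, ∀ v ∈ D i, N v ∈ D i := fun i v hv => by
        have := (D i).sub_mem (hall i ▸ hmap i v hv) hv
        rwa [hgN, add_sub_cancel_left] at this
      obtain ⟨i, v, hv, hne⟩ : ∃ i, ∃ v ∈ D i, N v ≠ 0 := by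
        by_contra hno
        push Not at hno
        have := hNsum (S := ∅) (fun j v hv i hi => by
          rw [hno j v hv] at hi
          obtain ⟨k, hk⟩ := mem_supp.1 hi
          simp at hk) v₁
        rw [hN₁, Finset.subset_empty] at this
        refine ha0 (b.equivFun.injective (funext fun r => ?_))
        rw [map_zero, Pi.zero_apply]
        by_contra h
        have h' : r.2 ∈ supp b a := mem_supp.2 ⟨r.1, h⟩
        rw [this] at h'
        simp at h'
      have hs1 : (supp b u).card = 1 := by
        rw [← hconst v hne, supp_eq_of_mem hb (hpart i v hv) hne, Finset.card_singleton]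
      refine ⟨{i}, hNsum fun j w hw => ?_, by rw [hs1, Finset.card_singleton], Or.inl hs1⟩
      rcases eq_or_ne (N w) 0 with h0 | h0
      · intro l hl
        rw [h0] at hl
        obtain ⟨k, hk⟩ := mem_supp.1 hl
        simp at hk
      rw [supp_eq_of_mem hb (hpart j w hw) h0]
      by_contra hji
      rw [Finset.singleton_subset_iff, Finset.mem_singleton] at hji
      have hsum : N (v + w) = N v - (-N w) := by rw [map_add, sub_neg_eq_add]
      have hsupp := supp_sub_pair hb (Ne.symm hji) (hpart i v hv) hne ((D j).neg_mem (hpart j w hw))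
        (neg_ne_zero.2 h0)
      rw [← hsum] at hsupp
      have hne' : N (v + w) ≠ 0 := fun h => by
        rw [h] at hsupp
        have : i ∈ supp b (0 : ι → F) := by rw [hsupp]; simp
        obtain ⟨k, hk⟩ := mem_supp.1 this
        simp at hk
      have := hconst _ hne'
      rw [hsupp, hs1, Finset.card_pair (Ne.symm hji)] at this
      omega
    · push Not at hall
      obtain ⟨i, hi⟩ := hall
      obtain ⟨h2F, hii⟩ := hinvo i hi
      have hmoved : ∀ j, σ j ≠ j → ∀ v ∈ D j, v ≠ 0 → N v ≠ 0 ∧ supp b (N v) = {σ j, j} := by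
        intro j hj v hv hv0
        have hgv0 : (g : Matrix ι ι F) *ᵥ v ≠ 0 := fun h =>
          hv0 (GeoClasses.mulVec_injective g (h.trans (Matrix.mulVec_zero _).symm))
        have h := supp_sub_pair hb hj (hmap j v hv) hgv0 hv hv0
        rw [hgN, add_sub_cancel_left] at h
        refine ⟨fun h0 => ?_, h⟩
        rw [h0] at h
        have : j ∈ supp b (0 : ι → F) := by rw [h]; simp
        obtain ⟨k, hk⟩ := mem_supp.1 this
        simp at hk
      obtain ⟨v, hv, hv0⟩ := Submodule.exists_mem_ne_zero_of_ne_bot (p := D i) fun h => by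
        have := hD.finrank_eq i; rw [h, finrank_bot] at this; have := hD.pos; omega
      obtain ⟨hne, hsv⟩ := hmoved i hi v hv hv0
      have hs2 : (supp b u).card = 2 := by rw [← hconst v hne, hsv, Finset.card_pair hi]
      have hm2 : m ≤ 2 := by
        have hinj : Function.Injective (N.comp (D i).subtype) := by
          rw [← LinearMap.ker_eq_bot, LinearMap.ker_eq_bot']
          intro x hx
          by_contra hx0
          exact (hmoved i hi x x.2 fun h => hx0 (Subtype.ext h)).1 hx
        have hrange : LinearMap.range (N.comp (D i).subtype) ≤ Submodule.span F (Set.range ![a, u]) := by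
          rintro _ ⟨x, rfl⟩
          rw [LinearMap.comp_apply, hN]
          exact Submodule.sub_mem _ (Submodule.smul_mem _ _ (Submodule.subset_span ⟨0, rfl⟩))
            (Submodule.smul_mem _ _ (Submodule.subset_span ⟨1, rfl⟩))
        have h1 := Submodule.finrank_mono hrange
        rw [LinearMap.finrank_range_of_inj hinj, hD.finrank_eq i] at h1
        exact h1.trans ((finrank_range_le_card ![a, u]).trans (le_of_eq (Fintype.card_fin 2)))
      refine ⟨{σ i, i}, hNsum fun j w hw => ?_, by rw [hs2, Finset.card_pair hi], Or.inr ⟨hs2, hm2⟩⟩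
      rcases eq_or_ne (N w) 0 with h0 | h0
      · intro l hl
        rw [h0] at hl
        obtain ⟨k, hk⟩ := mem_supp.1 hl
        simp at hk
      have hw0 : w ≠ 0 := fun h => h0 (by rw [h, map_zero])
      by_cases hj : σ j = j
      · exfalso
        have hNw : N w ∈ D j := by
          have := (D j).sub_mem (hj ▸ hmap j w hw) hw
          rwa [hgN, add_sub_cancel_left] at this
        have := hconst w h0
        rw [supp_eq_of_mem hb hNw h0, hs2, Finset.card_singleton] at this
        omega
      obtain ⟨-, hsw⟩ := hmoved j hj w hw hw0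
      rw [hsw]
      by_contra hsub
      -- two disjoint pairs
      have hd : j ≠ i ∧ j ≠ σ i := by
        refine ⟨fun h => hsub (by rw [h]), fun h => hsub (by rw [h, hii, Finset.pair_comm])⟩
      have hd' : σ j ≠ i ∧ σ j ≠ σ i :=
        ⟨fun h => hd.2 ((σ.injective (hii.trans h.symm)).symm), fun h => hd.1 (σ.injective h)⟩
      have hsum : N (v + w) = N v + N w := map_add _ _ _
      have hsub2 : ({σ i, i, j} : Finset (Fin t)) ⊆ supp b (N (v + w)) := by
        intro l hl
        have hcases : (l ∈ supp b (N v) ∧ l ∉ supp b (N w)) ∨ (l ∈ supp b (N w) ∧ l ∉ supp b (N v)) := by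
          rw [hsv, hsw]
          simp only [Finset.mem_insert, Finset.mem_singleton] at hl ⊢
          rcases hl with rfl | rfl | rfl
          · exact Or.inl ⟨Or.inl rfl, by rintro (h | h) <;> [exact hd'.2 h.symm; exact hd.2 h.symm]⟩
          · exact Or.inl ⟨Or.inr rfl, by rintro (h | h) <;> [exact hd'.1 h.symm; exact hd.1 h.symm]⟩
          · exact Or.inr ⟨Or.inr rfl, by rintro (h | h) <;> [exact hd.2 h; exact hd.1 h]⟩
        rw [mem_supp, hsum, map_add]
        rcases hcases with ⟨h1, h2⟩ | ⟨h1, h2⟩ <;> obtain ⟨k, hk⟩ := mem_supp.1 h1 <;>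
          refine ⟨k, ?_⟩ <;> rw [mem_supp] at h2 <;> push Not at h2 <;>
          simp only [Pi.add_apply, h2 k, zero_add, add_zero] <;> exact hk
      have hne' : N (v + w) ≠ 0 := fun h => by
        rw [h] at hsub2
        have : i ∈ supp b (0 : ι → F) := hsub2 (by simp)
        obtain ⟨k, hk⟩ := mem_supp.1 this
        simp at hk
      have h3 := Finset.card_le_card hsub2
      rw [hconst _ hne', hs2, Finset.card_insert_of_notMem (by
        simp only [Finset.mem_insert, Finset.mem_singleton]
        rintro (h | h) <;> [exact hi h; exact hd.2 h.symm]), Finset.card_pair hd.1.symm] at h3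
      omega
  have hsame : ∀ u a, Q u = 0 → Q a = 0 → u ≠ 0 → a ≠ 0 → polar Q u a = 0 → supp b u = supp b a := by
    intro u a hu ha hu0 ha0 hua
    by_cases hli : ∀ c : F, a ≠ c • u
    · exact (key u a hu ha hua hli hu0).1
    · push Not at hli
      obtain ⟨c, rfl⟩ := hli
      have hc : c ≠ 0 := fun h => ha0 (by rw [h, zero_smul])
      exact Finset.Subset.antisymm (by
        rw [← inv_smul_smul₀ hc u, smul_inv_smul₀ hc]; exact supp_smul _ subset_rfl) (supp_smul _ subset_rfl)
  obtain ⟨e, f, e', f', hp⟩ := OrthGen.hasTwoPairs_of_five_le hB hn'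
  obtain ⟨⟨he, hf, hef⟩, ⟨he', hf', hef'⟩, hee', hef'', hfe', hff'⟩ := id hp
  have hli : ∀ c : F, e' ≠ c • e := fun c hc => by
    rw [hc, polar_smul_left, hef'', smul_zero] at hef'
    exact zero_ne_one hef'
  have hs := (key e e' he he' hee' hli hp.1.ne_zero).2
  have hall : ∀ v, supp b v ⊆ supp b e := fun v =>
    Classical.singular_induction hp.1 (P := fun v => supp b v ⊆ supp b e)
      (fun x y hx hy => supp_add hx hy) (fun x hx => by
        rcases eq_or_ne x 0 with rfl | hx0
        · intro l hl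
          obtain ⟨k, hk⟩ := mem_supp.1 hl
          simp at hk
        · rw [const_of_orth hB hn' (supp b) hsame he hp.1.ne_zero hx hx0]) v
  have ht : t ≤ (supp b e).card := by
    have : Finset.univ ⊆ supp b e := fun i _ => by
      obtain ⟨v, hv, hv0⟩ := Submodule.exists_mem_ne_zero_of_ne_bot (p := D i) fun h => by
        have := hD.finrank_eq i; rw [h, finrank_bot] at this; have := hD.pos; omega
      have := hall v
      rw [supp_eq_of_mem hb hv hv0] at this
      exact this (Finset.mem_singleton_self i)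
    simpa using Finset.card_le_card this
  have h2 := hD.two_le
  rcases hs with h | ⟨h, hm⟩
  · omega
  · have : t * m ≤ 2 * 2 := Nat.mul_le_mul (by omega) hm
    omega

/-- `Ω` is realised over no proper subfield. -/
theorem omega_not_le_subfieldSubgroup (hB : BNondeg Q) (hn : 7 ≤ Fintype.card ι) {F₀ : Subfield F}
    (hF₀ : F₀ ≠ ⊤) (P : GL ι F) : ¬ omegaGL ⇑Q ≤ subfieldSubgroup F₀ P := by
  classical
  intro hle
  obtain ⟨e, f, e', f', hp⟩ := OrthGen.hasTwoPairs_of_five_le hB
    (by rw [Module.finrank_fintype_fun_eq_card]; omega)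
  obtain ⟨⟨he, hf, hef⟩, ⟨he', hf', hef'⟩, hee', hef'', hfe', hff'⟩ := id hp
  have hfe : polar Q f e = 1 := by rw [polar_comm]; exact hef
  have hf'e' : polar Q f' e' = 1 := by rw [polar_comm]; exact hef'
  have he'e : polar Q e' e = 0 := by rw [polar_comm]; exact hee'
  have hf'e : polar Q f' e = 0 := by rw [polar_comm]; exact hef''
  have he'f : polar Q e' f = 0 := by rw [polar_comm]; exact hfe'
  have hf'f : polar Q f' f = 0 := by rw [polar_comm]; exact hff'
  apply hF₀
  rw [eq_top_iff]
  intro c _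
  have hce : Q (c • e') = 0 := by rw [QuadraticMap.map_smul, he', smul_zero]
  obtain ⟨x, hx, hxv⟩ := exists_root hB (by omega) he hce (by rw [polar_smul_right, hee', smul_zero])
  obtain ⟨y, hy, hyv⟩ := exists_root hB (by omega) hf hf' hff'
  obtain ⟨z, hz, hzv⟩ := exists_root hB (by omega) he hf' hef''
  obtain ⟨w, hw, hwv⟩ := exists_root hB (by omega) hf he' hfe'
  have hg : x * y * z * w ∈ omegaGL ⇑Q := mul_mem (mul_mem (mul_mem hx hy) hz) hw
  have htr := ClassicalMax.trace_mem_of_perfect (omega_perfect hB hn) hle hg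
  set M : Matrix ι ι F := ((x * y * z * w : GL ι F) : Matrix ι ι F) with hM
  have hMv : ∀ v, M *ᵥ v = (x : Matrix ι ι F) *ᵥ ((y : Matrix ι ι F) *ᵥ ((z : Matrix ι ι F) *ᵥ
      ((w : Matrix ι ι F) *ᵥ v))) := fun v => by
    simp [hM, Units.val_mul, Matrix.mulVec_mulVec, mul_assoc]
  let L : (ι → F) →ₗ[F] (ι → F) := Matrix.toLin' M - LinearMap.id
  have hL : L = ((polarBilin Q f).comp L).smulRight e + ((polarBilin Q e).comp L).smulRight f
      + ((polarBilin Q f').comp L).smulRight e' + ((polarBilin Q e').comp L).smulRight f' := by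
    apply LinearMap.ext
    intro v
    have hS : L v ∈ Submodule.span F (Set.range ![e, f, e', f']) := by
      set S := Submodule.span F (Set.range ![e, f, e', f'])
      have hmem : ∀ i, (![e, f, e', f'] i) ∈ S := fun i => Submodule.subset_span ⟨i, rfl⟩
      have h0 : e ∈ S := hmem 0
      have h1 : f ∈ S := hmem 1
      have h2 : e' ∈ S := hmem 2
      have h3 : f' ∈ S := hmem 3
      have step : ∀ (g : GL ι F) (u a : ι → F), u ∈ S → a ∈ S →
          (∀ v, (g : Matrix ι ι F) *ᵥ v = v + (polar Q u v • a - polar Q a v • u)) →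
          ∀ p, (g : Matrix ι ι F) *ᵥ p - p ∈ S := fun g u a hu ha hgv p => by
        rw [hgv, add_sub_cancel_left]
        exact S.sub_mem (S.smul_mem _ ha) (S.smul_mem _ hu)
      have := S.add_mem (S.add_mem (S.add_mem
        (step x e (c • e') h0 (S.smul_mem c h2) hxv ((y : Matrix ι ι F) *ᵥ ((z : Matrix ι ι F) *ᵥ ((w : Matrix ι ι F) *ᵥ v))))
        (step y f f' h1 h3 hyv ((z : Matrix ι ι F) *ᵥ ((w : Matrix ι ι F) *ᵥ v))))
        (step z e f' h0 h3 hzv ((w : Matrix ι ι F) *ᵥ v))) (step w f e' h1 h2 hwv v)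
      simp only [L, LinearMap.sub_apply, Matrix.toLin'_apply, LinearMap.id_apply, hMv]
      convert this using 1
      abel
    rw [Submodule.mem_span_range_iff_exists_fun] at hS
    obtain ⟨k, hk⟩ := hS
    have hpq : L v = k 0 • e + k 1 • f + k 2 • e' + k 3 • f' := by
      rw [← hk, Fin.sum_univ_four]
      rfl
    simp only [LinearMap.add_apply, LinearMap.smulRight_apply, LinearMap.comp_apply, polarBilin_apply_apply, hpq,
      polar_add_right, polar_smul_right, hee', hef, hef'', hef', hfe, hfe', hff', hf'e', he'e, hf'e, he'f, hf'f,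
      polar_self_zero he, polar_self_zero hf, polar_self_zero he', polar_self_zero hf', smul_eq_mul,
      mul_one, mul_zero, add_zero, zero_add]
  have htrL : LinearMap.trace F (ι → F) L = M.trace - (Fintype.card ι : F) := by
    simp [L, Matrix.trace_toLin'_eq, Module.finrank_fintype_fun_eq_card]
  rw [hL] at htrL
  simp only [map_add, LinearMap.trace_smulRight, LinearMap.comp_apply, polarBilin_apply_apply] at htrL
  simp only [L, LinearMap.sub_apply, Matrix.toLin'_apply, LinearMap.id_apply, hMv, hwv, hzv, hyv, hxv,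
    polar_add_right, polar_sub_right, polar_smul_right, polar_smul_left, hee', hef, hef'', hef', hfe, hfe',
    hff', hf'e', he'e, hf'e, he'f, hf'f, polar_self_zero he, polar_self_zero hf, polar_self_zero he',
    polar_self_zero hf', smul_eq_mul, polar_neg_right, neg_zero, mul_one, mul_zero, zero_smul, one_smul, add_zero,
    zero_add, sub_zero, zero_sub] at htrL
  have hnat : ∀ k : ℕ, (k : F) ∈ F₀ := fun k => natCast_mem F₀ k
  have hc : c = -(M.trace) + (Fintype.card ι : F) - 2 := by linear_combination -htrL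
  rw [hc]
  exact F₀.sub_mem (F₀.add_mem (F₀.neg_mem htr) (hnat _)) (by exact_mod_cast hnat 2)

end Cfsg.Agent.OrthMax
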