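import Cfsg.Agent.NotMax.OrthBase
import Cfsg.Agent.ClassicalMax.FormProper
import Cfsg.Agent.ClassicalMax.Decomp
import Cfsg.Agent.Forms.Quadratic

/-!
`Ω(Q)` in dimension at least seven: perfectness and properness of geometric members.
-/

set_option autoImplicit false
set_option linter.style.haveILetI false

namespace Cfsg.Agent.OrthMax

open Matrix Cfsg.Geo QuadraticMap Module
open Cfsg.Agent.Classical (OQ BNondeg siegel siegel_apply EQ hypAdd HasTwoPairs TwoPairs IsPair)
open Cfsg.Agent.GeoClasses (oqToGL oqToGL_mulVec map_oqToGL_commutator)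
open scoped MatrixGroups Matrix commutatorElement Kronecker

variable {F : Type*} [Field F] [Finite F]

section Hyperbolic

variable {V : Type*} [AddCommGroup V] [Module F V] [FiniteDimensional F V] {Q : QuadraticForm F V}

/-- In dimension at least seven the commutator subgroup of the orthogonal group is perfect. -/
theorem commutator_OQ_perfect (hB : BNondeg Q) (hn : 7 ≤ finrank F V) :
    ⁅commutator (OQ Q), commutator (OQ Q)⁆ = commutator (OQ Q) := by
  obtain ⟨e, f, -, -, ⟨he, hf, hef⟩, -⟩ := OrthGen.hasTwoPairs_of_five_le hB (by omega)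
  have hfe : polar Q f e = 1 := by rw [polar_comm]; exact hef
  have hee : polar Q e e = 0 := by rw [OrthGen.polar_self_two, he, mul_zero]
  have hff : polar Q f f = 0 := by rw [OrthGen.polar_self_two, hf, mul_zero]
  let S : Submodule F V :=
    { carrier := {v | polar Q e v = 0 ∧ polar Q f v = 0}
      add_mem' := fun {a b} ha hb =>
        ⟨by rw [polar_add_right, ha.1, hb.1, add_zero], by rw [polar_add_right, ha.2, hb.2, add_zero]⟩
      zero_mem' := ⟨polar_zero_right Q e, polar_zero_right Q f⟩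
      smul_mem' := fun c {a} ha =>
        ⟨by rw [polar_smul_right, ha.1, smul_zero], by rw [polar_smul_right, ha.2, smul_zero]⟩ }
  have hmem : ∀ v : V, v - polar Q f v • e - polar Q e v • f ∈ S := fun v => by
    constructor <;>
    · simp only [polar_sub_right, polar_smul_right, hee, hff, hef, hfe, smul_eq_mul]
      ring
  let φ : ((F × F) × S) →ₗ[F] V :=
    (LinearMap.coprod (LinearMap.coprod (LinearMap.toSpanSingleton F V e) (LinearMap.toSpanSingleton F V f))
      S.subtype)
  have hφ : ∀ x, φ x = x.1.1 • e + x.1.2 • f + (x.2 : V) := fun x => by simp [φ]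
  have hinj : Function.Injective φ := by
    rw [← LinearMap.ker_eq_bot, LinearMap.ker_eq_bot']
    intro x hx
    rw [hφ] at hx
    have h1 := congrArg (polar Q f) hx
    have h2 := congrArg (polar Q e) hx
    simp only [polar_add_right, polar_smul_right, hee, hff, hef, hfe, x.2.2.1, x.2.2.2, smul_eq_mul,
      mul_zero, mul_one, zero_add, add_zero, polar_zero_right] at h1 h2
    rw [h1, h2, zero_smul, zero_smul, zero_add, zero_add] at hx
    exact Prod.ext (Prod.ext h1 h2) (Subtype.ext hx)
  have hsurj : Function.Surjective φ := fun v =>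
    ⟨((polar Q f v, polar Q e v), ⟨_, hmem v⟩), by rw [hφ]; module⟩
  let E := LinearEquiv.ofBijective φ ⟨hinj, hsurj⟩
  set R : QuadraticForm F S := Q.comp S.subtype with hRdef
  have hspec : ∀ x, Q (E x) = hypAdd R x := by
    intro x
    show Q (φ x) = _
    rw [hφ, Classical.hypAdd_apply, hRdef, QuadraticMap.comp_apply, Submodule.subtype_apply,
      Classical.qf_add, Classical.qf_add, QuadraticMap.map_smul, QuadraticMap.map_smul, he, hf,
      polar_add_left, polar_smul_left, polar_smul_left, polar_smul_left, polar_smul_right, hef,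
      x.2.2.1, x.2.2.2]
    simp
  have hRB : BNondeg R := by
    intro x hx
    refine Subtype.ext (hB x fun y => ?_)
    have h0 := hx ⟨_, hmem y⟩
    change polar Q (x : V) _ = 0 at h0
    rw [polar_sub_right, polar_sub_right, polar_smul_right, polar_smul_right, polar_comm Q (x : V) e,
      polar_comm Q (x : V) f, x.2.1, x.2.2, smul_zero, smul_zero, sub_zero, sub_zero] at h0
    exact h0
  have hdim : finrank F S + 2 = finrank F V := by
    rw [← E.finrank_eq]
    simp [add_comm]
  have hH : ⁅commutator (OQ (hypAdd R)), commutator (OQ (hypAdd R))⁆ = commutator (OQ (hypAdd R)) := by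
    rw [GeoClasses.commutator_eq_EQ (Classical.bNondeg_hypAdd hRB)
      (by rw [E.finrank_eq]; omega)]
    exact (Classical.EQ_perfect hRB.qNondeg (OrthGen.hasTwoPairs_of_five_le hRB (by omega))).symm
  let Θ := Classical.OQCongr E hspec
  rw [← Classical.map_commutator_top_of_equiv Θ, ← Subgroup.map_commutator, hH]

omit [Finite F] [FiniteDimensional F V] in
theorem polar_self_zero {u : V} (hu : Q u = 0) : polar Q u u = 0 := by
  rw [OrthGen.polar_self_two, hu, mul_zero]

/-- Two hyperbolic pairs through a singular vector. -/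
theorem exists_pairs_of_singular (hB : BNondeg Q) (hn : 5 ≤ finrank F V) {u : V} (hu : Q u = 0)
    (hu0 : u ≠ 0) : ∃ f a b, TwoPairs Q u f a b :=
  (OrthGen.hasTwoPairs_of_five_le hB hn).two_pairs_of_singular hB.qNondeg hu0 hu

/-- A non-zero singular vector orthogonal to two given ones. -/
theorem exists_singular_perp_two (hB : BNondeg Q) (hn : 5 ≤ finrank F V) (x y : V) :
    ∃ w, w ≠ 0 ∧ Q w = 0 ∧ polar Q x w = 0 ∧ polar Q y w = 0 := by
  have h1 : finrank F ↥(Submodule.span F (Set.range ![x, y])) ≤ 2 :=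
    (finrank_range_le_card ![x, y]).trans (le_of_eq (Fintype.card_fin 2))
  obtain ⟨w, hw, hw0, hQw⟩ := Forms.exists_singular_vector_of_three_le Q
    (S := OrthGen.perpSub Q (Submodule.span F (Set.range ![x, y]))) (by
      rw [OrthGen.finrank_orthogonal_polar hB]; omega)
  exact ⟨w, hw0, hQw, hw x (Submodule.subset_span ⟨0, rfl⟩), hw y (Submodule.subset_span ⟨1, rfl⟩)⟩

/-- A property of singular vectors that passes between orthogonal ones is constant. -/
theorem const_of_orth (hB : BNondeg Q) (hn : 5 ≤ finrank F V) {α : Type*} (c : V → α)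
    (h : ∀ u a, Q u = 0 → Q a = 0 → u ≠ 0 → a ≠ 0 → polar Q u a = 0 → c u = c a)
    {u z : V} (hu : Q u = 0) (hu0 : u ≠ 0) (hz : Q z = 0) (hz0 : z ≠ 0) : c u = c z := by
  obtain ⟨w, hw0, hw, huw, hzw⟩ := exists_singular_perp_two hB hn u z
  exact (h u w hu hw hu0 hw0 huw).trans (h z w hz hw hz0 hw0 hzw).symm

end Hyperbolic

section Matrices

variable {ι : Type} [Fintype ι] [DecidableEq ι] {Q : QuadraticForm F (ι → F)}

theorem omega_perfect (hB : BNondeg Q) (hn : 7 ≤ Fintype.card ι) :
    ⁅omegaGL ⇑Q, omegaGL ⇑Q⁆ = omegaGL ⇑Q := by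
  rw [← map_oqToGL_commutator, ← Subgroup.map_commutator,
    commutator_OQ_perfect hB (by rwa [Module.finrank_fintype_fun_eq_card])]

/-- The root elements of `Ω`. -/
theorem exists_root (hB : BNondeg Q) (hn : 5 ≤ Fintype.card ι) {u a : ι → F} (hu : Q u = 0)
    (ha : Q a = 0) (hua : polar Q u a = 0) :
    ∃ g ∈ omegaGL ⇑Q, ∀ v, (g : Matrix ι ι F) *ᵥ v = v + (polar Q u v • a - polar Q a v • u) := by
  refine ⟨oqToGL Q (siegel Q hu hua), ?_, fun v => ?_⟩
  · rw [← map_oqToGL_commutator]
    exact ⟨_, GeoClasses.siegel_singular_mem_commutator hB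
      (by rwa [Module.finrank_fintype_fun_eq_card]) hu hua ha, rfl⟩
  · rw [oqToGL_mulVec, siegel_apply, ha, zero_mul, zero_smul, sub_zero]
    abel

/-- A subgroup with all root elements contains `Ω`. -/
theorem omega_le_of_roots (hB : BNondeg Q) (hn : 5 ≤ Fintype.card ι) {X : Subgroup (GL ι F)}
    (h : ∀ g ∈ omegaGL ⇑Q, ∀ u a : ι → F, Q u = 0 → Q a = 0 → polar Q u a = 0 →
      (∀ v, (g : Matrix ι ι F) *ᵥ v = v + (polar Q u v • a - polar Q a v • u)) → g ∈ X) :
    omegaGL ⇑Q ≤ X := by
  have hn' : 5 ≤ finrank F (ι → F) := by rwa [Module.finrank_fintype_fun_eq_card]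
  have hp := OrthGen.hasTwoPairs_of_five_le hB hn'
  rw [← map_oqToGL_commutator, Subgroup.map_le_iff_le_comap, GeoClasses.commutator_eq_EQ hB hn']
  refine (Subgroup.closure_le _).2 ?_
  rintro _ ⟨u, a, hu, ha, rfl⟩
  refine (Subgroup.closure_le _).2 ?_ (OrthGen.siegel_mem_singSiegel hB hp hu ha)
  rintro _ ⟨u, a, hu, ha, ha0, rfl⟩
  refine h _ ?_ u a hu ha0 ha fun v => ?_
  · rw [← map_oqToGL_commutator]
    exact ⟨_, GeoClasses.siegel_singular_mem_commutator hB hn' hu ha ha0, rfl⟩
  · rw [oqToGL_mulVec, siegel_apply, ha0, zero_mul, zero_smul, sub_zero]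
    abel

theorem omega_not_le_stabilizer (hB : BNondeg Q) (hn : 5 ≤ Fintype.card ι) {W : Submodule F (ι → F)}
    (hb : W ≠ ⊥) (ht : W ≠ ⊤) : ¬ omegaGL ⇑Q ≤ subspaceStabilizer W := by
  intro hle
  obtain ⟨k, hk, w, hw, hkw⟩ := NotMax.exists_commutator_not_stab hB
    (by rwa [Module.finrank_fintype_fun_eq_card]) hb ht
  exact hkw (NotMax.oqToGL_mem_stab_iff.1 (hle (map_oqToGL_commutator Q ▸ ⟨k, hk, rfl⟩)) w hw)

/-- Only the scalars commute with `Ω`. -/
theorem exists_scalar_of_commute (hB : BNondeg Q) (hn : 5 ≤ Fintype.card ι) {M : Matrix ι ι F}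
    (hM : ∀ g ∈ omegaGL ⇑Q, M * g = g * M) : ∃ c : F, M = c • 1 := by
  classical
  have hn' : 5 ≤ finrank F (ι → F) := by rwa [Module.finrank_fintype_fun_eq_card]
  have eqn : ∀ u a : ι → F, Q u = 0 → Q a = 0 → polar Q u a = 0 → ∀ v,
      polar Q u v • (M *ᵥ a) - polar Q a v • (M *ᵥ u) =
        polar Q u (M *ᵥ v) • a - polar Q a (M *ᵥ v) • u := by
    intro u a hu ha hua v
    obtain ⟨g, hg, hgv⟩ := exists_root hB hn hu ha hua
    have := congrArg (· *ᵥ v) (hM g hg)
    simpa [← Matrix.mulVec_mulVec, hgv, Matrix.mulVec_add, Matrix.mulVec_sub, Matrix.mulVec_smul] using this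
  have heig : ∀ u, Q u = 0 → u ≠ 0 → ∃ c : F, M *ᵥ u = c • u := by
    intro u hu hu0
    obtain ⟨f, a, b, ⟨-, -, huf⟩, ⟨ha, hb, hab⟩, hua, hub, -, -⟩ := exists_pairs_of_singular hB hn' hu hu0
    have h1 := eqn u a hu ha hua b
    rw [hub, hab, zero_smul, one_smul, zero_sub] at h1
    have h2 := eqn u b hu hb hub a
    rw [hua, polar_comm Q b a, hab, zero_smul, one_smul, zero_sub] at h2
    have h3 := congrArg (polar Q b) (h1.symm.trans h2)
    simp only [polar_sub_right, polar_smul_right, polar_comm Q b u, hub, polar_comm Q b a, hab,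
      polar_self_zero hb, smul_eq_mul, mul_one, mul_zero, sub_zero] at h3
    rw [h3, zero_smul, zero_sub, neg_inj] at h1
    exact ⟨_, h1⟩
  choose! c hc using heig
  have hsame : ∀ u a, Q u = 0 → Q a = 0 → u ≠ 0 → a ≠ 0 → polar Q u a = 0 → c u = c a := by
    intro u a hu ha hu0 ha0 hua
    by_cases hli : ∃ s : F, a = s • u
    · obtain ⟨s, rfl⟩ := hli
      have h1 := hc (s • u) ha ha0
      rw [Matrix.mulVec_smul, hc u hu hu0, smul_comm] at h1
      exact smul_left_injective F ha0 h1
    · push Not at hli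
      have hs : Q (u + a) = 0 := by rw [Classical.qf_add, hu, ha, hua, add_zero, add_zero]
      have hs0 : u + a ≠ 0 := fun h => hli (-1) (by rw [neg_one_smul]; exact eq_neg_of_add_eq_zero_right h)
      have h1 := hc _ hs hs0
      rw [Matrix.mulVec_add, hc u hu hu0, hc a ha ha0, smul_add] at h1
      have h2 : (c a - c (u + a)) • a = (c (u + a) - c u) • u := by
        rw [sub_smul, sub_smul, sub_eq_sub_iff_add_eq_add, add_comm (c a • a), h1]
      by_cases hz : c a - c (u + a) = 0
      · rw [hz, zero_smul] at h2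
        have := (smul_eq_zero.1 h2.symm).resolve_right hu0
        rw [← sub_eq_zero.1 this, ← sub_eq_zero.1 hz]
      · exact absurd (by rw [mul_smul, ← h2, inv_smul_smul₀ hz] :
          a = ((c a - c (u + a))⁻¹ * (c (u + a) - c u)) • u) (hli _)
  obtain ⟨e, f, -, -, hef, -⟩ := OrthGen.hasTwoPairs_of_five_le hB hn'
  refine ⟨c e, Matrix.toLin'.injective (LinearMap.ext fun v => ?_)⟩
  refine Classical.singular_induction hef
    (P := fun v => Matrix.toLin' M v = Matrix.toLin' (c e • (1 : Matrix ι ι F)) v)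
    (fun x y hx hy => by rw [map_add, map_add, hx, hy]) (fun x hx => ?_) v
  rcases eq_or_ne x 0 with rfl | hx0
  · simp
  · rw [Matrix.toLin'_apply, Matrix.toLin'_apply, hc x hx hx0, Matrix.smul_mulVec, Matrix.one_mulVec,
      const_of_orth hB hn' c hsame hef.1 hef.ne_zero hx hx0]

omit [Finite F] [Fintype ι] [DecidableEq ι] in
theorem exists_ne_index {κ : Type*} [Fintype κ] (h : 2 ≤ Fintype.card κ) : ∃ i j : κ, i ≠ j :=
  Fintype.exists_pair_of_one_lt_card (by omega)

set_option maxHeartbeats 1000000 in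
/-- A perfect group normalising a field centralises it. -/
theorem commute_of_perfect_normalizer [Nonempty ι] {S : Subgroup (GL ι F)} (hS : ⁅S, S⁆ = S) {r : ℕ}
    {K : Subalgebra F (Matrix ι ι F)} (hK : IsFieldSubalgebra r K) (hle : S ≤ subalgebraNormalizer K)
    {k : Matrix ι ι F} (hk : k ∈ K) {g : GL ι F} (hg : g ∈ S) : k * g = g * k := by
  classical
  letI : CommRing K := { (inferInstance : Ring K) with
    mul_comm := fun x y => Subtype.ext (hK.comm x x.2 y y.2) }
  haveI : Nontrivial K := ⟨0, 1, fun h => zero_ne_one (congrArg Subtype.val h)⟩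
  haveI : NoZeroDivisors K := ⟨fun {a b} h => by
    by_cases ha : a = 0
    · exact Or.inl ha
    obtain ⟨y, hy, hay⟩ := hK.inv a a.2 fun h => ha (Subtype.ext h)
    refine Or.inr (Subtype.ext ?_)
    show (b : Matrix ι ι F) = 0
    have h' : (a : Matrix ι ι F) * b = 0 := congrArg Subtype.val h
    rw [← one_mul (b : Matrix ι ι F), ← hay, hK.comm a a.2 y hy, mul_assoc, h', mul_zero]⟩
  haveI : IsDomain K := NoZeroDivisors.to_isDomain K
  haveI : Finite K := inferInstance
  letI : Field K := (Finite.isField_of_domain K).toField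
  let ρ : S →* (K ≃ₐ[F] K) :=
    { toFun := fun g =>
        { toFun := fun x => ⟨_, (hle g.2 x.1).1 x.2⟩
          invFun := fun x => ⟨_, (hle (inv_mem g.2) x.1).1 x.2⟩
          left_inv := fun x => Subtype.ext (by simp [mul_assoc])
          right_inv := fun x => Subtype.ext (by simp [mul_assoc])
          map_mul' := fun x y => Subtype.ext (by simp [mul_assoc])
          map_add' := fun x y => Subtype.ext (by simp [mul_add, add_mul])
          commutes' := fun c => Subtype.ext (by
            simp [Algebra.algebraMap_eq_smul_one]) }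
      map_one' := AlgEquiv.ext fun x => Subtype.ext (by simp)
      map_mul' := fun a b => AlgEquiv.ext fun x => Subtype.ext (by simp [mul_assoc]) }
  have hρ : ∀ x y : S, ρ ⁅x, y⁆ = 1 := fun x y => by
    rw [map_commutatorElement, commutatorElement_eq_one_iff_commute]
    obtain ⟨σ, hσ⟩ := IsCyclic.exists_generator (α := Gal(K/F))
    obtain ⟨i, hi⟩ := Subgroup.mem_zpowers_iff.1 (hσ (ρ x))
    obtain ⟨j, hj⟩ := Subgroup.mem_zpowers_iff.1 (hσ (ρ y))
    rw [← hi, ← hj]
    exact (Commute.refl σ).zpow_zpow i j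
  have hker : ⁅S, S⁆ ≤ ρ.ker.map S.subtype := by
    rw [Subgroup.commutator_le]
    intro a ha b hb
    exact ⟨⁅(⟨a, ha⟩ : S), (⟨b, hb⟩ : S)⁆, hρ _ _, map_commutatorElement S.subtype _ _⟩
  rw [hS] at hker
  obtain ⟨g', hg', rfl⟩ := hker hg
  have h1 := congrArg Subtype.val (AlgEquiv.ext_iff.1 hg' ⟨k, hk⟩)
  change ((g' : GL ι F) : Matrix ι ι F) * k * (((g' : GL ι F)⁻¹ : GL ι F) : Matrix ι ι F) = k at h1
  conv_lhs => rw [← h1]
  rw [Subgroup.coe_subtype, mul_assoc _ _ ((g' : GL ι F) : Matrix ι ι F), ← Units.val_mul, inv_mul_cancel,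
    Units.val_one, mul_one]

theorem omega_not_le_subalgebraNormalizer (hB : BNondeg Q) (hn : 7 ≤ Fintype.card ι) {r : ℕ} (hr : 1 < r)
    {K : Subalgebra F (Matrix ι ι F)} (hK : IsFieldSubalgebra r K) :
    ¬ omegaGL ⇑Q ≤ subalgebraNormalizer K := by
  intro hle
  haveI : Nonempty ι := Fintype.card_pos_iff.1 (by omega)
  have hbot : K = ⊥ := by
    refine eq_bot_iff.2 fun k hk => ?_
    obtain ⟨c, hc⟩ := exists_scalar_of_commute hB (by omega) fun g hg =>
      commute_of_perfect_normalizer (omega_perfect hB hn) hK hle hk hg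
    exact Algebra.mem_bot.2 ⟨c, by rw [hc, Algebra.algebraMap_eq_smul_one]⟩
  have := hK.finrank_eq
  rw [hbot, Subalgebra.finrank_bot] at this
  omega

/-- `Ω` stabilises no tensor decomposition. -/
theorem omega_not_le_tensorProductSubgroup (hB : BNondeg Q) (hn : 5 ≤ Fintype.card ι) {n₁ n₂ : ℕ}
    (h1 : 2 ≤ n₁) (h2 : 3 ≤ n₂) (e : ι ≃ Fin n₁ × Fin n₂) (P : GL ι F) :
    ¬ omegaGL ⇑Q ≤ tensorProductSubgroup n₁ n₂ e P := by
  classical
  intro hle
  let T : Matrix (Fin n₁ × Fin n₂) (Fin n₁ × Fin n₂) F →* Matrix ι ι F :=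
    { toFun := fun X => (P : Matrix ι ι F) * X.submatrix e e * ((P⁻¹ : GL ι F) : Matrix ι ι F)
      map_one' := by simp
      map_mul' := fun X Y => by
        rw [← Matrix.submatrix_mul_equiv X Y e e e]
        simp only [mul_assoc, Units.inv_mul_cancel_left] }
  have hroot : ∀ g ∈ omegaGL ⇑Q, ∀ u a : ι → F, Q u = 0 → Q a = 0 → polar Q u a = 0 →
      (∀ v, (g : Matrix ι ι F) *ᵥ v = v + (polar Q u v • a - polar Q a v • u)) →
      ∃ (s : F) (d : Matrix (Fin n₂) (Fin n₂) F),
        (g : Matrix ι ι F) = T ((s • (1 : Matrix (Fin n₁) (Fin n₁) F)) ⊗ₖ d) := by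
    intro g hg u a _ _ _ hgv
    obtain ⟨_, ⟨k, ⟨c, d, hk⟩, rfl⟩, hkg⟩ := hle hg
    have hval : (g : Matrix ι ι F) = T ((c : Matrix (Fin n₁) (Fin n₁) F) ⊗ₖ (d : Matrix (Fin n₂) (Fin n₂) F)) := by
      rw [← hkg, ← hk]
      simp [T, glReindex]
    suffices hsc : ∃ s : F, (c : Matrix (Fin n₁) (Fin n₁) F) = s • 1 by
      obtain ⟨s, hs⟩ := hsc
      exact ⟨s, d, hs ▸ hval⟩
    by_contra hns
    obtain ⟨x, hx⟩ : ∃ x, ∀ s : F, (c : Matrix (Fin n₁) (Fin n₁) F) *ᵥ x ≠ s • x := by
      by_contra hall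
      push Not at hall
      choose s hs using hall
      set i₀ : Fin n₁ := ⟨0, by omega⟩
      refine hns ⟨s (Pi.single i₀ 1), Matrix.ext fun i j => ?_⟩
      have hent : ∀ j, ∀ i, (c : Matrix (Fin n₁) (Fin n₁) F) i j = if i = j then s (Pi.single j 1) else 0 :=
        fun j i => by simpa [Pi.single_apply] using congrFun (hs (Pi.single j 1)) i
      rw [hent, Matrix.smul_apply, Matrix.one_apply]
      split
      · next hij =>
        subst hij
        by_cases h0 : i = i₀
        · subst h0; simp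
        · have e1 := congrFun (hs (Pi.single i 1 + Pi.single i₀ 1)) i
          have e2 := congrFun (hs (Pi.single i 1 + Pi.single i₀ 1)) i₀
          simp [Matrix.mulVec_add, hent, h0, Ne.symm h0] at e1 e2
          simp [e1, e2]
      · simp
    have hx0 : x ≠ 0 := fun h => hx 0 (by rw [h]; simp)
    let τ : (Fin n₂ → F) →ₗ[F] (ι → F) :=
      { toFun := fun y => (P : Matrix ι ι F) *ᵥ ((GeoClasses.tensorVec x y) ∘ e)
        map_add' := fun y y' => by
          rw [← Matrix.mulVec_add]; congr 1; funext i; simp [GeoClasses.tensorVec, mul_add]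
        map_smul' := fun r y => by
          rw [RingHom.id_apply, ← Matrix.mulVec_smul]; congr 1; funext i
          simp [GeoClasses.tensorVec, mul_left_comm] }
    let N : (ι → F) →ₗ[F] (ι → F) := Matrix.toLin' (g : Matrix ι ι F) - LinearMap.id
    have hrange : LinearMap.range N ≤ Submodule.span F (Set.range ![a, u]) := by
      rintro _ ⟨v, rfl⟩
      simp only [N, LinearMap.sub_apply, Matrix.toLin'_apply, LinearMap.id_apply, hgv, add_sub_cancel_left]
      exact Submodule.sub_mem _ (Submodule.smul_mem _ _ (Submodule.subset_span ⟨0, rfl⟩))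
        (Submodule.smul_mem _ _ (Submodule.subset_span ⟨1, rfl⟩))
    have hinj : Function.Injective (N.comp τ) := by
      rw [← LinearMap.ker_eq_bot, LinearMap.ker_eq_bot']
      intro y hy
      simp only [N, τ, LinearMap.comp_apply, LinearMap.sub_apply, Matrix.toLin'_apply, LinearMap.id_apply,
        LinearMap.coe_mk, AddHom.coe_mk, sub_eq_zero] at hy
      rw [hval] at hy
      simp only [T, MonoidHom.coe_mk, OneHom.coe_mk, Matrix.mulVec_mulVec, mul_assoc, ← Units.val_mul,
        inv_mul_cancel, Units.val_one, mul_one] at hy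
      rw [← Matrix.mulVec_mulVec] at hy
      have hy' := GeoClasses.mulVec_injective P hy
      rw [Matrix.submatrix_mulVec_equiv] at hy'
      have hpt : ∀ i j, ((c : Matrix (Fin n₁) (Fin n₁) F) *ᵥ x) i *
          ((d : Matrix (Fin n₂) (Fin n₂) F) *ᵥ y) j = x i * y j := by
        intro i j
        have h3 := congrFun hy' (e.symm (i, j))
        simp only [Function.comp_apply, Equiv.apply_symm_apply] at h3
        rw [show (GeoClasses.tensorVec x y ∘ e) ∘ e.symm = GeoClasses.tensorVec x y from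
          funext fun p => by simp] at h3
        refine Eq.trans ?_ h3
        simp only [Matrix.mulVec, dotProduct, Matrix.kroneckerMap_apply, GeoClasses.tensorVec,
          Fintype.sum_prod_type, Finset.sum_mul_sum]
        exact Finset.sum_congr rfl fun k _ => Finset.sum_congr rfl fun l _ => by ring
      by_contra hy0
      obtain ⟨j, hj⟩ : ∃ j, y j ≠ 0 := Function.ne_iff.1 hy0
      refine hx (((d : Matrix (Fin n₂) (Fin n₂) F) *ᵥ y) j / y j)⁻¹ ?_
      funext i
      have h3 := hpt i j
      rw [Pi.smul_apply, smul_eq_mul, inv_div]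
      have hd : ((d : Matrix (Fin n₂) (Fin n₂) F) *ᵥ y) j ≠ 0 := fun h0 => by
        rw [h0, mul_zero] at h3
        apply hx0
        funext i'
        have := hpt i' j
        rw [h0, mul_zero] at this
        exact (mul_eq_zero.1 this.symm).resolve_right hj
      field_simp
      linear_combination h3
    have h1 := LinearMap.finrank_range_of_inj hinj
    have h2' := Submodule.finrank_mono (LinearMap.range_comp_le_range τ N)
    have h3 := Submodule.finrank_mono hrange
    have h4 := finrank_range_le_card (R := F) ![a, u]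
    rw [Module.finrank_fintype_fun_eq_card, Fintype.card_fin] at h1
    simp only [Set.finrank, Fintype.card_fin] at h4
    omega
  -- all of `Ω` commutes with `M ⊗ 1`
  set i₀ : Fin n₁ := ⟨0, by omega⟩
  set i₁ : Fin n₁ := ⟨1, by omega⟩
  set M := T (Matrix.single i₀ i₁ (1 : F) ⊗ₖ (1 : Matrix (Fin n₂) (Fin n₂) F))
  let X : Subgroup (GL ι F) :=
    { carrier := {g | M * (g : Matrix ι ι F) = (g : Matrix ι ι F) * M}
      mul_mem' := fun {g h} hg hh => by
        show M * _ = _ * M
        rw [Units.val_mul, ← mul_assoc, hg, mul_assoc, hh, mul_assoc]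
      one_mem' := by simp
      inv_mem' := fun {g} hg => by
        show M * _ = _ * M
        calc M * ((g⁻¹ : GL ι F) : Matrix ι ι F)
            = ((g⁻¹ : GL ι F) : Matrix ι ι F) * ((g : Matrix ι ι F) * M) * ((g⁻¹ : GL ι F) : Matrix ι ι F) := by
              rw [← mul_assoc, ← Units.val_mul, inv_mul_cancel, Units.val_one, one_mul]
          _ = _ := by
              rw [← show M * (g : Matrix ι ι F) = (g : Matrix ι ι F) * M from hg]
              simp [mul_assoc] }
  have hX : omegaGL ⇑Q ≤ X := omega_le_of_roots hB hn fun g hg u a hu ha hua hgv => by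
    obtain ⟨s, d, hd⟩ := hroot g hg u a hu ha hua hgv
    show M * _ = _ * M
    rw [hd, ← map_mul, ← map_mul, ← Matrix.mul_kronecker_mul, ← Matrix.mul_kronecker_mul, one_mul, mul_one,
      Matrix.mul_smul, Matrix.smul_mul, mul_one, one_mul]
  obtain ⟨z, hz⟩ := exists_scalar_of_commute hB hn (M := M) fun g hg => hX hg
  have hT : M = (P : Matrix ι ι F) * (Matrix.single i₀ i₁ (1 : F) ⊗ₖ (1 : Matrix (Fin n₂) (Fin n₂) F)).submatrix e e
      * ((P⁻¹ : GL ι F) : Matrix ι ι F) := rfl
  have h3 := congrArg (fun A => ((P⁻¹ : GL ι F) : Matrix ι ι F) * A * (P : Matrix ι ι F)) (hT.symm.trans hz)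
  simp [mul_assoc] at h3
  have h4 := congrFun (congrFun h3 (e.symm (i₀, ⟨0, by omega⟩))) (e.symm (i₁, ⟨0, by omega⟩))
  simp [i₀, i₁, Fin.ext_iff] at h4

end Matrices

end Cfsg.Agent.OrthMax
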