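import Cfsg.Agent.OrthMax.ProperBlocks

/-!
Isometries, orthogonal complements and orthogonal frames for a quadratic form on `F^ι`.
-/

set_option autoImplicit false
set_option linter.style.haveILetI false
set_option linter.unusedSectionVars false

namespace Cfsg.Agent.OrthMax

open Matrix Cfsg.Geo QuadraticMap Module
open Cfsg.Agent.Classical (OQ BNondeg)
open scoped MatrixGroups Matrix

variable {F : Type*} [Field F] {ι : Type} [Fintype ι] [DecidableEq ι] {Q : QuadraticForm F (ι → F)}

theorem isometry_apply {g : GL ι F} (hg : g ∈ Cfsg.isometryGroup F ⇑Q) (v : ι → F) :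
    Q ((g : Matrix ι ι F) *ᵥ v) = Q v := hg v v

theorem isometry_polar {g : GL ι F} (hg : g ∈ Cfsg.isometryGroup F ⇑Q) (u v : ι → F) :
    polar Q ((g : Matrix ι ι F) *ᵥ u) ((g : Matrix ι ι F) *ᵥ v) = polar Q u v := by
  simp only [polar, ← Matrix.mulVec_add, isometry_apply hg]

theorem omega_le_isometry : omegaGL ⇑Q ≤ Cfsg.isometryGroup F ⇑Q := by
  rintro _ ⟨g, -, rfl⟩
  exact g.2

/-- An isometry of subspaces respects the polar form. -/
theorem areIsometric_polar {W W' : Submodule F (ι → F)} (e : W ≃ₗ[F] W')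
    (he : ∀ w : W, Q (e w : ι → F) = Q (w : ι → F)) (u v : W) :
    polar Q (e u : ι → F) (e v : ι → F) = polar Q (u : ι → F) (v : ι → F) := by
  simp only [polar, ← Submodule.coe_add, ← map_add, he]

theorem isNondegenerateOn_iff {W : Submodule F (ι → F)} :
    IsNondegenerateOn (polar ⇑Q) W ↔ W ⊓ OrthGen.perpSub Q W = ⊥ := by
  rw [eq_bot_iff]
  constructor
  · rintro h x ⟨hx, hx'⟩
    by_contra hne
    obtain ⟨⟨y, hy, hne'⟩, -⟩ := h x hx (fun h0 => hne (by simp [h0]))
    exact hne' (hx' y hy)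
  · intro h w hw hw0
    obtain ⟨y, hy, hne⟩ : ∃ y ∈ W, polar Q y w ≠ 0 := by
      by_contra hno
      push Not at hno
      exact hw0 ((Submodule.mem_bot F).1 (h ⟨hw, hno⟩))
    exact ⟨⟨y, hy, hne⟩, ⟨y, hy, by rw [polar_comm]; exact hne⟩⟩

theorem le_perp_perp (W : Submodule F (ι → F)) : W ≤ OrthGen.perpSub Q (OrthGen.perpSub Q W) :=
  fun x hx n hn => (polar_comm Q n x).trans (hn x hx)

theorem finrank_perp_add (hB : BNondeg Q) (W : Submodule F (ι → F)) :
    finrank F ↥(OrthGen.perpSub Q W) + finrank F W = Fintype.card ι := by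
  rw [OrthGen.finrank_orthogonal_polar hB, Module.finrank_fintype_fun_eq_card]
  have := W.finrank_le
  rw [Module.finrank_fintype_fun_eq_card] at this
  omega

theorem perp_perp (hB : BNondeg Q) (W : Submodule F (ι → F)) :
    OrthGen.perpSub Q (OrthGen.perpSub Q W) = W := by
  refine (Submodule.eq_of_le_of_finrank_eq (le_perp_perp W) ?_).symm
  have h1 := finrank_perp_add hB (OrthGen.perpSub Q W)
  have h2 := finrank_perp_add hB W
  omega

theorem isNondegenerateOn_perp (hB : BNondeg Q) {W : Submodule F (ι → F)}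
    (hW : IsNondegenerateOn (polar ⇑Q) W) : IsNondegenerateOn (polar ⇑Q) (OrthGen.perpSub Q W) := by
  rw [isNondegenerateOn_iff, perp_perp hB, inf_comm]
  exact isNondegenerateOn_iff.1 hW

theorem sup_perp_eq_top (hB : BNondeg Q) {W : Submodule F (ι → F)} (hW : IsNondegenerateOn (polar ⇑Q) W) :
    W ⊔ OrthGen.perpSub Q W = ⊤ := by
  refine Submodule.eq_top_of_finrank_eq ?_
  have h1 := Submodule.finrank_sup_add_finrank_inf_eq W (OrthGen.perpSub Q W)
  rw [isNondegenerateOn_iff.1 hW, finrank_bot] at h1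
  have h2 := finrank_perp_add hB W
  rw [Module.finrank_fintype_fun_eq_card]
  omega

/-- The stabiliser of a subspace stabilises its orthogonal. -/
theorem stabilizer_le_stabilizer_perp (W : Submodule F (ι → F)) :
    subspaceStabilizer W ⊓ Cfsg.isometryGroup F ⇑Q ≤ subspaceStabilizer (OrthGen.perpSub Q W) := by
  rintro g ⟨hgW, hg⟩
  refine GeoClasses.mem_subspaceStabilizer_of_le fun x hx w hw => ?_
  have hw' : ((g⁻¹ : GL ι F) : Matrix ι ι F) *ᵥ w ∈ W :=
    (GeoClasses.mem_subspaceStabilizer_iff.mp (inv_mem hgW) w).1 hw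
  have h := isometry_polar hg (((g⁻¹ : GL ι F) : Matrix ι ι F) *ᵥ w) x
  rw [Matrix.mulVec_mulVec, ← Units.val_mul, mul_inv_cancel, Units.val_one, Matrix.one_mulVec] at h
  rw [polarBilin_apply_apply, h]
  exact hx _ hw'

/-- An anisotropic line is non-degenerate in odd characteristic. -/
theorem isNondegenerateOn_singleton (h2 : (2 : F) ≠ 0) {a : ι → F} (ha : Q a ≠ 0) :
    IsNondegenerateOn (polar ⇑Q) (F ∙ a) := by
  intro x hx hx0
  obtain ⟨r, rfl⟩ := Submodule.mem_span_singleton.mp hx
  have hr : r ≠ 0 := fun h => hx0 (by rw [h, zero_smul])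
  have hne : polar Q (r • a) a ≠ 0 := by
    rw [polar_smul_left, OrthGen.polar_self_two, smul_eq_mul]
    exact mul_ne_zero hr (mul_ne_zero h2 ha)
  exact ⟨⟨a, Submodule.mem_span_singleton_self a, by rw [polar_comm]; exact hne⟩,
    ⟨a, Submodule.mem_span_singleton_self a, hne⟩⟩

/-- A hyperbolic pair spanning a plane of plus type. -/
theorem exists_pair_of_plus_plane {W : Submodule F (ι → F)} (hW : IsNondegenerateOn (polar ⇑Q) W)
    (hd : finrank F W = 2) (hplus : IsPlusTypeOn ⇑Q W) :
    ∃ e ∈ W, ∃ f ∈ W, Q e = 0 ∧ Q f = 0 ∧ polar Q e f = 1 ∧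
      ∀ w ∈ W, ∃ s t : F, w = s • e + t • f := by
  obtain ⟨U, hUW, hU, hUd⟩ := hplus
  obtain ⟨u, hu, hu0⟩ := U.exists_mem_ne_zero_of_ne_bot fun h => by rw [h, finrank_bot, hd] at hUd; omega
  have hQu : Q u = 0 := hU u hu
  obtain ⟨-, x, hx, hne⟩ := hW u (hUW hu) hu0
  obtain ⟨y, hyW, huy⟩ : ∃ y ∈ W, polar Q u y = 1 :=
    ⟨(polar Q u x)⁻¹ • x, W.smul_mem _ hx, by rw [polar_smul_right, smul_eq_mul, inv_mul_cancel₀ hne]⟩
  set v := y - Q y • u with hv
  have hvW : v ∈ W := W.sub_mem hyW (W.smul_mem _ (hUW hu))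
  have huu : polar Q u u = 0 := by rw [OrthGen.polar_self_two, hQu, mul_zero]
  have huv : polar Q u v = 1 := by rw [hv, polar_sub_right, polar_smul_right, huy, huu, smul_zero, sub_zero]
  have hQv : Q v = 0 := by
    rw [hv, Classical.qf_sub, QuadraticMap.map_smul, polar_smul_right, polar_comm Q y u, huy, hQu]
    simp
  refine ⟨u, hUW hu, v, hvW, hQu, hQv, huv, fun w hw => ?_⟩
  have hli : LinearIndependent F ![u, v] := by
    rw [LinearIndependent.pair_iff]
    intro s t hst
    have h1 := congrArg (polar Q u) hst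
    have h2 := congrArg (polar Q v) hst
    simp only [polar_add_right, polar_smul_right, huu, huv, polar_comm Q v u, polar_zero_right,
      OrthGen.polar_self_two, hQv, smul_eq_mul, mul_zero, mul_one, zero_add, add_zero] at h1 h2
    exact ⟨h2, h1⟩
  have hspan : Submodule.span F (Set.range ![u, v]) = W := by
    refine Submodule.eq_of_le_of_finrank_eq ?_ ?_
    · rw [Submodule.span_le]
      rintro _ ⟨i, rfl⟩
      fin_cases i
      exacts [hUW hu, hvW]
    · rw [finrank_span_eq_card hli, Fintype.card_fin, hd]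
  rw [← hspan, Submodule.mem_span_range_iff_exists_fun] at hw
  obtain ⟨c, hc⟩ := hw
  exact ⟨c 0, c 1, by simpa [Fin.sum_univ_two] using hc.symm⟩

theorem sq_eq_one_of_three [Fintype F] (hF : Fintype.card F = 3) {c : F} (hc : c ≠ 0) : c * c = 1 := by
  have h := FiniteField.pow_card_sub_one_eq_one c hc
  rw [hF] at h
  rw [← pow_two]
  exact h

/-- A vector of value one in a plus plane over two or three elements is fixed up to a scalar. -/
theorem exists_point_of_plus_small [Fintype F] (hF : Fintype.card F ≤ 3) {W : Submodule F (ι → F)}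
    (hW : IsNondegenerateOn (polar ⇑Q) W) (hd : finrank F W = 2) (hplus : IsPlusTypeOn ⇑Q W) :
    ∃ a ∈ W, Q a = 1 ∧ subspaceStabilizer W ⊓ Cfsg.isometryGroup F ⇑Q ≤ subspaceStabilizer (F ∙ a) := by
  obtain ⟨u, hu, v, hv, hQu, hQv, huv, hspan⟩ := exists_pair_of_plus_plane hW hd hplus
  have hQuv : Q (u + v) = 1 := by rw [Classical.qf_add, hQu, hQv, huv, zero_add, zero_add]
  refine ⟨u + v, W.add_mem hu hv, hQuv, ?_⟩
  rintro g ⟨hgW, hg⟩
  obtain ⟨s, t, he⟩ := hspan _ ((GeoClasses.mem_subspaceStabilizer_iff.mp hgW _).mp (W.add_mem hu hv))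
  have hq := isometry_apply hg (u + v)
  rw [he, Classical.qf_add, QuadraticMap.map_smul, QuadraticMap.map_smul, hQu, hQv, polar_smul_left,
    polar_smul_right, huv, hQuv] at hq
  have hst : s * t = 1 := by simpa using hq
  have hts : t = s := by
    have hs0 : s ≠ 0 := left_ne_zero_of_mul_eq_one hst
    rcases (show Fintype.card F = 2 ∨ Fintype.card F = 3 by have := Fintype.one_lt_card (α := F); omega) with
      h | h
    · have h1 : ∀ c : F, c ≠ 0 → c = 1 := fun c hc => by
        simpa [h] using FiniteField.pow_card_sub_one_eq_one c hc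
      rw [h1 s hs0, h1 t (right_ne_zero_of_mul_eq_one hst)]
    · exact mul_left_cancel₀ hs0 (by rw [hst, sq_eq_one_of_three h hs0])
  refine GeoClasses.mem_subspaceStabilizer_of_le fun z hz => ?_
  obtain ⟨r, rfl⟩ := Submodule.mem_span_singleton.mp hz
  rw [Matrix.mulVec_smul, he, hts, ← smul_add, smul_smul]
  exact Submodule.mem_span_singleton.mpr ⟨r * s, rfl⟩

/-- Pairwise orthogonal vectors of one non-zero value form a frame. -/
theorem isOrthogonalMDecomposition_frame (h2 : (2 : F) ≠ 0) {t : ℕ} (ht : 2 ≤ t)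
    (htn : t = Fintype.card ι) {v : Fin t → (ι → F)} {c : F} (hc : c ≠ 0) (hv : ∀ i, Q (v i) = c)
    (horth : ∀ i j, i ≠ j → polar Q (v i) (v j) = 0) :
    IsOrthogonalMDecomposition ⇑Q 1 (fun i => F ∙ v i) := by
  have hne : ∀ i, v i ≠ 0 := fun i h => hc (by rw [← hv i, h, QuadraticMap.map_zero])
  have hli : LinearIndependent F v := by
    rw [Fintype.linearIndependent_iff]
    intro g hg i
    have h := congrArg (polarBilin Q (v i)) hg
    rw [map_sum, map_zero, Finset.sum_eq_single i
      (fun j _ hj => by rw [map_smul, polarBilin_apply_apply, horth i j (Ne.symm hj), smul_zero])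
      (fun h => absurd (Finset.mem_univ i) h), map_smul, polarBilin_apply_apply, OrthGen.polar_self_two,
      hv, smul_eq_mul] at h
    exact (mul_eq_zero.1 h).resolve_right (mul_ne_zero h2 hc)
  refine ⟨⟨⟨ht, Nat.one_pos, fun i => finrank_span_singleton (hne i), hli.iSupIndep_span_singleton, ?_⟩,
    fun i => isNondegenerateOn_singleton h2 (by rw [hv]; exact hc), fun i j hij => ?_⟩, fun i j => ?_⟩
  · rw [← Submodule.span_range_eq_iSup]
    exact hli.span_eq_top_of_card_eq_finrank' (by
      rw [Fintype.card_fin, Module.finrank_fintype_fun_eq_card, htn])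
  · intro x hx y hy
    obtain ⟨a, rfl⟩ := Submodule.mem_span_singleton.mp hx
    obtain ⟨b, rfl⟩ := Submodule.mem_span_singleton.mp hy
    rw [polar_smul_left, polar_smul_right, horth i j hij, smul_zero, smul_zero]
  · refine ⟨(LinearEquiv.toSpanNonzeroSingleton F _ (v i) (hne i)).symm.trans
      (LinearEquiv.toSpanNonzeroSingleton F _ (v j) (hne j)), fun x => ?_⟩
    obtain ⟨a, rfl⟩ := (LinearEquiv.toSpanNonzeroSingleton F _ (v i) (hne i)).surjective x
    simp only [LinearEquiv.trans_apply, LinearEquiv.symm_apply_apply]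
    show Q (a • v j) = Q (a • v i)
    rw [QuadraticMap.map_smul, QuadraticMap.map_smul, hv, hv]

/-- An element permuting the vectors of a frame up to scalars stabilises it. -/
theorem mem_frame_stabilizer {t : ℕ} {v : Fin t → (ι → F)}
    (hD : IsMDecomposition 1 (fun i => F ∙ v i)) {g : GL ι F}
    (hg : ∀ i, ∃ j : Fin t, ∃ c : F, (g : Matrix ι ι F) *ᵥ v i = c • v j) :
    g ∈ decompositionStabilizer (fun i => F ∙ v i) := by
  have hne : ∀ i, v i ≠ 0 := fun i h => by
    have := hD.finrank_eq i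
    rw [h, Submodule.span_zero_singleton, finrank_bot] at this
    exact zero_ne_one this
  choose σ c hc using hg
  have hc0 : ∀ i, c i ≠ 0 := fun i h => hne i (GeoClasses.mulVec_injective g (by
    show _ *ᵥ _ = _ *ᵥ _
    rw [hc, h, zero_smul, Matrix.mulVec_zero]))
  have hinj : Function.Injective σ := by
    intro i j hij
    by_contra hne'
    have h : v i = (c i * (c j)⁻¹) • v j := GeoClasses.mulVec_injective g (by
      show _ *ᵥ _ = _ *ᵥ _
      rw [Matrix.mulVec_smul, hc, hc, hij, smul_smul, mul_assoc, inv_mul_cancel₀ (hc0 j), mul_one])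
    exact hne i (Submodule.disjoint_def.1 (hD.indep i) (v i) (Submodule.mem_span_singleton_self _)
      (Submodule.mem_iSup_of_mem j (Submodule.mem_iSup_of_mem (Ne.symm hne')
        (Submodule.mem_span_singleton.2 ⟨_, h.symm⟩))))
  refine ⟨Equiv.ofBijective σ (Finite.injective_iff_bijective.1 hinj), fun i => ?_⟩
  rw [Submodule.map_span, Set.image_singleton, Matrix.toLin'_apply, hc]
  exact Submodule.span_singleton_smul_eq (hc0 i).isUnit _

end Cfsg.Agent.OrthMax
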