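import Cfsg.Agent.OrthMax.EvenField

/-!
Self-adjoint fields of degree five in dimension ten.
-/

set_option autoImplicit false
set_option linter.style.haveILetI false
set_option linter.unusedSectionVars false

namespace Cfsg.Agent.OrthMax

open Matrix Cfsg.Geo QuadraticMap Module
open Cfsg.Agent.Classical (OQ BNondeg)
open Cfsg.Agent.GeoClasses (StarClosed conjGL)
open scoped MatrixGroups Matrix

variable {F : Type*} [Field F] {ι : Type} [Fintype ι] [DecidableEq ι] {Q : QuadraticForm F (ι → F)}

theorem matrix_ext {X Y : Matrix ι ι F} (h : ∀ v, X *ᵥ v = Y *ᵥ v) : X = Y :=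
  Matrix.toLin'.injective (LinearMap.ext fun v => by simp [h])

theorem ge_field_or_pair [Fintype F] (hB : BNondeg Q) (hn : 0 < Fintype.card ι) {H : Subgroup (GL ι F)}
    (hirr : ActsIrreducibly (matrixSet H)) {ω : Matrix ι ι F} {f : F}
    (hωa : qadj Q ω = 1 - ω) (hω2 : ω * ω - ω = f • 1) (hf : 4 * f + 1 ≠ 0)
    (hQ : (2 : F) = 0 → ∀ v, Q v = polar Q (ω *ᵥ v) v)
    (hconj : ∀ h ∈ H, conjGL h ω = ω ∨ conjGL h ω = 1 - ω) :
    (∃ K : Subalgebra F (Matrix ι ι F), IsFieldSubalgebra 2 K ∧ StarClosed (RingEquiv.refl F) (polarMat Q) K ∧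
      (¬ ∀ k ∈ K, qadj Q k = k) ∧ H ≤ subalgebraNormalizer K) ∨
    (∃ (k : ℕ) (D : Fin 2 → Submodule F (ι → F)), 2 * k = Fintype.card ι ∧ IsMDecomposition k D ∧
      (∀ i, IsTotallySingularQuad ⇑Q (D i)) ∧ H ≤ decompositionStabilizer D ∧
      ∃ g ∈ H, (D 0).map (Matrix.toLin' (g : Matrix ι ι F)) = D 1) := by
  classical
  haveI : Nonempty ι := Fintype.card_pos_iff.1 hn
  have hω2' : ω * ω = ω + f • 1 := by rw [← hω2]; abel
  have hns : ∀ c : F, ω ≠ c • 1 := by
    intro c hc
    have h1 : (c + c - 1) • (1 : Matrix ι ι F) = 0 := by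
      rw [sub_smul, add_smul, one_smul, ← hc]
      have := hωa
      rw [hc, qadj_smul, qadj_one hB, ← hc] at this
      nth_rewrite 1 [this]
      abel
    have h2 : (c * c - c - f) • (1 : Matrix ι ι F) = 0 := by
      rw [sub_smul, sub_smul, ← hω2, hc, Matrix.smul_mul, one_mul, smul_smul, sub_self]
    have e1 := (smul_eq_zero.1 h1).resolve_right one_ne_zero
    have e2 := (smul_eq_zero.1 h2).resolve_right one_ne_zero
    exact hf (by linear_combination -4 * e2 + (2 * c - 1) * e1)
  by_cases hroot : ∃ s : F, s * s - s = f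
  · obtain ⟨s, hs⟩ := hroot
    set d := 2 * s - 1 with hd
    have hd0 : d ≠ 0 := fun h => hf (by rw [← hs]; rw [hd] at h; linear_combination (2 * s - 1) * h)
    set e : Fin 2 → Matrix ι ι F := ![d⁻¹ • (ω - (1 - s) • 1), 1 - d⁻¹ • (ω - (1 - s) • 1)] with he
    set e₀ := d⁻¹ • (ω - (1 - s) • 1) with he₀
    have hde : d • e₀ = ω - (1 - s) • 1 := smul_inv_smul₀ hd0 _
    have hωe : ω * e₀ = s • e₀ := by
      rw [he₀, Matrix.mul_smul, smul_comm s d⁻¹]
      congr 1
      rw [mul_sub, hω2', Matrix.mul_smul, mul_one, smul_sub, smul_smul, ← hs]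
      module
    have hee : e₀ * e₀ = e₀ := by
      conv_lhs => arg 1; rw [he₀]
      rw [Matrix.smul_mul, sub_mul, hωe, Matrix.smul_mul, one_mul, ← sub_smul, show s - (1 - s) = d by
        rw [hd]; ring, smul_smul, inv_mul_cancel₀ hd0, one_smul]
    have hadj : qadj Q e₀ = 1 - e₀ := by
      apply smul_right_injective _ hd0
      show d • qadj Q e₀ = d • (1 - e₀)
      rw [← qadj_smul, smul_sub, hde, qadj, sub_eq_add_neg, GeoClasses.adj_add, GeoClasses.adj_neg]
      show qadj Q ω + -qadj Q ((1 - s) • 1) = _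
      rw [hωa, qadj_smul, qadj_one hB, hd]
      module
    have h00 : ∀ i, e i * e i = e i := Fin.forall_fin_two.2
      ⟨hee, by show (1 - e₀) * (1 - e₀) = 1 - e₀; simp [mul_sub, sub_mul, hee]⟩
    have hωi : ∀ i, ω * e i = (![s, 1 - s] i) • e i := Fin.forall_fin_two.2 ⟨hωe, by
      show ω * (1 - e₀) = (1 - s) • (1 - e₀)
      rw [mul_sub, mul_one, hωe, smul_sub, sub_smul (1 : F) s e₀, one_smul]
      have : ω = d • e₀ + (1 - s) • 1 := by rw [hde, sub_add_cancel]
      nth_rewrite 1 [this]
      rw [hd]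
      module⟩
    have hadji : ∀ i, qadj Q (e i) * e i = 0 := Fin.forall_fin_two.2 ⟨by
      show qadj Q e₀ * e₀ = 0
      rw [hadj, sub_mul, one_mul, hee, sub_self], by
      show qadj Q (1 - e₀) * (1 - e₀) = 0
      rw [sub_eq_add_neg 1 e₀, qadj, GeoClasses.adj_add, GeoClasses.adj_neg]
      show (qadj Q 1 + -qadj Q e₀) * _ = 0
      rw [qadj_one hB, hadj]
      simp [mul_add, hee]⟩
    set D : Fin 2 → Submodule F (ι → F) := fun i => LinearMap.range (Matrix.toLin' (e i)) with hD
    have hmem : ∀ i w, w ∈ D i → e i *ᵥ w = w := by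
      rintro i _ ⟨a, rfl⟩
      rw [Matrix.toLin'_apply, Matrix.mulVec_mulVec, h00]
    have hts : ∀ i, IsTotallySingularQuad ⇑Q (D i) := by
      intro i w hw
      have hp : polar Q w w = 0 := by
        rw [← hmem i w hw, polar_qadj hB, Matrix.mulVec_mulVec, hadji, Matrix.zero_mulVec, polar_zero_right]
      by_cases h2 : (2 : F) = 0
      · rw [hQ h2, ← hmem i w hw, Matrix.mulVec_mulVec, hωi, Matrix.smul_mulVec, hmem i w hw, polar_smul_left,
          hp, smul_zero]
      · rw [OrthGen.polar_self_two] at hp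
        exact (mul_eq_zero.1 hp).resolve_left h2
    have hsum : ∀ v, e 0 *ᵥ v + e 1 *ᵥ v = v := fun v => by
      rw [← Matrix.add_mulVec]
      show (e₀ + (1 - e₀)) *ᵥ v = v
      rw [add_sub_cancel, Matrix.one_mulVec]
    have hdisj : Disjoint (D 0) (D 1) := by
      rw [Submodule.disjoint_def]
      intro x hx hy
      have h1 : e₀ *ᵥ x = x := hmem 0 x hx
      have h2 : (1 - e₀) *ᵥ x = x := hmem 1 x hy
      rw [Matrix.sub_mulVec, Matrix.one_mulVec, h1, sub_self] at h2
      exact h2.symm
    have htop : D 0 ⊔ D 1 = ⊤ := eq_top_iff.2 fun v _ => by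
      rw [← hsum v]
      exact Submodule.add_mem_sup ⟨v, Matrix.toLin'_apply _ _⟩ ⟨v, Matrix.toLin'_apply _ _⟩
    have hdim : ∀ i, 2 * finrank F (D i) ≤ Fintype.card ι := fun i => by
      have := Forms.two_mul_finrank_le_of_totallySingular (Q := Q) (W := D i) (by
        refine ⟨fun x hx => hB x fun y => hx y, fun y hy => hB y fun x => ?_⟩
        rw [polar_comm]; exact hy x) (hts i)
      rwa [Module.finrank_fintype_fun_eq_card] at this
    have hd2 := Submodule.finrank_sup_add_finrank_inf_eq (D 0) (D 1)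
    rw [htop, hdisj.eq_bot, finrank_bot, finrank_top, Module.finrank_fintype_fun_eq_card] at hd2
    have h0le := hdim 0
    have h1le := hdim 1
    have hstab : ∀ h ∈ H, ∃ σ : Equiv.Perm (Fin 2), ∀ i, conjGL h (e i) = e (σ i) := by
      intro h hh
      rcases hconj h hh with hc | hc
      · have h1 : conjGL h e₀ = e₀ := by rw [he₀, map_smul, map_sub, map_smul, map_one, hc]
        exact ⟨1, Fin.forall_fin_two.2 ⟨h1, by show conjGL h (1 - e₀) = 1 - e₀; rw [map_sub, map_one, h1]⟩⟩
      · have h1 : conjGL h e₀ = 1 - e₀ := by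
          apply smul_right_injective _ hd0
          show d • conjGL h e₀ = d • (1 - e₀)
          rw [← map_smul, smul_sub, hde, map_sub, map_smul, map_one, hc, hd]
          module
        refine ⟨Equiv.swap 0 1, Fin.forall_fin_two.2 ⟨h1, ?_⟩⟩
        show conjGL h (1 - e₀) = e₀
        rw [map_sub, map_one, h1, sub_sub_cancel]
    have hmap : ∀ h ∈ H, ∀ i j, conjGL h (e i) = e j →
        (D i).map (Matrix.toLin' (h : Matrix ι ι F)) = D j := by
      intro h _ i j hij
      rw [GeoClasses.conjGL_apply] at hij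
      have hc : (h : Matrix ι ι F) * e i = e j * (h : Matrix ι ι F) := by rw [← hij]; simp [mul_assoc]
      apply le_antisymm
      · rintro _ ⟨_, ⟨a, rfl⟩, rfl⟩
        exact ⟨(h : Matrix ι ι F) *ᵥ a, by simp only [Matrix.toLin'_apply, Matrix.mulVec_mulVec, hc]⟩
      · rintro _ ⟨a, rfl⟩
        refine ⟨e i *ᵥ (((h⁻¹ : GL ι F) : Matrix ι ι F) *ᵥ a), ⟨_, Matrix.toLin'_apply _ _⟩, ?_⟩
        simp only [Matrix.toLin'_apply, Matrix.mulVec_mulVec, ← hij, mul_assoc]
    refine Or.inr ⟨finrank F (D 0), D, by omega, ⟨le_rfl, by omega, Fin.forall_fin_two.2 ⟨rfl, by omega⟩,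
      (iSupIndep_pair (i := (0 : Fin 2)) (j := 1) (by decide) (by decide)).2 hdisj, ?_⟩, hts, ?_, ?_⟩
    · refine eq_top_iff.2 (htop.ge.trans ?_)
      exact sup_le (le_iSup D 0) (le_iSup D 1)
    · intro h hh
      obtain ⟨σ, hσ⟩ := hstab h hh
      exact ⟨σ, fun i => hmap h hh i _ (hσ i)⟩
    · by_contra hno
      push Not at hno
      have hfix : ∀ h ∈ H, (D 0).map (Matrix.toLin' (h : Matrix ι ι F)) ≤ D 0 := by
        intro h hh
        obtain ⟨σ, hσ⟩ := hstab h hh
        rcases (show σ 0 = 0 ∨ σ 0 = 1 by omega) with h0 | h0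
        · exact (hmap h hh 0 0 (by rw [hσ, h0])).le
        · exact absurd (hmap h hh 0 1 (by rw [hσ, h0])) (hno h hh)
      rcases hirr (D 0) (by rintro _ ⟨h, hh, rfl⟩; exact hfix h hh) with h | h
      · rw [h, finrank_bot] at hd2; omega
      · rw [h, finrank_top, Module.finrank_fintype_fun_eq_card] at h0le; omega
  · push Not at hroot
    have hli : LinearIndependent F ![(1 : Matrix ι ι F), ω] := by
      rw [LinearIndependent.pair_iff]
      intro a b hab
      by_cases hb : b = 0
      · subst hb
        rw [zero_smul, add_zero] at hab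
        exact ⟨(smul_eq_zero.1 hab).resolve_right one_ne_zero, rfl⟩
      · exfalso
        refine hns (-(b⁻¹ * a)) ?_
        rw [neg_smul, mul_smul, eq_neg_iff_add_eq_zero, ← inv_smul_smul₀ hb ω, ← smul_add, add_comm, hab,
          smul_zero]
    let S : Submodule F (Matrix ι ι F) := Submodule.span F (Set.range ![(1 : Matrix ι ι F), ω])
    have hmemS : ∀ x, x ∈ S ↔ ∃ a b : F, x = a • 1 + b • ω := fun x => by
      show x ∈ Submodule.span F _ ↔ _
      rw [Submodule.mem_span_range_iff_exists_fun]
      constructor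
      · rintro ⟨c, rfl⟩; exact ⟨c 0, c 1, by simp [Fin.sum_univ_two]⟩
      · rintro ⟨a, b, rfl⟩; exact ⟨![a, b], by simp [Fin.sum_univ_two]⟩
    have hmul : ∀ a b c d : F, (a • (1 : Matrix ι ι F) + b • ω) * (c • 1 + d • ω)
        = (a * c + b * d * f) • 1 + (a * d + b * c + b * d) • ω := by
      intro a b c d
      simp only [add_mul, mul_add, Matrix.smul_mul, Matrix.mul_smul, one_mul, mul_one, smul_smul, hω2',
        smul_add, add_smul]
      module
    let K : Subalgebra F (Matrix ι ι F) :=
      { carrier := {x | x ∈ S}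
        mul_mem' := fun {x y} hx hy => by
          obtain ⟨a, b, rfl⟩ := (hmemS x).1 hx
          obtain ⟨c, d, rfl⟩ := (hmemS y).1 hy
          exact (hmemS _).2 ⟨_, _, hmul a b c d⟩
        add_mem' := fun hx hy => S.add_mem hx hy
        algebraMap_mem' := fun c => (hmemS _).2 ⟨c, 0, by rw [Algebra.algebraMap_eq_smul_one, zero_smul, add_zero]⟩ }
    have hωK : ω ∈ K := (hmemS _).2 ⟨0, 1, by simp⟩
    refine Or.inl ⟨K, ⟨?_, ?_, ?_⟩, ?_, ?_, ?_⟩
    · intro x hx y hy
      obtain ⟨a, b, rfl⟩ := (hmemS x).1 hx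
      obtain ⟨c, d, rfl⟩ := (hmemS y).1 hy
      rw [hmul, hmul]
      ring_nf
    · intro x hx hx0
      obtain ⟨a, b, rfl⟩ := (hmemS x).1 hx
      set N := a * a + a * b - b * b * f with hN
      have hN0 : N ≠ 0 := by
        intro h0
        by_cases hb : b = 0
        · subst hb
          rw [hN] at h0
          simp at h0
          simp [h0] at hx0
        · refine hroot (-a / b) ?_
          field_simp
          linear_combination h0
      refine ⟨(N⁻¹ * (a + b)) • 1 + (-(N⁻¹ * b)) • ω, (hmemS _).2 ⟨_, _, rfl⟩, ?_⟩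
      rw [hmul, show a * (N⁻¹ * (a + b)) + b * -(N⁻¹ * b) * f = N⁻¹ * N by rw [hN]; ring,
        inv_mul_cancel₀ hN0, one_smul, show a * -(N⁻¹ * b) + b * (N⁻¹ * (a + b)) + b * -(N⁻¹ * b) = 0 by ring,
        zero_smul, add_zero]
    · show finrank F S = 2
      rw [finrank_span_eq_card hli, Fintype.card_fin]
    · intro x hx
      obtain ⟨a, b, rfl⟩ := (hmemS x).1 hx
      show qadj Q _ ∈ K
      rw [qadj, GeoClasses.adj_add, GeoClasses.adj_smul, GeoClasses.adj_smul]
      show a • qadj Q 1 + b • qadj Q ω ∈ K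
      rw [qadj_one hB, hωa]
      exact add_mem (K.smul_mem K.one_mem _) (K.smul_mem (sub_mem K.one_mem hωK) _)
    · intro h
      have h1 := (h ω hωK).symm.trans hωa
      have h2 : (2 : F) • ω = 1 := by
        rw [two_smul]; nth_rewrite 1 [h1]; rw [sub_add_cancel]
      by_cases h20 : (2 : F) = 0
      · rw [h20, zero_smul] at h2; exact zero_ne_one h2
      · exact hns (2 : F)⁻¹ (by rw [← h2, inv_smul_smul₀ h20])
    · have hmap : ∀ h ∈ H, ∀ k ∈ K, conjGL h k ∈ K := by
        intro h hh k hk
        obtain ⟨a, b, rfl⟩ := (hmemS k).1 hk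
        rw [map_add, map_smul, map_smul, map_one]
        refine add_mem (K.smul_mem K.one_mem _) (K.smul_mem ?_ _)
        rcases hconj h hh with hc | hc <;> rw [hc]
        exacts [hωK, sub_mem K.one_mem hωK]
      intro h hh k
      refine ⟨hmap h hh k, fun hk => ?_⟩
      have := hmap h⁻¹ (H.inv_mem hh) _ hk
      simpa [mul_assoc] using this

theorem card_ext_fixed [Finite F] {L : Type*} [Field L] [Finite L] [Algebra F L] {x : L}
    (h : x ^ Nat.card F = x) : ∃ a : F, algebraMap F L a = x := by
  classical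
  haveI := Fintype.ofFinite F
  rw [Nat.card_eq_fintype_card] at h
  set p : Polynomial L := Polynomial.X ^ Fintype.card F - Polynomial.X with hp
  have hp0 : p ≠ 0 := FiniteField.X_pow_card_sub_X_ne_zero L Fintype.one_lt_card
  have hsub : (Finset.univ.image (algebraMap F L)) ⊆ p.roots.toFinset := by
    intro y hy
    obtain ⟨a, -, rfl⟩ := Finset.mem_image.1 hy
    rw [Multiset.mem_toFinset, Polynomial.mem_roots hp0]
    simp [hp, ← map_pow, FiniteField.pow_card]
  have hle : p.roots.toFinset.card ≤ (Finset.univ.image (algebraMap F L)).card := by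
    rw [Finset.card_image_of_injective _ (algebraMap F L).injective, Finset.card_univ]
    refine (Multiset.toFinset_card_le _).trans ((Polynomial.card_roots' p).trans_eq ?_)
    exact FiniteField.X_pow_card_sub_X_natDegree_eq L Fintype.one_lt_card
  have hx : x ∈ p.roots.toFinset := by
    rw [Multiset.mem_toFinset, Polynomial.mem_roots hp0]
    simp [hp, h]
  rw [← Finset.eq_of_subset_of_card_le hsub hle] at hx
  obtain ⟨a, -, ha⟩ := Finset.mem_image.1 hx
  exact ⟨a, ha⟩

theorem pow_card_iterate {L : Type*} [Field L] [Algebra F L] [Fintype F] {x : L} {j : ℕ} (e : L)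
    (h : x ^ Fintype.card F = x + e) (he : e ^ Fintype.card F = e) :
    x ^ Fintype.card F ^ j = x + j • e := by
  obtain ⟨p, hpc⟩ := CharP.exists F
  obtain ⟨k, hp, hk⟩ := FiniteField.card F p
  haveI : Fact p.Prime := ⟨hp⟩
  haveI := hpc
  haveI : CharP L p := (Algebra.charP_iff F L p).1 hpc
  induction j with
  | zero => simp
  | succ j ih =>
    have hq : ∀ a b : L, (a + b) ^ Fintype.card F = a ^ Fintype.card F + b ^ Fintype.card F := fun a b => by
      rw [hk]; exact add_pow_char_pow a b p k
    have hn : (j • e) ^ Fintype.card F = j • e := by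
      have : ∀ i : ℕ, (i • e) ^ Fintype.card F = i • e := by
        intro i
        induction i with
        | zero => simp [zero_pow Fintype.card_ne_zero]
        | succ i ihi => rw [succ_nsmul, hq, ihi, he]
      exact this j
    rw [pow_succ, pow_mul, ih, hq, h, hn, succ_nsmul]
    abel

/-- In an extension of odd degree, `a * a + a` is surjective modulo the ground field. -/
theorem exists_artin_schreier [Finite F] (h2 : (2 : F) = 0) {L : Type*} [Field L] [Finite L] [Algebra F L]
    (ho : Odd (finrank F L)) (z : L) : ∃ a : L, ∃ f : F, a * a + a + algebraMap F L f = z := by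
  classical
  haveI := Fintype.ofFinite F
  haveI := Fintype.ofFinite L
  have h2L : (2 : L) = 0 := by rw [← map_ofNat (algebraMap F L) 2, h2, map_zero]
  let ψ : L × F →+ L :=
    { toFun := fun p => p.1 * p.1 + p.1 + algebraMap F L p.2
      map_zero' := by simp
      map_add' := fun p p' => by
        simp only [Prod.fst_add, Prod.snd_add, map_add]
        linear_combination p.1 * p'.1 * h2L }
  have hL : Fintype.card L = Fintype.card F ^ finrank F L := Module.card_eq_pow_finrank
  have hfix : ∀ a : L, ∀ f : F, a * a + a = algebraMap F L f → ∃ b : F, algebraMap F L b = a := by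
    intro a f ha
    obtain ⟨p, hpc⟩ := CharP.exists F
    obtain ⟨k, hp, hk⟩ := FiniteField.card F p
    haveI : Fact p.Prime := ⟨hp⟩
    haveI := hpc
    haveI : CharP L p := (Algebra.charP_iff F L p).1 hpc
    set e := a ^ Fintype.card F - a with he
    have he01 : e * (e + 1) = 0 := by
      have h1 : (a * a + a) ^ Fintype.card F = a * a + a := by rw [ha, ← map_pow, FiniteField.pow_card]
      rw [hk, add_pow_char_pow, mul_pow, ← hk] at h1
      rw [he]
      linear_combination h1 - (a ^ Fintype.card F * a - a * a) * h2L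
    have hefix : e ^ Fintype.card F = e := by
      rcases mul_eq_zero.1 he01 with h | h
      · rw [h, zero_pow Fintype.card_ne_zero]
      · have : e = 1 := by linear_combination h - h2L
        rw [this, one_pow]
    have hit := pow_card_iterate (j := finrank F L) e (by rw [he]; ring : a ^ Fintype.card F = a + e) hefix
    rw [← hL, FiniteField.pow_card] at hit
    obtain ⟨i, hi⟩ := ho
    have he0 : e = 0 := by
      have h3 : (finrank F L : L) * e = 0 := by rw [← nsmul_eq_mul]; linear_combination -hit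
      rw [hi] at h3
      push_cast at h3
      linear_combination h3 - (i : L) * e * h2L
    refine card_ext_fixed ?_
    rw [Nat.card_eq_fintype_card]
    linear_combination he0
  have hk : ∀ p : ψ.ker, p.1.1 * p.1.1 + p.1.1 = algebraMap F L (-p.1.2) := fun p => by
    have := AddMonoidHom.mem_ker.1 p.2
    rw [map_neg]
    exact eq_neg_of_add_eq_zero_left this
  have hker : Nat.card ψ.ker ≤ Fintype.card F := by
    rw [← Nat.card_eq_fintype_card]
    refine Nat.card_le_card_of_injective (fun p => (hfix _ _ (hk p)).choose) ?_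
    intro p p' hpp
    dsimp only at hpp
    have e1 : p.1.1 = p'.1.1 := by
      rw [← (hfix _ _ (hk p)).choose_spec, hpp, (hfix _ _ (hk p')).choose_spec]
    have e2 := (hk p).symm.trans ((by rw [e1]) : _ = _) |>.trans (hk p')
    exact Subtype.ext (Prod.ext e1 (neg_injective ((algebraMap F L).injective e2)))
  have hsurj : Function.Surjective ψ := by
    rw [← AddMonoidHom.range_eq_top]
    apply AddSubgroup.eq_top_of_card_eq
    have h := AddSubgroup.card_eq_card_quotient_mul_card_addSubgroup ψ.ker
    rw [Nat.card_congr (QuotientAddGroup.quotientKerEquivRange ψ).toEquiv, Nat.card_prod] at h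
    have hle : Nat.card ψ.range ≤ Nat.card L := Nat.card_le_card_of_injective _ Subtype.val_injective
    refine le_antisymm hle ?_
    by_contra hlt
    push Not at hlt
    have hpos : 0 < Nat.card ψ.ker := Nat.card_pos
    rw [Nat.card_eq_fintype_card (α := F)] at h
    nlinarith [Nat.mul_le_mul_left (Nat.card ψ.range) hker, Fintype.card_pos (α := F)]
  obtain ⟨⟨a, f⟩, h⟩ := hsurj z
  exact ⟨a, f, h⟩

/-- In an extension of odd degree some square times `z` lies in the ground field. -/
theorem exists_square_mul [Finite F] (h2 : (2 : F) ≠ 0) {L : Type*} [Field L] [Finite L] [Algebra F L]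
    (ho : Odd (finrank F L)) {z : L} (hz : z ≠ 0) :
    ∃ c : L, ∃ f : F, f ≠ 0 ∧ c * c * z = algebraMap F L f := by
  haveI := Fintype.ofFinite F
  haveI := Fintype.ofFinite L
  by_cases hsq : IsSquare z
  · obtain ⟨s, hs⟩ := hsq
    have hs0 : s ≠ 0 := fun h => hz (by rw [hs, h, mul_zero])
    exact ⟨s⁻¹, 1, one_ne_zero, by rw [hs, map_one]; field_simp⟩
  · have hF : ringChar F ≠ 2 := fun h => h2 (by
      have := ringChar.Nat.cast_ringChar (R := F)
      rw [h] at this
      exact_mod_cast this)
    obtain ⟨ν, hν⟩ := FiniteField.exists_nonsquare hF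
    have h2L : (2 : L) ≠ 0 := by
      rw [← map_ofNat (algebraMap F L) 2]
      exact (map_ne_zero (algebraMap F L)).2 h2
    have hν' : ¬ IsSquare (algebraMap F L ν) := by
      rintro ⟨k, hk⟩
      have hν0 : ν ≠ 0 := fun h => hν (h ▸ IsSquare.zero)
      have hk0 : k ≠ 0 := fun h => (map_ne_zero (algebraMap F L)).2 hν0 (by rw [hk, h, mul_zero])
      set e := k ^ Fintype.card F - k with he
      have hkq : k ^ Fintype.card F = k ∨ k ^ Fintype.card F = -k := by
        apply mul_self_eq_mul_self_iff.1
        rw [← mul_pow, ← hk, ← map_pow, FiniteField.pow_card]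
      rcases hkq with h | h
      · rw [← Nat.card_eq_fintype_card] at h
        obtain ⟨a, ha⟩ := card_ext_fixed h
        exact hν ⟨a, (algebraMap F L).injective (by rw [hk, map_mul, ha])⟩
      · obtain ⟨i, hi⟩ := ho
        have hodd : Odd (Fintype.card F) := GeoClasses.two_ne_zero_iff_odd_card.1 h2
        have hit : ∀ j, k ^ Fintype.card F ^ j = (-1) ^ j * k := by
          intro j
          induction j with
          | zero => simp
          | succ j ih => rw [pow_succ, pow_mul, ih, mul_pow, h, ← pow_mul, mul_comm j, pow_mul,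
              hodd.neg_one_pow, pow_succ]; ring
        have h3 := hit (finrank F L)
        rw [← Module.card_eq_pow_finrank, FiniteField.pow_card, hi, Odd.neg_one_pow ⟨i, rfl⟩] at h3
        exact mul_ne_zero h2L hk0 (by linear_combination h3)
    obtain ⟨s, hs⟩ := isSquare_mul_of_not h2L hsq hν'
    have hν0 : ν ≠ 0 := fun h => hν (h ▸ IsSquare.zero)
    refine ⟨algebraMap F L ν / s, ν, hν0, ?_⟩
    have hν0' : algebraMap F L ν ≠ 0 := (map_ne_zero (algebraMap F L)).2 hν0
    have hs0 : s ≠ 0 := fun h => mul_ne_zero hz hν0' (by rw [hs, h, mul_zero])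
    field_simp
    linear_combination hs

theorem exists_functional_eq {L : Type*} [Field L] [Algebra F L] [FiniteDimensional F L] (T : L →ₗ[F] F)
    (hT : T ≠ 0) (g : L →ₗ[F] F) : ∃ c : L, ∀ s, g s = T (c * s) := by
  let Λ : L →ₗ[F] Module.Dual F L :=
    { toFun := fun c => T.comp (LinearMap.mulLeft F c)
      map_add' := fun a b => LinearMap.ext fun s => by simp [add_mul]
      map_smul' := fun a b => LinearMap.ext fun s => by simp }
  have hinj : Function.Injective Λ := by
    rw [← LinearMap.ker_eq_bot, LinearMap.ker_eq_bot']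
    intro c hc
    by_contra hc0
    apply hT
    ext s
    have := LinearMap.congr_fun hc (c⁻¹ * s)
    simpa [Λ, ← mul_assoc, hc0] using this
  obtain ⟨c, hc⟩ := (LinearMap.injective_iff_surjective_of_finrank_eq_finrank
    (Subspace.dual_finrank_eq).symm).1 hinj g
  exact ⟨c, fun s => (LinearMap.congr_fun hc s).symm⟩

variable [Fintype F]

set_option maxHeartbeats 1600000 in
/-- A self-adjoint field of degree five reduces to degree two or to a singular pair. -/
theorem field_five (hB : BNondeg Q) (hn : Fintype.card ι = 10) {H : Subgroup (GL ι F)}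
    (hH : H ≤ Cfsg.isometryGroup F ⇑Q) (hirr : ActsIrreducibly (matrixSet H))
    {K : Subalgebra F (Matrix ι ι F)} (hK : IsFieldSubalgebra 5 K) (hsa : ∀ k ∈ K, qadj Q k = k)
    (hle : H ≤ subalgebraNormalizer K) :
    (∃ K : Subalgebra F (Matrix ι ι F), IsFieldSubalgebra 2 K ∧ StarClosed (RingEquiv.refl F) (polarMat Q) K ∧
      (¬ ∀ k ∈ K, qadj Q k = k) ∧ H ≤ subalgebraNormalizer K) ∨
    (∃ (k : ℕ) (D : Fin 2 → Submodule F (ι → F)), 2 * k = Fintype.card ι ∧ IsMDecomposition k D ∧
      (∀ i, IsTotallySingularQuad ⇑Q (D i)) ∧ H ≤ decompositionStabilizer D ∧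
      ∃ g ∈ H, (D 0).map (Matrix.toLin' (g : Matrix ι ι F)) = D 1) := by
  classical
  haveI : Nonempty ι := Fintype.card_pos_iff.1 (by omega)
  letI instCR : CommRing K := { (inferInstance : Ring K) with
    mul_comm := fun x y => Subtype.ext (hK.comm x x.2 y y.2) }
  have hfield : IsField K :=
    { exists_pair_ne := ⟨0, 1, fun h => zero_ne_one (congrArg Subtype.val h)⟩
      mul_comm := mul_comm
      mul_inv_cancel := fun {a} ha => by
        obtain ⟨y, hy, h⟩ := hK.inv a a.2 fun h => ha (Subtype.ext h)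
        exact ⟨⟨y, hy⟩, Subtype.ext h⟩ }
  letI : Field K := hfield.toField
  haveI : Finite K := inferInstance
  have hdimK : finrank F K = 5 := hK.finrank_eq
  have hoddK : Odd (finrank F K) := by rw [hdimK]; decide
  let act : K → (ι → F) → (ι → F) := fun k x => (k : Matrix ι ι F) *ᵥ x
  have hsw : ∀ (k : K) x y, polar Q (act k x) y = polar Q x (act k y) := fun k x y => by
    show polar Q (_ *ᵥ x) y = _
    rw [polar_qadj hB, hsa k k.2]
  have hmul : ∀ (k l : K) x, act (k * l) x = act k (act l x) := fun k l x => by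
    show ((k * l : K) : Matrix ι ι F) *ᵥ x = _
    rw [show ((k * l : K) : Matrix ι ι F) = (k : Matrix ι ι F) * (l : Matrix ι ι F) from rfl,
      ← Matrix.mulVec_mulVec]
  -- coordinates over the field
  have coords : ∀ u v : ι → F, (∀ k l : K, act k u + act l v = 0 → k = 0 ∧ l = 0) →
      ∃ Φ : (K × K) ≃ₗ[F] (ι → F), ∀ p, Φ p = act p.1 u + act p.2 v := by
    intro u v h
    let φ : (K × K) →ₗ[F] (ι → F) :=
      { toFun := fun p => act p.1 u + act p.2 v
        map_add' := fun p q => by
          show ((p.1 : Matrix ι ι F) + (q.1 : Matrix ι ι F)) *ᵥ u + ((p.2 : Matrix ι ι F) + (q.2 : Matrix ι ι F)) *ᵥ v = _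
          rw [Matrix.add_mulVec, Matrix.add_mulVec]
          show _ = (_ *ᵥ u + _ *ᵥ v) + (_ *ᵥ u + _ *ᵥ v)
          abel
        map_smul' := fun c p => by
          show (c • (p.1 : Matrix ι ι F)) *ᵥ u + (c • (p.2 : Matrix ι ι F)) *ᵥ v = c • (_ *ᵥ u + _ *ᵥ v)
          rw [Matrix.smul_mulVec, Matrix.smul_mulVec, smul_add] }
    have hinj : Function.Injective φ := by
      rw [← LinearMap.ker_eq_bot, LinearMap.ker_eq_bot']
      intro p hp
      obtain ⟨h1, h2⟩ := h p.1 p.2 hp
      exact Prod.ext h1 h2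
    exact ⟨LinearEquiv.ofInjectiveOfFinrankEq φ hinj (by
      rw [Module.finrank_prod, hdimK, Module.finrank_fintype_fun_eq_card, hn]), fun p => rfl⟩
  have conjK : ∀ h ∈ H, ∀ X : Matrix ι ι F, (∀ k ∈ K, X * k = k * X) →
      ∀ k ∈ K, conjGL h X * k = k * conjGL h X := by
    intro h hh X hX k hk
    have hk' : conjGL h⁻¹ k ∈ K := (hle (H.inv_mem hh) k).1 hk
    have h1 := congrArg (conjGL h) (hX _ hk')
    rw [map_mul, map_mul] at h1
    have h3 : conjGL h (conjGL h⁻¹ k) = k := by simp [mul_assoc]
    rwa [h3] at h1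
  have conjadj : ∀ h ∈ H, ∀ X, qadj Q (conjGL h X) = conjGL h (qadj Q X) := fun h hh X =>
    (isPolar_polarMat hB).adj_conj (isSim_of_isometry (hH hh)) X
  have hcommK : ∀ X : Matrix ι ι F, (∀ (k : K) x, X *ᵥ act k x = act k (X *ᵥ x)) →
      ∀ k ∈ K, X * k = k * X := fun X hX k hk => matrix_ext fun x => by
    rw [← Matrix.mulVec_mulVec, ← Matrix.mulVec_mulVec]
    exact hX ⟨k, hk⟩ x
  have hactcomm : ∀ X : Matrix ι ι F, (∀ k ∈ K, X * k = k * X) → ∀ (k : K) x,
      X *ᵥ act k x = act k (X *ᵥ x) := fun X hX k x => by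
    show X *ᵥ (_ *ᵥ x) = _
    rw [Matrix.mulVec_mulVec, hX k k.2, ← Matrix.mulVec_mulVec]
  have hscal : ∀ (c : F) x, act (algebraMap F K c) x = c • x := fun c x => by
    show (algebraMap F (Matrix ι ι F) c) *ᵥ x = _
    rw [Algebra.algebraMap_eq_smul_one, Matrix.smul_mulVec, Matrix.one_mulVec]
  have hone : ∀ x, act 1 x = x := fun x => Matrix.one_mulVec x
  have hTlin : ∀ u v, ∃ T : K →ₗ[F] F, ∀ s, T s = polar Q (act s u) v := fun u v =>
    ⟨{ toFun := fun s => polar Q (act s u) v
       map_add' := fun a b => by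
        show polar Q (((a : Matrix ι ι F) + (b : Matrix ι ι F)) *ᵥ u) v = _
        rw [Matrix.add_mulVec, polar_add_left]
       map_smul' := fun c a => by
        show polar Q ((c • (a : Matrix ι ι F)) *ᵥ u) v = _
        rw [Matrix.smul_mulVec, polar_smul_left]; rfl }, fun s => rfl⟩
  by_cases h2 : (2 : F) = 0
  · -- characteristic two
    have h2K : (2 : K) = 0 := by rw [← map_ofNat (algebraMap F K) 2, h2, map_zero]
    haveI : CharP F 2 := CharTwo.of_one_ne_zero_of_two_eq_zero one_ne_zero h2
    have hsq : ∀ k : K, ∃ l, k = l * l := by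
      intro k
      have hsurj : Function.Surjective fun l : K => l * l := by
        refine Finite.surjective_of_injective fun a b hab => ?_
        have : (a - b) * (a - b) = 0 := by linear_combination hab - (a * b - b * b) * h2K
        exact sub_eq_zero.1 (mul_self_eq_zero.1 this)
      obtain ⟨l, hl⟩ := hsurj k
      exact ⟨l, hl.symm⟩
    have halt : ∀ (k : K) x, polar Q (act k x) x = 0 := by
      intro k x
      obtain ⟨l, rfl⟩ := hsq k
      rw [hmul, hsw, OrthGen.polar_self_two, h2, zero_mul]
    have hUU : ∀ (k l : K) x, polar Q (act k x) (act l x) = 0 := fun k l x => by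
      rw [← hsw, ← hmul]; exact halt _ x
    obtain ⟨u, hu⟩ : ∃ u : ι → F, u ≠ 0 := exists_ne 0
    obtain ⟨v, huv⟩ : ∃ v, polar Q u v ≠ 0 := by
      by_contra h; push Not at h; exact hu (hB u h)
    obtain ⟨T, hT⟩ := hTlin u v
    have hT0 : T ≠ 0 := fun h => huv (by
      have := LinearMap.congr_fun h 1
      rwa [hT, hone] at this)
    have hpol : ∀ p r p' r' : K, polar Q (act p u + act r v) (act p' u + act r' v) = T (p * r' + r * p') := by
      intro p r p' r'
      rw [polar_add_left, polar_add_right, polar_add_right, hUU, hUU, zero_add, add_zero, map_add, hT, hT]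
      congr 1
      · rw [mul_comm p r', hmul, hsw r' (act p u)]
      · rw [hmul, hsw r, polar_comm]
    obtain ⟨Φ, hΦ⟩ := coords u v (by
      intro k l h
      constructor
      · by_contra hk
        have h1 := congrArg (fun x => polar Q x (act k⁻¹ v)) h
        simp only [polar_add_left, hUU, add_zero, polar_zero_left] at h1
        rw [← hsw, ← hmul, inv_mul_cancel₀ hk, hone] at h1
        exact huv h1
      · by_contra hl
        have h1 := congrArg (fun x => polar Q x (act l⁻¹ u)) h
        simp only [polar_add_left, hUU, zero_add, polar_zero_left] at h1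
        rw [← hsw, ← hmul, inv_mul_cancel₀ hl, hone, polar_comm] at h1
        exact huv h1)
    have hquadlin : ∀ x, ∃ c : K, ∀ p : K, Q (act p x) = T (c * (p * p)) := by
      intro x
      choose rt hrt using hsq
      have hrt2 : ∀ a b : K, a * a = b * b → a = b := fun a b hab => by
        have : (a - b) * (a - b) = 0 := by linear_combination hab - (a * b - b * b) * h2K
        exact sub_eq_zero.1 (mul_self_eq_zero.1 this)
      let g : K →ₗ[F] F :=
        { toFun := fun s => Q (act (rt s) x)
          map_add' := fun a b => by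
            have hab : rt (a + b) = rt a + rt b := hrt2 _ _ (by
              linear_combination -(hrt (a + b)) + hrt a + hrt b - rt a * rt b * h2K)
            show Q (act (rt (a + b)) x) = _
            rw [hab]
            show Q (((rt a : Matrix ι ι F) + (rt b : Matrix ι ι F)) *ᵥ x) = _
            rw [Matrix.add_mulVec, Classical.qf_add, hUU, add_zero]
          map_smul' := fun c a => by
            obtain ⟨d, hd⟩ := FiniteField.isSquare_of_char_two (F := F) (ringChar.eq F 2) c
            have hca : rt (c • a) = algebraMap F K d * rt a := hrt2 _ _ (by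
              rw [← hrt (c • a), Algebra.smul_def, hd, map_mul]
              linear_combination algebraMap F K d * algebraMap F K d * hrt a)
            show Q (act (rt (c • a)) x) = c • Q (act (rt a) x)
            rw [hca, hmul, hscal, QuadraticMap.map_smul, hd] }
      obtain ⟨c, hc⟩ := exists_functional_eq T hT0 g
      refine ⟨c, fun p => ?_⟩
      rw [← hc]
      show _ = Q (act (rt (p * p)) x)
      conv_lhs => rw [hrt2 p (rt (p * p)) (hrt (p * p))]
    obtain ⟨c, hc⟩ := hquadlin u
    obtain ⟨b, hb⟩ := hquadlin v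
    obtain ⟨a, f, haf⟩ := exists_artin_schreier h2 hoddK (b * c)
    let wl : (K × K) →ₗ[F] (K × K) :=
      { toFun := fun p => (a * p.1 + b * p.2, c * p.1 + (1 + a) * p.2)
        map_add' := fun p q => by ext : 1 <;> simp [mul_add] <;> ring
        map_smul' := fun s p => by ext : 1 <;> simp [Algebra.mul_smul_comm, smul_add] }
    set ω := LinearMap.toMatrix' ((Φ.toLinearMap ∘ₗ wl) ∘ₗ Φ.symm.toLinearMap) with hωdef
    have hω : ∀ p, ω *ᵥ Φ p = Φ (wl p) := fun p => by
      rw [← Matrix.toLin'_apply, hωdef, Matrix.toLin'_toMatrix']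
      simp
    have hωQ : ∀ x, polar Q (ω *ᵥ x) x = Q x := by
      intro x
      obtain ⟨⟨p, r⟩, rfl⟩ := Φ.surjective x
      rw [hω, hΦ, hΦ, hpol, Classical.qf_add, hc, hb,
        show polar Q (act p u) (act r v) = T (p * r) from by
          rw [hT, mul_comm p r, hmul, hsw r (act p u)], ← map_add, ← map_add]
      congr 1
      show (a * p + b * r) * r + (c * p + (1 + a) * r) * p = _
      linear_combination a * p * r * h2K
    have hωad : qadj Q ω = 1 - ω := by
      refine qadj_eq hB fun x y => ?_
      have h1 := hωQ (x + y)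
      rw [Matrix.mulVec_add, polar_add_left, polar_add_right, polar_add_right, hωQ, hωQ, Classical.qf_add] at h1
      rw [Matrix.sub_mulVec, Matrix.one_mulVec, polar_sub_right, polar_comm Q x (ω *ᵥ y)]
      linear_combination h1
    have hωK : ∀ (k : K) x, ω *ᵥ act k x = act k (ω *ᵥ x) := by
      intro k x
      obtain ⟨⟨p, r⟩, rfl⟩ := Φ.surjective x
      have hΦk : ∀ q : K × K, act k (Φ q) = Φ (k * q.1, k * q.2) := fun q => by
        rw [hΦ, hΦ, hmul, hmul]
        show _ *ᵥ (_ + _) = _
        rw [Matrix.mulVec_add]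
      rw [hω, hΦk, hΦk, hω]
      exact congrArg Φ (Prod.ext (by show a * (k * p) + b * (k * r) = k * (a * p + b * r); ring)
        (by show c * (k * p) + (1 + a) * (k * r) = k * (c * p + (1 + a) * r); ring))
    have hω2 : ω * ω - ω = f • 1 := by
      refine matrix_ext fun x => ?_
      obtain ⟨⟨p, r⟩, rfl⟩ := Φ.surjective x
      rw [Matrix.sub_mulVec, ← Matrix.mulVec_mulVec, hω, hω, Matrix.smul_mulVec, Matrix.one_mulVec, ← map_sub,
        ← map_smul]
      refine congrArg Φ (Prod.ext ?_ ?_)
      · show a * (a * p + b * r) + b * (c * p + (1 + a) * r) - (a * p + b * r) = f • p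
        rw [Algebra.smul_def]
        linear_combination -(p * haf) + (a * b * r + a * a * p) * h2K
      · show c * (a * p + b * r) + (1 + a) * (c * p + (1 + a) * r) - (c * p + (1 + a) * r) = f • r
        rw [Algebra.smul_def]
        linear_combination -(r * haf) + (a * c * p + a * r + a * a * r) * h2K
    have hωcomm : ∀ k ∈ K, ω * k = k * ω := hcommK ω hωK
    refine ge_field_or_pair hB (by omega) hirr hωad hω2 ?_ (fun _ v => (hωQ v).symm) ?_
    · intro h
      exact one_ne_zero (α := F) (by linear_combination h - 2 * f * h2)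
    · intro h hh
      set X := conjGL h ω with hX
      have hXQ : ∀ x, polar Q (X *ᵥ x) x = Q x := fun x => by
        have : X *ᵥ x = (h : Matrix ι ι F) *ᵥ (ω *ᵥ (((h⁻¹ : GL ι F) : Matrix ι ι F) *ᵥ x)) := by
          simp [hX, Matrix.mulVec_mulVec, mul_assoc]
        rw [this]
        conv_lhs => arg 3; rw [← GeoClasses.gl_mulVec_inv h x]
        rw [isometry_polar (hH hh), hωQ, isometry_inv_apply (hH hh)]
      have hXad : qadj Q X = 1 - X := by rw [hX, conjadj h hh, hωad, map_sub, map_one]
      have hXK := hactcomm X (conjK h hh ω hωcomm)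
      set D := X - ω with hD
      have hDK : ∀ (k : K) x, D *ᵥ act k x = act k (D *ᵥ x) := fun k x => by
        rw [hD, Matrix.sub_mulVec, Matrix.sub_mulVec, hXK, hωK]
        show _ = _ *ᵥ (_ - _)
        rw [Matrix.mulVec_sub]
      have hDQ : ∀ x, polar Q (D *ᵥ x) x = 0 := fun x => by
        rw [hD, Matrix.sub_mulVec, polar_sub_left, hXQ, hωQ, sub_self]
      have hDad : ∀ x y, polar Q (D *ᵥ x) y = polar Q x (D *ᵥ y) := fun x y => by
        rw [polar_qadj hB]
        congr 2
        rw [hD, qadj, sub_eq_add_neg, GeoClasses.adj_add, GeoClasses.adj_neg]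
        show qadj Q X + -qadj Q ω = _
        rw [hXad, hωad]
        calc (1 - X + -(1 - ω) : Matrix ι ι F) = ω - X := by abel
          _ = X + -ω + (2 : F) • (ω - X) := by rw [two_smul]; abel
          _ = X + -ω := by rw [h2, zero_smul, add_zero]
      obtain ⟨⟨p₁, r₁⟩, h₁⟩ := Φ.surjective (D *ᵥ u)
      obtain ⟨⟨p₂, r₂⟩, h₂⟩ := Φ.surjective (D *ᵥ v)
      rw [hΦ] at h₁ h₂
      dsimp only at h₁ h₂
      have hext : ∀ z : K, (∀ s : K, T (z * s) = 0) → z = 0 := fun z hz => by
        by_contra hz0
        apply hT0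
        ext s
        have := hz (z⁻¹ * s)
        rwa [← mul_assoc, mul_inv_cancel₀ hz0, one_mul] at this
      have hr1 : r₁ = 0 := hext _ fun s => by
        obtain ⟨l, rfl⟩ := hsq s
        have h3 := hDQ (act l u)
        rw [hDK, ← h₁, show act l (act p₁ u + act r₁ v) = act (l * p₁) u + act (l * r₁) v by
            rw [hmul, hmul]; exact Matrix.mulVec_add _ _ _,
          show act l u = act l u + act 0 v by simp [act], hpol] at h3
        rw [← h3]; congr 1; ring
      have hp2 : p₂ = 0 := hext _ fun s => by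
        obtain ⟨l, rfl⟩ := hsq s
        have h3 := hDQ (act l v)
        rw [hDK, ← h₂, show act l (act p₂ u + act r₂ v) = act (l * p₂) u + act (l * r₂) v by
            rw [hmul, hmul]; exact Matrix.mulVec_add _ _ _,
          show act l v = act 0 u + act l v by simp [act], hpol] at h3
        rw [← h3]; congr 1; ring
      have hpr : p₁ = r₂ := sub_eq_zero.1 <| hext _ fun s => by
        have h3 := hDad u (act s v)
        rw [hDK, ← h₁, ← h₂, hr1, hp2, ← hsw s u, show act s v = act 0 u + act s v by simp [act], hpol,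
          show act s u = act s u + act 0 v by simp [act], hpol] at h3
        rw [sub_mul, map_sub, sub_eq_zero]
        simpa [mul_comm] using h3
      set zM : Matrix ι ι F := (p₁ : Matrix ι ι F) with hzM
      have hXz : X = ω + zM := by
        refine matrix_ext fun x => ?_
        obtain ⟨⟨p, r⟩, rfl⟩ := Φ.surjective x
        have hDu : D *ᵥ u = act p₁ u := by rw [← h₁, hr1]; simp [act]
        have hDv : D *ᵥ v = act p₁ v := by rw [← h₂, hp2, hpr]; simp [act]
        have hDx : D *ᵥ Φ (p, r) = act p₁ (Φ (p, r)) := by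
          rw [hΦ]
          show D *ᵥ (act p u + act r v) = _ *ᵥ (_ + _)
          rw [Matrix.mulVec_add, Matrix.mulVec_add, hDK, hDK, hDu, hDv, ← hmul, ← hmul, mul_comm p, mul_comm r, hmul,
            hmul]
        rw [Matrix.add_mulVec]
        show _ = _ + act p₁ _
        rw [← hDx, hD, Matrix.sub_mulVec, add_sub_cancel]
      have hz : p₁ * p₁ - p₁ = 0 := by
        have hcz := hωcomm zM p₁.2
        have h4 : X * X - X = f • 1 := by
          rw [hX, ← map_mul, ← map_sub, hω2, map_smul, map_one]
        rw [hXz, add_mul, mul_add, mul_add, ← hcz] at h4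
        have h5 : zM * zM - zM = 0 := by
          have h6 : (2 : F) • (ω * zM) = 0 := by rw [h2, zero_smul]
          rw [two_smul] at h6
          calc zM * zM - zM = (ω * ω + ω * zM + (ω * zM + zM * zM) - (ω + zM)) - (ω * ω - ω)
                - (ω * zM + ω * zM) := by abel
            _ = 0 := by rw [h4, hω2, h6, sub_zero, sub_self]
        exact Subtype.ext h5
      have hz' : p₁ * (p₁ - 1) = 0 := by linear_combination hz
      rcases mul_eq_zero.1 hz' with h0 | h0
      · left
        rw [hXz, hzM, h0]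
        exact add_zero ω
      · right
        rw [hXz, hzM, sub_eq_zero.1 h0]
        show ω + (1 : Matrix ι ι F) = 1 - ω
        calc ω + (1 : Matrix ι ι F) = 1 - ω + (2 : F) • ω := by rw [two_smul]; abel
          _ = 1 - ω := by rw [h2, zero_smul, add_zero]
  · -- odd characteristic
    obtain ⟨u, hu⟩ : ∃ u : ι → F, Q u ≠ 0 := by
      by_contra h
      push Not at h
      obtain ⟨w, hw⟩ : ∃ w : ι → F, w ≠ 0 := exists_ne 0
      exact hw (hB w fun y => by rw [polar, h, h, h, sub_zero, sub_zero])
    obtain ⟨T, hT⟩ := hTlin u u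
    have hT0 : T ≠ 0 := fun h => hu (by
      have := LinearMap.congr_fun h 1
      rw [hT, hone, OrthGen.polar_self_two, LinearMap.zero_apply] at this
      exact (mul_eq_zero.1 this).resolve_left h2)
    obtain ⟨v, hv, hQv⟩ : ∃ v, (∀ s, polar Q (act s u) v = 0) ∧ Q v ≠ 0 := by
      have hnd : IsNondegenerateOn (polar ⇑Q) (kline K u) := by
        intro x hx hx0
        obtain ⟨k, hk, rfl⟩ := mem_kline.1 hx
        have hk0 : (⟨k, hk⟩ : K) ≠ 0 := fun h => hx0 (by
          rw [show k = 0 from congrArg Subtype.val h, Matrix.zero_mulVec])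
        have hne : polar Q (act (⟨k, hk⟩ : K)⁻¹ u) (k *ᵥ u) ≠ 0 := by
          show polar Q _ (act ⟨k, hk⟩ u) ≠ 0
          rw [← hsw, ← hmul, mul_inv_cancel₀ hk0, hone, OrthGen.polar_self_two]
          exact mul_ne_zero h2 hu
        exact ⟨⟨_, mem_kline.2 ⟨_, ((⟨k, hk⟩ : K)⁻¹).2, rfl⟩, hne⟩,
          ⟨_, mem_kline.2 ⟨_, ((⟨k, hk⟩ : K)⁻¹).2, rfl⟩, by rw [polar_comm]; exact hne⟩⟩
      obtain ⟨v, hv, hQv⟩ := exists_value_ne_zero (isNondegenerateOn_perp hB hnd) fun h => by
        have h1 := finrank_perp_add hB (kline K u)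
        rw [h, finrank_bot, finrank_kline hK (fun h => hu (by rw [h, QuadraticMap.map_zero])), hn] at h1
        omega
      exact ⟨v, fun s => hv _ (mem_kline.2 ⟨s, s.2, rfl⟩), hQv⟩
    have hv' : ∀ k l : K, polar Q (act k u) (act l v) = 0 := fun k l => by
      rw [← hsw, ← hmul]; exact hv _
    obtain ⟨T', hT'⟩ := hTlin v v
    obtain ⟨δ, hδ⟩ := exists_functional_eq T hT0 T'
    have hδ0 : δ ≠ 0 := fun h => hQv (by
      have := hδ 1
      rw [h, zero_mul, map_zero, hT', hone, OrthGen.polar_self_two] at this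
      exact (mul_eq_zero.1 this).resolve_left h2)
    have hpol : ∀ p r p' r' : K, polar Q (act p u + act r v) (act p' u + act r' v) =
        T (p * p') + T (δ * (r * r')) := by
      intro p r p' r'
      rw [polar_add_left, polar_add_right, polar_add_right, hv', polar_comm Q (act r v) (act p' u), hv',
        add_zero, zero_add, ← hδ, hT, hT']
      congr 1
      · rw [mul_comm, hmul, hsw p' (act p u)]
      · rw [mul_comm, hmul, hsw r' (act r v)]
    obtain ⟨Φ, hΦ⟩ := coords u v (by
      intro k l h
      constructor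
      · by_contra hk
        have h1 := hpol k l k⁻¹ 0
        rw [h, polar_zero_left, mul_inv_cancel₀ hk, mul_zero, mul_zero, map_zero, add_zero, hT, hone,
          OrthGen.polar_self_two] at h1
        exact mul_ne_zero h2 hu h1.symm
      · by_contra hl
        have h1 := hpol k l 0 l⁻¹
        rw [h, polar_zero_left, mul_inv_cancel₀ hl, mul_zero, map_zero, zero_add, ← hδ, hT', hone,
          OrthGen.polar_self_two] at h1
        exact mul_ne_zero h2 hQv h1.symm)
    obtain ⟨c, f, hf, hcf⟩ := exists_square_mul h2 hoddK (neg_ne_zero.2 hδ0)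
    have hc0 : c ≠ 0 := fun h => by
      rw [h, mul_zero, zero_mul] at hcf
      exact hf ((map_eq_zero (algebraMap F K)).1 hcf.symm)
    set h' : K := algebraMap F K (2 : F)⁻¹ with hh'
    have hh'2 : h' * 2 = 1 := by
      rw [hh', ← map_ofNat (algebraMap F K) 2, ← map_mul, inv_mul_cancel₀ h2, map_one]
    let wl : (K × K) →ₗ[F] (K × K) :=
      { toFun := fun p => (h' * p.1 - δ * c * p.2, c * p.1 + h' * p.2)
        map_add' := fun p q => by ext : 1 <;> simp [mul_add] <;> ring
        map_smul' := fun s p => by ext : 1 <;> simp [Algebra.mul_smul_comm, smul_add, smul_sub] }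
    set ω := LinearMap.toMatrix' ((Φ.toLinearMap ∘ₗ wl) ∘ₗ Φ.symm.toLinearMap) with hωdef
    have hω : ∀ p, ω *ᵥ Φ p = Φ (wl p) := fun p => by
      rw [← Matrix.toLin'_apply, hωdef, Matrix.toLin'_toMatrix']
      simp
    have hωK : ∀ (k : K) x, ω *ᵥ act k x = act k (ω *ᵥ x) := by
      intro k x
      obtain ⟨⟨p, r⟩, rfl⟩ := Φ.surjective x
      have hΦk : ∀ q : K × K, act k (Φ q) = Φ (k * q.1, k * q.2) := fun q => by
        rw [hΦ, hΦ, hmul, hmul]
        show _ *ᵥ (_ + _) = _
        rw [Matrix.mulVec_add]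
      rw [hω, hΦk, hΦk, hω]
      exact congrArg Φ (Prod.ext (by show h' * (k * p) - δ * c * (k * r) = k * (h' * p - δ * c * r); ring)
        (by show c * (k * p) + h' * (k * r) = k * (c * p + h' * r); ring))
    have hωad : qadj Q ω = 1 - ω := by
      refine qadj_eq hB fun x y => ?_
      obtain ⟨⟨p, r⟩, rfl⟩ := Φ.surjective x
      obtain ⟨⟨p', r'⟩, rfl⟩ := Φ.surjective y
      rw [Matrix.sub_mulVec, Matrix.one_mulVec, hω, hω, ← map_sub, hΦ, hΦ, hΦ, hΦ, hpol, hpol, ← map_add, ← map_add]
      congr 1
      show (h' * p - δ * c * r) * p' + δ * ((c * p + h' * r) * r') =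
        p * (p' - (h' * p' - δ * c * r')) + δ * (r * (r' - (c * p' + h' * r')))
      linear_combination (p * p' + δ * r * r') * hh'2
    set f' : F := f - (2 : F)⁻¹ * (2 : F)⁻¹ with hf'
    have hω2 : ω * ω - ω = f' • 1 := by
      refine matrix_ext fun x => ?_
      obtain ⟨⟨p, r⟩, rfl⟩ := Φ.surjective x
      rw [Matrix.sub_mulVec, ← Matrix.mulVec_mulVec, hω, hω, Matrix.smul_mulVec, Matrix.one_mulVec, ← map_sub,
        ← map_smul]
      have hfK : algebraMap F K f' = algebraMap F K f - h' * h' := by rw [hf', map_sub, map_mul]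
      refine congrArg Φ (Prod.ext ?_ ?_)
      · show h' * (h' * p - δ * c * r) - δ * c * (c * p + h' * r) - (h' * p - δ * c * r) = f' • p
        rw [Algebra.smul_def, hfK]
        linear_combination p * hcf + (h' * p - δ * c * r) * hh'2
      · show c * (h' * p - δ * c * r) + h' * (c * p + h' * r) - (c * p + h' * r) = f' • r
        rw [Algebra.smul_def, hfK]
        linear_combination r * hcf + (c * p + h' * r) * hh'2
    have hωcomm : ∀ k ∈ K, ω * k = k * ω := hcommK ω hωK
    refine ge_field_or_pair hB (by omega) hirr hωad hω2 ?_ (fun h => absurd h h2) ?_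
    · rw [hf', show 4 * (f - (2 : F)⁻¹ * 2⁻¹) + 1 = 4 * f by field_simp; ring]
      refine mul_ne_zero ?_ hf
      rw [show (4 : F) = 2 * 2 by norm_num]
      exact mul_ne_zero h2 h2
    · intro h hh
      set X := conjGL h ω with hX
      have hXad : qadj Q X = 1 - X := by rw [hX, conjadj h hh, hωad, map_sub, map_one]
      have hXK := hactcomm X (conjK h hh ω hωcomm)
      have hhalf : ∀ x : ι → F, act h' x = (2 : F)⁻¹ • x := fun x => hscal _ x
      have hskew : ∀ Y : Matrix ι ι F, qadj Q Y = 1 - Y → ∀ x y,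
          polar Q (Y *ᵥ x - act h' x) y = -polar Q x (Y *ᵥ y - act h' y) := fun Y hY x y => by
        rw [polar_sub_left, polar_sub_right, hhalf, hhalf, polar_smul_left, polar_smul_right, polar_qadj hB, hY,
          Matrix.sub_mulVec, Matrix.one_mulVec, polar_sub_right]
        simp only [smul_eq_mul]
        have : (2 : F)⁻¹ * 2 = 1 := inv_mul_cancel₀ h2
        linear_combination -(polar Q x y) * this
      obtain ⟨⟨p₁, r₁⟩, h₁⟩ := Φ.surjective (X *ᵥ u - act h' u)
      rw [hΦ] at h₁
      dsimp only at h₁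
      have hext : ∀ z : K, (∀ s : K, T (z * s) = 0) → z = 0 := fun z hz => by
        by_contra hz0
        apply hT0
        ext s
        have := hz (z⁻¹ * s)
        rwa [← mul_assoc, mul_inv_cancel₀ hz0, one_mul] at this
      have hJ : ∀ (s : K) x, X *ᵥ act s x - act h' (act s x) = act s (X *ᵥ x - act h' x) := fun s x => by
        rw [hXK, ← hmul, mul_comm h' s, hmul]
        show _ = _ *ᵥ (_ - _)
        rw [Matrix.mulVec_sub]
      have hp1 : p₁ = 0 := hext _ fun s => by
        have h3 := hskew X hXad u (act s u)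
        rw [hJ, ← h₁, ← hsw s u] at h3
        have h5 : polar Q (act p₁ u + act r₁ v) (act s u) = T (p₁ * s) := by
          rw [show act s u = act s u + act 0 v by simp [act], hpol]; simp
        have h6 : polar Q (act s u) (act p₁ u + act r₁ v) = T (p₁ * s) := by rw [polar_comm, h5]
        rw [h5, h6] at h3
        have : (2 : F) * T (p₁ * s) = 0 := by linear_combination h3
        exact (mul_eq_zero.1 this).resolve_left h2
      set k := r₁ * c⁻¹ with hk
      set D := X - (k : Matrix ι ι F) * (ω - (2 : F)⁻¹ • 1) - (2 : F)⁻¹ • 1 with hD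
      have hωh : ∀ x, (ω - (2 : F)⁻¹ • 1) *ᵥ x = ω *ᵥ x - act h' x := fun x => by
        rw [Matrix.sub_mulVec, Matrix.smul_mulVec, Matrix.one_mulVec, hhalf]
      have hDx : ∀ x, D *ᵥ x = (X *ᵥ x - act h' x) - act k (ω *ᵥ x - act h' x) := fun x => by
        rw [hD, Matrix.sub_mulVec, Matrix.sub_mulVec, ← Matrix.mulVec_mulVec, hωh, Matrix.smul_mulVec,
          Matrix.one_mulVec, ← hhalf]
        exact sub_right_comm _ _ _
      have hωJ : ∀ (s : K) x, ω *ᵥ act s x - act h' (act s x) = act s (ω *ᵥ x - act h' x) := fun s x => by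
        rw [hωK, ← hmul, mul_comm h' s, hmul]
        show _ = _ *ᵥ (_ - _)
        rw [Matrix.mulVec_sub]
      have hDskew : ∀ x y, polar Q (D *ᵥ x) y = -polar Q x (D *ᵥ y) := fun x y => by
        rw [hDx, hDx, polar_sub_left, polar_sub_right, hskew X hXad, hsw, hskew ω hωad, hωJ]
        ring
      have hDK : ∀ (s : K) x, D *ᵥ act s x = act s (D *ᵥ x) := fun s x => by
        rw [hDx, hDx, hJ, hωJ, ← hmul, mul_comm k s, hmul]
        show _ = _ *ᵥ (_ - _)
        rw [Matrix.mulVec_sub]
      have hωu : ω *ᵥ u - act h' u = act c v := by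
        have h7 := hω (1, 0)
        rw [hΦ, hΦ] at h7
        simp only [wl, LinearMap.coe_mk, AddHom.coe_mk, mul_one, mul_zero, sub_zero, add_zero] at h7
        rw [hone, show act 0 v = 0 from Matrix.zero_mulVec v, add_zero] at h7
        rw [h7, add_sub_cancel_left]
      have hDu : D *ᵥ u = 0 := by
        rw [hDx, hωu, ← h₁, hp1, ← hmul, hk, mul_assoc, inv_mul_cancel₀ hc0, mul_one,
          show act 0 u = 0 from Matrix.zero_mulVec u, zero_add, sub_self]
      have hDv : D *ᵥ v = 0 := by
        obtain ⟨⟨p, r⟩, h8⟩ := Φ.surjective (D *ᵥ v)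
        rw [hΦ] at h8
        dsimp only at h8
        have hp : p = 0 := hext _ fun s => by
          have h9 := hDskew (act s u) v
          rw [hDK, hDu, ← h8] at h9
          have h10 : polar Q (act s u) (act p u + act r v) = T (p * s) := by
            rw [show act s u = act s u + act 0 v by simp [act], hpol]; simp [mul_comm]
          rw [h10] at h9
          simpa [act] using h9
        have hr : r = 0 := by
          have : ∀ s, T (δ * r * s) = 0 := fun s => by
            have h9 := hDskew v (act s v)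
            rw [hDK, ← h8, ← hsw s v] at h9
            have h10 : polar Q (act p u + act r v) (act s v) = T (δ * r * s) := by
              rw [show act s v = act 0 u + act s v by simp [act], hpol]; simp [mul_assoc]
            have h11 : polar Q (act s v) (act p u + act r v) = T (δ * r * s) := by rw [polar_comm, h10]
            rw [h10, h11] at h9
            have : (2 : F) * T (δ * r * s) = 0 := by linear_combination h9
            exact (mul_eq_zero.1 this).resolve_left h2
          exact (mul_eq_zero.1 (hext _ this)).resolve_left hδ0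
        rw [← h8, hp, hr]
        simp [act]
      have hD0 : D = 0 := matrix_ext fun x => by
        obtain ⟨⟨p, r⟩, rfl⟩ := Φ.surjective x
        rw [hΦ, Matrix.zero_mulVec, Matrix.mulVec_add, hDK, hDK, hDu, hDv]
        simp [act]
      have hXk : X = (k : Matrix ι ι F) * (ω - (2 : F)⁻¹ • 1) + (2 : F)⁻¹ • 1 := by
        have := sub_eq_zero.1 (hD.symm.trans hD0)
        rw [add_comm]
        exact sub_eq_iff_eq_add.1 this
      set J := ω - (2 : F)⁻¹ • (1 : Matrix ι ι F) with hJdef
      have hhh : (2 : F)⁻¹ + (2 : F)⁻¹ = 1 := by field_simp; ring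
      have hJJ : J * J = f • 1 := by
        have hω2' : ω * ω = ω + f' • 1 := by rw [← hω2]; abel
        rw [hJdef, sub_mul, mul_sub, mul_sub, hω2', Matrix.mul_smul, mul_one, Matrix.smul_mul, one_mul,
          Matrix.mul_smul, mul_one, smul_smul]
        have : (2 : F)⁻¹ • ω + (2 : F)⁻¹ • ω = ω := by rw [← add_smul, hhh, one_smul]
        calc ω + f' • 1 - (2 : F)⁻¹ • ω - ((2 : F)⁻¹ • ω - ((2 : F)⁻¹ * 2⁻¹) • (1 : Matrix ι ι F))
            = ω - ((2 : F)⁻¹ • ω + (2 : F)⁻¹ • ω) + (f' • 1 + ((2 : F)⁻¹ * 2⁻¹) • 1) := by abel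
          _ = _ := by rw [this, sub_self, zero_add, ← add_smul, hf', sub_add_cancel]
      have hkk : k * k = 1 := by
        have h4 : (X - (2 : F)⁻¹ • 1) * (X - (2 : F)⁻¹ • 1) = f • 1 := by
          rw [hX, show (2 : F)⁻¹ • (1 : Matrix ι ι F) = conjGL h ((2 : F)⁻¹ • 1) by rw [map_smul, map_one],
            ← map_sub, ← map_mul, hJJ, map_smul, map_one]
        rw [hXk, add_sub_cancel_right] at h4
        have hJk : J * (k : Matrix ι ι F) = (k : Matrix ι ι F) * J := by
          rw [hJdef, sub_mul, mul_sub, hωcomm _ k.2, Matrix.smul_mul, Matrix.mul_smul, one_mul, mul_one]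
        rw [show (k : Matrix ι ι F) * J * ((k : Matrix ι ι F) * J) = (k : Matrix ι ι F) * (J * (k : Matrix ι ι F)) * J by
            simp only [mul_assoc], hJk, ← mul_assoc, mul_assoc _ J J, hJJ, Matrix.mul_smul, mul_one] at h4
        exact Subtype.ext (smul_right_injective _ hf h4)
      rcases mul_self_eq_one_iff.1 hkk with hk1 | hk1
      · left
        rw [hXk, hk1]
        show (1 : Matrix ι ι F) * J + _ = ω
        rw [one_mul, sub_add_cancel]
      · right
        rw [hXk, hk1]
        show (-(1 : Matrix ι ι F)) * J + _ = 1 - ω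
        rw [neg_mul, one_mul, hJdef, neg_sub]
        calc (2 : F)⁻¹ • (1 : Matrix ι ι F) - ω + (2 : F)⁻¹ • 1
            = ((2 : F)⁻¹ • 1 + (2 : F)⁻¹ • 1) - ω := by abel
          _ = _ := by rw [← add_smul, hhh, one_smul]

end Cfsg.Agent.OrthMax
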