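import Cfsg.Agent.OrthMax.EvenReduce

/-!
The almost simple case in even dimension: residual class or subfield group.
-/

set_option autoImplicit false
set_option linter.style.haveILetI false
set_option linter.unusedSectionVars false

namespace Cfsg.Agent.OrthMax

open Matrix Cfsg.Geo QuadraticMap Module
open Cfsg.Agent.Classical (OQ BNondeg)
open Cfsg.Agent.GeoClasses (formOf IsPolar IsSim adjForm IsSimpleData conjGL)
open scoped MatrixGroups Matrix

variable {F : Type*} [Field F] {ι : Type} [Fintype ι] [DecidableEq ι] {Q : QuadraticForm F (ι → F)}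

/-- Totally singular vectors with partners span a half: plus type. -/
theorem plus_of_dual {k : ℕ} (v w : Fin k → (ι → F)) (hv : ∀ i, Q (v i) = 0)
    (hvv : ∀ i j, i ≠ j → polar Q (v i) (v j) = 0) (hvw : ∀ i j, i ≠ j → polar Q (v i) (w j) = 0)
    (hne : ∀ i, polar Q (v i) (w i) ≠ 0) (hk : 2 * k = Fintype.card ι) : IsPlusTypeOn ⇑Q ⊤ := by
  have hli : LinearIndependent F v := by
    rw [Fintype.linearIndependent_iff]
    intro c hc j
    have h0 : polar Q (∑ i, c i • v i) (w j) = 0 := by rw [hc, polar_zero_left]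
    rw [← polarBilin_apply_apply, map_sum, LinearMap.sum_apply, Finset.sum_eq_single j] at h0
    · rw [polarBilin_apply_apply, polar_smul_left, smul_eq_mul] at h0
      exact (mul_eq_zero.1 h0).resolve_right (hne j)
    · intro i _ hij
      rw [polarBilin_apply_apply, polar_smul_left, hvw i j hij, smul_zero]
    · simp
  refine plus_of_ts (U := Submodule.span F (Set.range v)) le_top ?_ ?_ ?_
  · intro x hx
    obtain ⟨c, rfl⟩ := (Submodule.mem_span_range_iff_exists_fun F).1 hx
    rw [qf_sum_orth]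
    · simp [QuadraticMap.map_smul, hv]
    · intro p q hpq
      rw [polar_smul_left, polar_smul_right, hvv p q hpq, smul_zero, smul_zero]
  · rw [finrank_top, Module.finrank_fintype_fun_eq_card, ← hk]; exact even_two_mul k
  · rw [finrank_top, Module.finrank_fintype_fun_eq_card, finrank_span_eq_card hli, Fintype.card_fin, hk]

/-- A rational Gram matrix gives a rational structure of the quadratic form. -/
theorem rational_of_gram [Fintype F] (hn : 2 ≤ Fintype.card ι) {H : Subgroup (GL ι F)}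
    (hH : H ≤ Cfsg.isometryGroup F ⇑Q) (hirr : ActsIrreducibly (matrixSet H)) {F₁ : Subfield F} {P : GL ι F}
    {b : F} {G : Matrix ι ι F} (hb : b ≠ 0) (hG0 : IsUnit G)
    (hG : adjForm (RingEquiv.refl F) (polarMat Q) (P : Matrix ι ι F) = b • G) (hent : ∀ i j, G i j ∈ F₁)
    (hle : H ≤ subfieldSubgroup F₁ P) :
    IsQuadFormRationalStructure (fun v => b⁻¹ * Q v) F₁ P := by
  classical
  haveI : Nonempty ι := Fintype.card_pos_iff.1 (by omega)
  obtain ⟨τ, hτ, -⟩ := GeoClasses.exists_frobenius_fixedSubfield F₁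
  have hpolar : ∀ x y : ι → F, b⁻¹ * polar Q ((P : Matrix ι ι F) *ᵥ x) ((P : Matrix ι ι F) *ᵥ y)
      = formOf (RingEquiv.refl F) G x y := fun x y => by
    rw [← formOf_polarMat Q, GeoClasses.formOf_mulVec, hG, GeoClasses.formOf_smul, inv_mul_cancel_left₀ hb]
  by_cases h2 : (2 : F) = 0
  swap
  · intro u hu
    have h1 := hpolar u u
    rw [OrthGen.polar_self_two] at h1
    show b⁻¹ * Q _ ∈ F₁
    rw [show b⁻¹ * Q ((P : Matrix ι ι F) *ᵥ u) = formOf (RingEquiv.refl F) G u u / 2 by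
      rw [← h1]; field_simp]
    refine div_mem (GeoClasses.formOf_mem F₁ hent hu hu) ?_
    rw [show (2 : F) = 1 + 1 by norm_num]
    exact add_mem (one_mem _) (one_mem _)
  let T : (ι → F) → (ι → F) := fun v =>
    (P : Matrix ι ι F) *ᵥ fun i => τ.symm ((((P⁻¹ : GL ι F) : Matrix ι ι F) *ᵥ v) i)
  have hTadd : ∀ x y, T (x + y) = T x + T y := fun x y => by
    show (P : Matrix ι ι F) *ᵥ _ = _
    rw [← Matrix.mulVec_add]
    congr 1
    funext i
    simp [Matrix.mulVec_add]
  have hTsmul : ∀ (c : F) x, T (c • x) = τ.symm c • T x := fun c x => by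
    show (P : Matrix ι ι F) *ᵥ _ = _
    rw [← Matrix.mulVec_smul]
    congr 1
    funext i
    simp [Matrix.mulVec_smul]
  have hτG : ∀ x y : ι → F, τ (formOf (RingEquiv.refl F) G (fun i => τ.symm (x i)) fun i => τ.symm (y i))
      = formOf (RingEquiv.refl F) G x y := fun x y => by
    simp only [formOf, dotProduct, Matrix.mulVec, RingEquiv.refl_apply, map_sum, map_mul,
      RingEquiv.apply_symm_apply]
    refine Finset.sum_congr rfl fun i _ => ?_
    congr 1
    exact Finset.sum_congr rfl fun j _ => by rw [(hτ _).2 (hent i j)]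
  have hDz := fun v => GeoClasses.eq_zero_of_additive_irreducible hirr h2 hn
    (D := fun v => b⁻¹ * Q v - τ (b⁻¹ * Q (T v))) (fun x y => ?_) (fun c x => ?_) (fun h hh v => ?_) v
  · intro u hu
    show b⁻¹ * Q _ ∈ F₁
    rw [← hτ]
    have h1 := sub_eq_zero.1 (hDz ((P : Matrix ι ι F) *ᵥ u))
    rw [show T ((P : Matrix ι ι F) *ᵥ u) = (P : Matrix ι ι F) *ᵥ u by
      show (P : Matrix ι ι F) *ᵥ _ = _
      congr 1
      funext i
      rw [GeoClasses.gl_inv_mulVec]
      exact τ.symm_apply_eq.2 ((hτ _).2 (hu i)).symm] at h1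
    exact h1.symm
  · have hp : τ (b⁻¹ * polar Q (T x) (T y)) = b⁻¹ * polar Q x y := by
      rw [hpolar, hτG, ← hpolar, GeoClasses.gl_mulVec_inv, GeoClasses.gl_mulVec_inv]
    simp only [hTadd, Classical.qf_add, mul_add, map_add, hp]
    ring
  · simp only [hTsmul, QuadraticMap.map_smul, smul_eq_mul, map_mul, RingEquiv.apply_symm_apply]
    ring
  · obtain ⟨-, ⟨gs, hgs, rfl⟩⟩ : h ∈ H ∧ h ∈ subfieldSubgroup F₁ P := ⟨hh, hle hh⟩
    obtain ⟨z, hz, g₀, hg₀, rfl⟩ := GeoClasses.mem_sup_scalars.1 hgs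
    obtain ⟨gsub, rfl⟩ := hg₀
    obtain ⟨lam, hlam⟩ := (Cfsg.Geo.mem_scalars_iff z).1 hz
    set g₀ : Matrix ι ι F := ((Matrix.GeneralLinearGroup.map (F₁.subtype : F₁ →+* F) gsub : GL ι F) : Matrix ι ι F)
      with hg₀def
    have hg₀m : ∀ i j, g₀ i j ∈ F₁ := fun i j => ((gsub : Matrix ι ι F₁) i j).2
    set hM : Matrix ι ι F := (((MulAut.conj P).toMonoidHom
      (z * Matrix.GeneralLinearGroup.map (F₁.subtype : F₁ →+* F) gsub) : GL ι F) : Matrix ι ι F) with hMdef
    have hhv : ∀ v, hM *ᵥ v = (lam : F) • ((P : Matrix ι ι F) *ᵥ (g₀ *ᵥ (((P⁻¹ : GL ι F) : Matrix ι ι F) *ᵥ v))) := by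
      intro v
      rw [hMdef, GeoClasses.gl_conj_val, Units.val_mul, hlam, ← hg₀def]
      simp [Matrix.smul_mulVec, mul_assoc]
    have hiso : ∀ v, Q (hM *ᵥ v) = Q v := fun v => isometry_apply (hH hh) v
    have hGg : ∀ x y, ((lam : F) * lam) * formOf (RingEquiv.refl F) G (g₀ *ᵥ x) (g₀ *ᵥ y)
        = formOf (RingEquiv.refl F) G x y := by
      intro x y
      rw [← hpolar x y, ← hpolar]
      have h1 : polar Q (hM *ᵥ ((P : Matrix ι ι F) *ᵥ x)) (hM *ᵥ ((P : Matrix ι ι F) *ᵥ y))
          = polar Q ((P : Matrix ι ι F) *ᵥ x) ((P : Matrix ι ι F) *ᵥ y) := by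
        simp only [polar, ← Matrix.mulVec_add, hiso]
      rw [hhv, hhv, GeoClasses.gl_inv_mulVec, GeoClasses.gl_inv_mulVec, polar_smul_left, polar_smul_right,
        smul_eq_mul, smul_eq_mul] at h1
      rw [← h1]
      ring
    have hlam2 : τ ((lam : F) * lam) = (lam : F) * lam := by
      obtain ⟨i, j, hij⟩ := GeoClasses.exists_entry_ne_zero hG0.ne_zero
      have h1 := hGg (Pi.single i 1) (Pi.single j 1)
      rw [GeoClasses.formOf_single] at h1
      set e := formOf (RingEquiv.refl F) G (g₀ *ᵥ Pi.single i 1) (g₀ *ᵥ Pi.single j 1)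
      have hm : e ∈ F₁ :=
        GeoClasses.formOf_mem F₁ hent (fun k => by simpa using hg₀m k i) (fun k => by simpa using hg₀m k j)
      have he0 : e ≠ 0 := fun h0 => hij (by rw [← h1, h0, mul_zero])
      rw [hτ, show (lam : F) * lam = G i j / e by rw [← h1]; field_simp]
      exact div_mem (hent i j) hm
    have hTh : T (hM *ᵥ v) = (τ.symm (lam : F) * (lam : F)⁻¹) • (hM *ᵥ T v) := by
      rw [hhv (T v)]
      simp only [T, GeoClasses.gl_inv_mulVec]
      rw [smul_smul, mul_assoc, inv_mul_cancel₀ lam.ne_zero, mul_one]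
      have hin : (fun i => τ.symm ((((P⁻¹ : GL ι F) : Matrix ι ι F) *ᵥ (hM *ᵥ v)) i))
          = τ.symm (lam : F) • (g₀ *ᵥ fun i => τ.symm ((((P⁻¹ : GL ι F) : Matrix ι ι F) *ᵥ v) i)) := by
        funext i
        rw [hhv, Matrix.mulVec_smul, GeoClasses.gl_inv_mulVec]
        simp only [Pi.smul_apply, Matrix.mulVec, dotProduct, smul_eq_mul, map_mul, map_sum]
        congr 1
        exact Finset.sum_congr rfl fun k _ => by rw [τ.symm_apply_eq.2 ((hτ _).2 (hg₀m i k)).symm]
      rw [hin, Matrix.mulVec_smul]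
    show b⁻¹ * Q _ - τ (b⁻¹ * Q _) = b⁻¹ * Q v - τ (b⁻¹ * Q (T v))
    rw [hiso, hTh, QuadraticMap.map_smul, hiso, smul_eq_mul]
    congr 2
    have hs : τ.symm (lam : F) * τ.symm (lam : F) = (lam : F) * lam := by
      rw [← map_mul]; exact τ.symm_apply_eq.2 hlam2.symm
    rw [show τ.symm (lam : F) * (lam : F)⁻¹ * (τ.symm (lam : F) * (lam : F)⁻¹)
        = (τ.symm (lam : F) * τ.symm (lam : F)) * ((lam : F) * lam)⁻¹ by rw [mul_inv]; ring, hs,
      mul_inv_cancel₀ (mul_ne_zero lam.ne_zero lam.ne_zero), one_mul]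

/-- The almost simple case. -/
theorem residual_or_rational [Fintype F] (hB : BNondeg Q) (hn : 2 ≤ Fintype.card ι) {H P : Subgroup (GL ι F)}
    (hH : H ≤ Cfsg.isometryGroup F ⇑Q) (hirr : ActsIrreducibly (matrixSet H))
    (hP : IsSimpleData (RingEquiv.refl F) (polarMat Q) H P) :
    InOrthogonalResidualClass H ∨
      ∃ (F₀ : Subfield F) (r : ℕ) (P : GL ι F) (ζ : F), r.Prime ∧ Fintype.card F = Nat.card F₀ ^ r ∧ ζ ≠ 0 ∧
        IsQuadFormRationalStructure (fun v => ζ * Q v) F₀ P ∧ H ≤ subfieldSubgroup F₀ P := by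
  haveI : Nonempty ι := Fintype.card_pos_iff.1 (by omega)
  have hpol := isPolar_polarMat hB
  by_cases hreal : ∃ F₀ : Subfield F, F₀ ≠ ⊤ ∧ RealisableOver F₀ (matrixSet P)
  · obtain ⟨F₀, hF₀, hr⟩ := hreal
    obtain ⟨B₀, hB₀⟩ := GeoClasses.conjGL_of_realisableOver hr
    obtain ⟨F₁, r, hr, hle, hcard⟩ := GeoClasses.exists_subfield_prime_index hF₀
    obtain ⟨P', b, G, hb, hG0, hG, hent, hHle, -⟩ := GeoClasses.exists_rational_form
      (σ := RingEquiv.refl F) hpol.unit (F₁ := F₁) hP.span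
      (fun x hx => ⟨1, one_mem _, hP.isometry x hx⟩) hP.normal (B₀ := B₀)
      (fun x hx => GeoClasses.mem_subfieldMatrices.2 fun i j => hle (GeoClasses.mem_subfieldMatrices.1 (hB₀ x hx) i j))
    exact Or.inr ⟨F₁, r, P', b⁻¹, hr, by rw [← Nat.card_eq_fintype_card, hcard], inv_ne_zero hb,
      rational_of_gram hn hH hirr hb hG0 hG hent hHle, hHle⟩
  refine Or.inl ⟨P, hP.core fun F₀ h0 hr => hreal ⟨F₀, h0, hr⟩, ?_⟩
  rintro ⟨σ, f, hf, hfix⟩
  have hform := GeoClasses.unitaryForm_eq_formOf hf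
  have hBu : IsUnit (gramMatrix f) :=
    GeoClasses.isUnit_of_isNondegenerateForm (σ := σ) (hform ▸ hf.nondegenerate)
  set F₀ : Subfield F := RingHom.eqLocusField σ.toRingHom (RingHom.id F) with hF₀
  obtain ⟨B₀, hB₀⟩ := GeoClasses.realisable_of_two_forms (F₀ := F₀) (σ := σ) (fun a => Iff.rfl) hBu hpol.unit
    hP.span (fun g hg => GeoClasses.isSim_of_formOf fun u v => by
      rw [← hform, one_mul]; exact hfix _ ⟨g, hg, rfl⟩ u v) hP.isometry
  refine hreal ⟨F₀, fun htop => hf.ne_refl (RingEquiv.ext fun a => ?_),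
    GeoClasses.realisableOver_of_conjGL hB₀⟩
  have ha : a ∈ F₀ := htop ▸ Subfield.mem_top a
  exact ha

/-- Over a quadratic extension every rational form becomes plus. -/
theorem plus_of_quadratic_descent [Fintype F] (hB : BNondeg Q) (he : Even (Fintype.card ι)) {F₀ : Subfield F}
    (hcard : Fintype.card F = Nat.card F₀ ^ 2) {P : GL ι F} {ζ : F} (hζ : ζ ≠ 0)
    (hrat : IsQuadFormRationalStructure (fun v => ζ * Q v) F₀ P) : IsPlusTypeOn ⇑Q ⊤ := by
  classical
  let E : (ι → F₀) → (ι → F) := fun u => (P : Matrix ι ι F) *ᵥ fun i => (u i : F)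
  have hEadd : ∀ u v, E (u + v) = E u + E v := fun u v => by
    show (P : Matrix ι ι F) *ᵥ _ = _
    rw [← Matrix.mulVec_add]
    rfl
  have hEsmul : ∀ (c : F₀) u, E (c • u) = (c : F) • E u := fun c u => by
    show (P : Matrix ι ι F) *ᵥ _ = _
    rw [← Matrix.mulVec_smul]
    rfl
  let q : (ι → F₀) → F₀ := fun u => ⟨ζ * Q (E u), hrat _ fun i => (u i).2⟩
  have hqp : ∀ u v, ((polar q u v : F₀) : F) = ζ * polar Q (E u) (E v) := fun u v => by
    simp only [polar, q, hEadd, AddSubgroupClass.coe_sub]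
    ring
  let Q₀ : QuadraticForm F₀ (ι → F₀) := QuadraticMap.ofPolar q
    (fun c u => Subtype.ext (by
      simp only [q, hEsmul, QuadraticMap.map_smul, smul_eq_mul, MulMemClass.coe_mul]; ring))
    (fun u u' v => Subtype.ext (by rw [AddMemClass.coe_add, hqp, hqp, hqp, hEadd, polar_add_left]; ring))
    (fun c u v => Subtype.ext (by
      rw [smul_eq_mul, MulMemClass.coe_mul, hqp, hqp, hEsmul, polar_smul_left, smul_eq_mul]; ring))
  have hQ0 : ∀ u, (Q₀ u : F) = ζ * Q (E u) := fun u => rfl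
  have hp0 : ∀ u v, ((polar Q₀ u v : F₀) : F) = ζ * polar Q (E u) (E v) := hqp
  have hnd : IsNondegenerateOn (polar ⇑Q₀) ⊤ := by
    intro u _ hu
    obtain ⟨j, hj⟩ : ∃ j, polar Q (E u) ((P : Matrix ι ι F) *ᵥ Pi.single j 1) ≠ 0 := by
      by_contra hall
      push Not at hall
      refine hu ?_
      have h0 : E u = 0 := hB _ fun w => by
        rw [← GeoClasses.gl_mulVec_inv P w, ← (Pi.basisFun F ι).sum_repr (((P⁻¹ : GL ι F) : Matrix ι ι F) *ᵥ w)]
        simp only [Pi.basisFun_repr, Pi.basisFun_apply, Matrix.mulVec_sum, Matrix.mulVec_smul]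
        rw [← polarBilin_apply_apply, map_sum]
        refine Finset.sum_eq_zero fun j _ => ?_
        rw [map_smul, polarBilin_apply_apply, hall, smul_zero]
      have h1 : (fun i => (u i : F)) = 0 := by
        rw [← GeoClasses.gl_inv_mulVec P (fun i => (u i : F)), show (P : Matrix ι ι F) *ᵥ _ = 0 from h0,
          Matrix.mulVec_zero]
      funext i
      exact Subtype.ext (congrFun h1 i)
    have hs : E (Pi.single j 1) = (P : Matrix ι ι F) *ᵥ Pi.single j 1 := by
      show (P : Matrix ι ι F) *ᵥ _ = _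
      congr 1
      funext i
      by_cases hi : i = j
      · subst hi; simp
      · simp [Pi.single_eq_of_ne hi]
    have hne : polar Q₀ u (Pi.single j 1) ≠ 0 := fun h0 => by
      have h1 := hp0 u (Pi.single j 1)
      rw [h0, hs, ZeroMemClass.coe_zero] at h1
      exact mul_ne_zero hζ hj h1.symm
    exact ⟨⟨_, trivial, by rw [polar_comm]; exact hne⟩, ⟨_, trivial, hne⟩⟩
  have hev : Even (finrank F₀ (⊤ : Submodule F₀ (ι → F₀))) := by
    rw [finrank_top, Module.finrank_fintype_fun_eq_card]; exact he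
  -- values along a coordinate system
  rcases normal_form_even (Q := Q₀) hnd hev with ⟨-, m, hm, e, he₁⟩ | ⟨-, m, hm, a, b, hab, e, he₁⟩
  · rw [finrank_top, Module.finrank_fintype_fun_eq_card] at hm
    let c : Fin m ⊕ Fin m → (ι → F₀) := fun z => (e.symm (Pi.single z 1) : ι → F₀)
    have hval : ∀ x, Q₀ (e.symm x : ι → F₀) = Cfsg.quadFormPlus m F₀ x := fun x => by
      rw [he₁, e.apply_symm_apply]
    have hpol : ∀ x y, polar Q₀ (c x) (c y) = polar (Cfsg.quadFormPlus m F₀) (Pi.single x 1) (Pi.single y 1) := by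
      intro x y
      simp only [polar, c, ← Submodule.coe_add, ← map_add, hval]
    have hQc : ∀ z, Q₀ (c z) = 0 := fun z => by
      rw [hval]; cases z <;> simp [Cfsg.quadFormPlus, Pi.single_apply]
    refine plus_of_dual (fun i => E (c (.inl i))) (fun i => E (c (.inr i))) (fun i => ?_) (fun i j hij => ?_)
      (fun i j hij => ?_) (fun i h0 => ?_) hm.symm
    · exact (mul_eq_zero.1 (by rw [← hQ0, hQc]; rfl)).resolve_left hζ
    · refine (mul_eq_zero.1 ?_).resolve_left hζ
      rw [← hp0, hpol]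
      simp [polar, Cfsg.quadFormPlus, Pi.single_apply]
    · refine (mul_eq_zero.1 ?_).resolve_left hζ
      rw [← hp0, hpol]
      simp [polar, Cfsg.quadFormPlus, Pi.single_apply, hij, Ne.symm hij, add_mul, mul_add, Finset.sum_add_distrib]
    · have h1 := hp0 (c (.inl i)) (c (.inr i))
      rw [h0, mul_zero, hpol] at h1
      simp [polar, Cfsg.quadFormPlus, Pi.single_apply, add_mul, mul_add, Finset.sum_add_distrib] at h1
  rw [finrank_top, Module.finrank_fintype_fun_eq_card] at hm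
  obtain ⟨τ, hτ, hτp⟩ := GeoClasses.exists_frobenius_fixedSubfield F₀
  obtain ⟨x, hx⟩ : ∃ x : F, x ∉ F₀ := by
    by_contra hall
    push Not at hall
    have h1 : Nat.card F₀ = Fintype.card F := by
      rw [← Nat.card_eq_fintype_card]
      exact Nat.card_congr ⟨Subtype.val, fun a => ⟨a, hall a⟩, fun a => rfl, fun a => rfl⟩
    have h2 : 1 < Nat.card F₀ := Finite.one_lt_card
    rw [hcard] at h1
    nlinarith [h1, h2]
  have hττ : τ (τ x) = x := by rw [hτp, hτp, ← pow_mul, ← _root_.sq, ← hcard, FiniteField.pow_card]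
  have hsum : x + τ x ∈ F₀ := (hτ _).1 (by rw [map_add, hττ, add_comm])
  have hprod : x * τ x ∈ F₀ := (hτ _).1 (by rw [map_mul, hττ, mul_comm])
  set c₁ : F₀ := -⟨x + τ x, hsum⟩ with hc₁
  set d₁ : F₀ := ⟨x * τ x, hprod⟩ with hd₁
  have hτx : τ x ∉ F₀ := fun h => hx (by rw [← hττ, (hτ _).2 h]; exact h)
  have hcd : Forms.BinaryAniso c₁ d₁ := by
    intro z₁ z₂ h0
    have h1 : ((z₁ : F) - x * z₂) * ((z₁ : F) - τ x * z₂) = 0 := by
      have := congrArg (fun u : F₀ => (u : F)) h0
      simp [hc₁, hd₁] at this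
      linear_combination this
    have hz2 : z₂ = 0 := by
      by_contra hz
      have hz' : (z₂ : F) ≠ 0 := fun h => hz (Subtype.ext h)
      rcases mul_eq_zero.1 h1 with h | h
      · exact hx (by rw [show x = (z₁ : F) / z₂ by field_simp; linear_combination -h]; exact div_mem z₁.2 z₂.2)
      · exact hτx (by rw [show τ x = (z₁ : F) / z₂ by field_simp; linear_combination -h]; exact div_mem z₁.2 z₂.2)
    subst hz2
    simp at h1
    exact ⟨h1, rfl⟩
  obtain ⟨T, hT⟩ := Forms.exists_quadFormMinus_equiv hcd hab m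
  let c : (Fin m ⊕ Fin m) ⊕ Fin 2 → (ι → F₀) := fun z => (e.symm (T (Pi.single z 1)) : ι → F₀)
  have hval : ∀ y, Q₀ (e.symm (T y) : ι → F₀) = Cfsg.quadFormMinus m F₀ c₁ d₁ y := fun y => by
    rw [he₁, e.apply_symm_apply, hT]
  have hpol : ∀ y z, polar Q₀ (c y) (c z)
      = polar (Cfsg.quadFormMinus m F₀ c₁ d₁) (Pi.single y 1) (Pi.single z 1) := by
    intro y z
    simp only [polar, c, ← Submodule.coe_add, ← map_add, hval]
  have hzero : ∀ u w, polar Q₀ u w = 0 → polar Q (E u) (E w) = 0 := fun u w h =>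
    (mul_eq_zero.1 (by rw [← hp0, h]; rfl)).resolve_left hζ
  set vinf : ι → F := x • E (c (.inr 0)) + E (c (.inr 1)) with hvinf
  have hinfpol : ∀ u, polar Q₀ (c (.inr 0)) u = 0 → polar Q₀ (c (.inr 1)) u = 0 → polar Q vinf (E u) = 0 :=
    fun u h0 h1 => by rw [hvinf, polar_add_left, polar_smul_left, hzero _ _ h0, hzero _ _ h1, smul_zero, add_zero]
  have hpp : ∀ (i : Fin m) (k : Fin 2), polar Q₀ (c (.inr k)) (c (.inl (.inl i))) = 0 ∧
      polar Q₀ (c (.inr k)) (c (.inl (.inr i))) = 0 := by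
    intro i k
    constructor <;> rw [hpol] <;> fin_cases k <;> simp [polar, Cfsg.quadFormMinus, Pi.single_apply]
  let v : Fin (m + 1) → (ι → F) := Fin.cons vinf fun i => E (c (.inl (.inl i)))
  let w : Fin (m + 1) → (ι → F) := Fin.cons (E (c (.inr 0))) fun i => E (c (.inl (.inr i)))
  refine plus_of_dual v w (fun i => ?_) (fun i j hij => ?_) (fun i j hij => ?_) (fun i => ?_) (by omega)
  · refine Fin.cases ?_ (fun i => ?_) i
    · show Q vinf = 0
      refine (mul_eq_zero.1 ?_).resolve_left hζ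
      rw [hvinf, Classical.qf_add, QuadraticMap.map_smul, polar_smul_left, smul_eq_mul, smul_eq_mul, mul_add, mul_add,
        show ζ * (x * x * Q (E (c (.inr 0)))) = x * x * (ζ * Q (E (c (.inr 0)))) by ring,
        show ζ * (x * polar Q (E (c (.inr 0))) (E (c (.inr 1)))) = x * (ζ * polar Q (E (c (.inr 0))) (E (c (.inr 1)))) by ring,
        ← hQ0, ← hQ0, ← hp0, hpol, hval, hval]
      simp [polar, Cfsg.quadFormMinus, Pi.single_apply, hc₁, hd₁]
      ring
    · show Q (E (c (.inl (.inl i)))) = 0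
      refine (mul_eq_zero.1 ?_).resolve_left hζ
      rw [← hQ0, hval]
      simp [Cfsg.quadFormMinus, Pi.single_apply]
  · revert hij
    refine Fin.cases ?_ (fun i => ?_) i <;> refine Fin.cases ?_ (fun j => ?_) j <;> intro hij
    · exact absurd rfl hij
    · exact hinfpol _ (hpp j 0).1 (hpp j 1).1
    · show polar Q _ vinf = 0
      rw [polar_comm]
      exact hinfpol _ (hpp i 0).1 (hpp i 1).1
    · refine hzero _ _ ?_
      rw [hpol]
      simp [polar, Cfsg.quadFormMinus, Pi.single_apply]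
  · revert hij
    refine Fin.cases ?_ (fun i => ?_) i <;> refine Fin.cases ?_ (fun j => ?_) j <;> intro hij
    · exact absurd rfl hij
    · exact hinfpol _ (hpp j 0).2 (hpp j 1).2
    · show polar Q (E _) (E _) = 0
      rw [polar_comm]
      exact hzero _ _ (hpp i 0).1
    · refine hzero _ _ ?_
      have hij' : i ≠ j := fun h => hij (by rw [h])
      rw [hpol]
      simp [polar, Cfsg.quadFormMinus, Pi.single_apply, hij', Ne.symm hij', add_mul, mul_add, Finset.sum_add_distrib]
  · refine Fin.cases ?_ (fun i => ?_) i <;> intro h0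
    · change polar Q vinf (E (c (.inr 0))) = 0 at h0
      have h1 : x * (ζ * polar Q (E (c (.inr 0))) (E (c (.inr 0)))) + ζ * polar Q (E (c (.inr 1))) (E (c (.inr 0))) = 0 := by
        rw [hvinf, polar_add_left, polar_smul_left, smul_eq_mul] at h0
        linear_combination ζ * h0
      rw [← hp0, ← hp0, hpol, hpol] at h1
      simp [polar, Cfsg.quadFormMinus, Pi.single_apply, hc₁] at h1
      ring_nf at h1
      exact hx ((hτ x).1 (by linear_combination -h1))
    · change polar Q (E (c (.inl (.inl i)))) (E (c (.inl (.inr i)))) = 0 at h0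
      have h1 := hp0 (c (.inl (.inl i))) (c (.inl (.inr i)))
      rw [h0, mul_zero, hpol] at h1
      simp [polar, Cfsg.quadFormMinus, Pi.single_apply, add_mul, mul_add, Finset.sum_add_distrib] at h1

/-- Subfield groups of forms of minus type have odd index. -/
theorem odd_index_of_minus [Fintype F] (hB : BNondeg Q) (he : Even (Fintype.card ι))
    (hminus : ¬ IsPlusTypeOn ⇑Q ⊤) {F₀ : Subfield F} {r : ℕ} (hr : r.Prime)
    (hcard : Fintype.card F = Nat.card F₀ ^ r) {P : GL ι F} {ζ : F} (hζ : ζ ≠ 0)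
    (hrat : IsQuadFormRationalStructure (fun v => ζ * Q v) F₀ P) : Odd r := by
  rcases hr.eq_two_or_odd' with rfl | h
  · exact absurd (plus_of_quadratic_descent hB he hcard hζ hrat) hminus
  · exact h

end Cfsg.Agent.OrthMax
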