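import Cfsg.Agent.OrthMax.EvenReduce

/-!
Tensor powers and symplectic type subgroups do not occur in `Ω_8^-(q)`.
-/

set_option autoImplicit false
set_option linter.style.haveILetI false
set_option linter.unusedSectionVars false

namespace Cfsg.Agent.OrthMax

open Matrix Cfsg.Geo QuadraticMap Module
open Cfsg.Agent.Classical (OQ BNondeg)
open Cfsg.Agent.GeoClasses (formOf IsPolar IsSim adjForm coordGram conjMat altTwo pureMat pureVec quadOf
  IsWreathData HasNonsolvableFactor IsMinNormal ModComm spanAlg)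
open scoped MatrixGroups Matrix commutatorElement

variable {F : Type*} [Field F]

/-- The centraliser of a non-scalar matrix of size two is commutative. -/
theorem commute_two_of_commute {W X Y : Matrix (Fin 2) (Fin 2) F}
    (hW : ∀ c : F, W ≠ c • (1 : Matrix (Fin 2) (Fin 2) F)) (hX : X * W = W * X) (hY : Y * W = W * Y) :
    X * Y = Y * X := by
  have key : ∀ Z : Matrix (Fin 2) (Fin 2) F, Z * W = W * Z →
      Z 0 1 * W 1 0 = W 0 1 * Z 1 0 ∧ (Z 0 0 - Z 1 1) * W 0 1 = (W 0 0 - W 1 1) * Z 0 1 ∧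
      (Z 0 0 - Z 1 1) * W 1 0 = (W 0 0 - W 1 1) * Z 1 0 := by
    intro Z hZ
    have e := fun i j => congrFun (congrFun hZ i) j
    simp only [Matrix.mul_apply, Fin.sum_univ_two] at e
    exact ⟨by linear_combination e 0 0, by linear_combination e 0 1, by linear_combination -(e 1 0)⟩
  obtain ⟨x1, x2, x3⟩ := key X hX
  obtain ⟨y1, y2, y3⟩ := key Y hY
  have hne : W 0 1 ≠ 0 ∨ W 1 0 ≠ 0 ∨ W 0 0 - W 1 1 ≠ 0 := by
    by_contra h
    push Not at h
    refine hW (W 0 0) ?_
    ext i j
    fin_cases i <;> fin_cases j <;> simp [h.1, h.2.1, sub_eq_zero.1 h.2.2]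
  have p1 : X 0 1 * Y 1 0 = Y 0 1 * X 1 0 := by
    rcases hne with h | h | h
    · refine mul_left_cancel₀ h ?_; linear_combination X 0 1 * (-y1) + Y 0 1 * x1
    · refine mul_left_cancel₀ h ?_; linear_combination Y 1 0 * x1 - X 1 0 * y1
    · refine mul_left_cancel₀ h ?_; linear_combination (-(Y 1 0)) * x2 + Y 0 1 * x3 + (X 0 0 - X 1 1) * (-y1)
  have p2 : (X 0 0 - X 1 1) * Y 0 1 = (Y 0 0 - Y 1 1) * X 0 1 := by
    rcases hne with h | h | h
    · refine mul_left_cancel₀ h ?_; linear_combination Y 0 1 * x2 - X 0 1 * y2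
    · refine mul_left_cancel₀ h ?_
      linear_combination Y 0 1 * x3 - X 0 1 * y3 + (W 0 0 - W 1 1) * p1 * (-1)
    · refine mul_left_cancel₀ h ?_
      linear_combination (Y 0 0 - Y 1 1) * x2 - (X 0 0 - X 1 1) * y2
  have p3 : (X 0 0 - X 1 1) * Y 1 0 = (Y 0 0 - Y 1 1) * X 1 0 := by
    rcases hne with h | h | h
    · refine mul_left_cancel₀ h ?_
      linear_combination Y 1 0 * x2 - X 1 0 * y2 + (W 0 0 - W 1 1) * p1
    · refine mul_left_cancel₀ h ?_; linear_combination Y 1 0 * x3 - X 1 0 * y3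
    · refine mul_left_cancel₀ h ?_
      linear_combination (Y 0 0 - Y 1 1) * x3 - (X 0 0 - X 1 1) * y3
  ext i j
  fin_cases i <;> fin_cases j <;> simp [Matrix.mul_apply, Fin.sum_univ_two]
  · linear_combination p1
  · linear_combination p2
  · linear_combination -p3
  · linear_combination -p1

/-- The similitudes of a symmetric form in two variables form a solvable group. -/
theorem solvable_of_symmetric_two (h2 : (2 : F) ≠ 0) {J : Matrix (Fin 2) (Fin 2) F} (hu : IsUnit J)
    (hs : Jᵀ = J) (S : Subgroup (GL (Fin 2) F))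
    (hS : ∀ Y ∈ S, ∃ μ, IsSim (RingEquiv.refl F) J Y μ) : Group.IsSolvable S := by
  obtain ⟨u, hu'⟩ := hu
  obtain ⟨W, hJW⟩ : ∃ W, J * W = altTwo F :=
    ⟨((u⁻¹ : GL (Fin 2) F) : Matrix (Fin 2) (Fin 2) F) * altTwo F, by
      rw [← mul_assoc, ← hu', Units.mul_inv, one_mul]⟩
  have hdetJ : J.det ≠ 0 := ((Matrix.isUnit_iff_isUnit_det J).1 ⟨u, hu'⟩).ne_zero
  have hW : ∀ c : F, W ≠ c • (1 : Matrix (Fin 2) (Fin 2) F) := by
    intro c hc
    rw [hc, Matrix.mul_smul, mul_one] at hJW
    have h5 : (altTwo F)ᵀ = altTwo F := by rw [← hJW, Matrix.transpose_smul, hs]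
    rw [GeoClasses.altTwo_transpose] at h5
    have h6 := congrFun (congrFun h5 0) 1
    simp [altTwo] at h6
    exact h2 (by linear_combination -h6)
  have hsign : ∀ Y ∈ S, ∃ e : F, e * e = 1 ∧
      W * (Y : Matrix (Fin 2) (Fin 2) F) = e • ((Y : Matrix (Fin 2) (Fin 2) F) * W) := by
    intro Y hY
    obtain ⟨μ, hμ⟩ := hS Y hY
    have hc' : (Y : Matrix (Fin 2) (Fin 2) F)ᵀ * J * (Y : Matrix (Fin 2) (Fin 2) F) = μ • J := hμ
    set d := (Y : Matrix (Fin 2) (Fin 2) F).det with hd
    have hd0 : d ≠ 0 := ((Matrix.isUnit_iff_isUnit_det _).1 Y.isUnit).ne_zero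
    have h1 := congrArg Matrix.det hc'
    rw [Matrix.det_mul, Matrix.det_mul, Matrix.det_transpose, Matrix.det_smul, Fintype.card_fin, ← hd] at h1
    have hμd : μ * μ = d * d := mul_right_cancel₀ hdetJ (by linear_combination -h1)
    have hμ0 : μ ≠ 0 := fun h => hd0 (mul_self_eq_zero.1 (by rw [← hμd, h, zero_mul]))
    refine ⟨d / μ, by rw [div_mul_div_comm, hμd, div_self (mul_ne_zero hd0 hd0)], ?_⟩
    have hcW : μ • (W * (Y : Matrix (Fin 2) (Fin 2) F)) = d • ((Y : Matrix (Fin 2) (Fin 2) F) * W) := by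
      apply ((((Matrix.isUnit_transpose _).2 Y.isUnit).mul ⟨u, hu'⟩)).mul_left_cancel
      rw [Matrix.mul_smul, Matrix.mul_smul, mul_assoc, mul_assoc, ← mul_assoc J W, hJW,
        ← mul_assoc _ (altTwo F), GeoClasses.altTwo_adj, ← mul_assoc, ← mul_assoc, hc',
        Matrix.smul_mul, hJW, smul_comm]
    rw [div_eq_inv_mul, mul_smul, ← hcW, inv_smul_smul₀ hμ0]
  have hcomm : ∀ X ∈ S, ∀ Y ∈ S,
      ((⁅X, Y⁆ : GL (Fin 2) F) : Matrix (Fin 2) (Fin 2) F) * W
        = W * ((⁅X, Y⁆ : GL (Fin 2) F) : Matrix (Fin 2) (Fin 2) F) := by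
    intro X hX Y hY
    obtain ⟨e, he, hX1⟩ := hsign X hX
    obtain ⟨f, hf, hY1⟩ := hsign Y hY
    have hinv : ∀ (Z : GL (Fin 2) F) (e : F), e * e = 1 →
        W * (Z : Matrix (Fin 2) (Fin 2) F) = e • ((Z : Matrix (Fin 2) (Fin 2) F) * W) →
        W * ((Z⁻¹ : GL (Fin 2) F) : Matrix (Fin 2) (Fin 2) F)
          = e • (((Z⁻¹ : GL (Fin 2) F) : Matrix (Fin 2) (Fin 2) F) * W) := by
      intro Z e he h
      apply Z.isUnit.mul_left_cancel
      have hE : ∀ M, (Z : Matrix (Fin 2) (Fin 2) F) * W * M = e • (W * ((Z : Matrix (Fin 2) (Fin 2) F) * M)) := by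
        intro M
        rw [← mul_assoc W, h, Matrix.smul_mul, smul_smul, he, one_smul]
      rw [← mul_assoc, hE, Units.mul_inv, mul_one, Matrix.mul_smul, ← mul_assoc, Units.mul_inv, one_mul]
    have hmul : ∀ (P R : Matrix (Fin 2) (Fin 2) F) (p r : F), W * P = p • (P * W) → W * R = r • (R * W) →
        W * (P * R) = (p * r) • (P * R * W) := fun P R p r hP hR => by
      rw [← mul_assoc, hP, Matrix.smul_mul, mul_assoc, hR, Matrix.mul_smul, smul_smul, ← mul_assoc]
    rw [commutatorElement_def, Units.val_mul, Units.val_mul, Units.val_mul,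
      hmul _ _ _ _ (hmul _ _ _ _ (hmul _ _ _ _ hX1 hY1) (hinv X e he hX1)) (hinv Y f hf hY1),
      show e * f * e * f = 1 by linear_combination f * f * he + hf, one_smul]
  have hK : commutator S ≤ (Subgroup.centralizer
      {Z : GL (Fin 2) F | (Z : Matrix (Fin 2) (Fin 2) F) * W = W * (Z : Matrix (Fin 2) (Fin 2) F)}).subgroupOf S := by
    rw [commutator_def, Subgroup.commutator_le]
    intro a _ b _
    rw [Subgroup.mem_subgroupOf, Subgroup.mem_centralizer_iff]
    intro Z hZ
    apply Units.ext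
    rw [Units.val_mul, Units.val_mul]
    exact commute_two_of_commute hW hZ (hcomm a a.2 b b.2)
  refine ⟨⟨2, ?_⟩⟩
  rw [derivedSeries_succ, derivedSeries_one, eq_bot_iff, Subgroup.commutator_le]
  intro a ha b hb
  rw [Subgroup.mem_bot, commutatorElement_eq_one_iff_mul_comm]
  apply Subtype.ext
  have h1 : ∀ x ∈ commutator S, ((x : GL (Fin 2) F) : Matrix (Fin 2) (Fin 2) F) * W
      = W * ((x : GL (Fin 2) F) : Matrix (Fin 2) (Fin 2) F) := by
    intro x hx
    rw [commutator_def] at hx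
    let T : Subgroup S :=
      { carrier := {y | ((y : GL (Fin 2) F) : Matrix (Fin 2) (Fin 2) F) * W
          = W * ((y : GL (Fin 2) F) : Matrix (Fin 2) (Fin 2) F)}
        mul_mem' := fun {p q} hp hq => by
          show ((p : GL (Fin 2) F) : Matrix _ _ F) * ((q : GL (Fin 2) F) : Matrix _ _ F) * W = _
          rw [mul_assoc, hq, ← mul_assoc, hp, mul_assoc]
          rfl
        one_mem' := by simp
        inv_mem' := fun {p} hp => by
          show (((p : GL (Fin 2) F)⁻¹ : GL (Fin 2) F) : Matrix (Fin 2) (Fin 2) F) * W = W * _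
          apply (p : GL (Fin 2) F).isUnit.mul_left_cancel
          simp only [← mul_assoc, Units.mul_inv, one_mul]
          rw [hp]
          simp [mul_assoc] }
    exact (Subgroup.commutator_le (H₁ := ⊤) (H₂ := ⊤) (H₃ := T)).2 (fun p _ q _ => hcomm p p.2 q q.2) hx
  exact Units.ext (commute_two_of_commute hW (h1 a ha) (h1 b hb))

theorem sq_eq_one_of_three_pow {c : F} (h3 : c ^ 3 = 1) (h : c * c = 1) : c = 1 := by
  linear_combination h3 - c * h

variable {ι : Type} [Fintype ι] [DecidableEq ι] {Q : QuadraticForm F (ι → F)}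

/-- No tensor power in dimension eight of minus type. -/
theorem wreath_minus_false [Fintype F] (hB : BNondeg Q) (hn : Fintype.card ι = 8) (hminus : ¬ IsPlusTypeOn ⇑Q ⊤)
    {H : Subgroup (GL ι F)} (hH : H ≤ Cfsg.isometryGroup F ⇑Q) (hirr : ActsIrreducibly (matrixSet H))
    {a t : ℕ} {L : ((Fin t → Fin a) → F) ≃ₗ[F] (ι → F)} {J : Matrix (Fin a) (Fin a) F} {s : F}
    (hW : IsWreathData (RingEquiv.refl F) (polarMat Q) 1 H L J s)
    (hns : HasNonsolvableFactor (RingEquiv.refl F) J) : False := by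
  have hat : a ^ t = 8 := by
    rw [← hn]
    simpa using L.finrank_eq
  obtain ⟨rfl, rfl⟩ : a = 2 ∧ t = 3 := by
    have ha := hW.two_le
    have ht := hW.card_two_le
    have ha8 : a ≤ 8 := hat ▸ Nat.le_self_pow (by omega) a
    have ht3 : t ≤ 3 := by
      by_contra h
      have h1 := Nat.pow_le_pow_left ha t
      have h2 := Nat.pow_le_pow_right (show 0 < 2 by omega) (show 4 ≤ t by omega)
      omega
    interval_cases t <;> interval_cases a <;> simp_all
  obtain ⟨c, hc, hct⟩ := hW.star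
  rw [RingEquiv.refl_apply, one_mul] at hct
  have hct' : c ^ 3 = 1 := mul_left_cancel₀ hW.ne_zero (by rw [hct, mul_one])
  have hcc := sq_eq_one_of_three_pow hct' (GeoClasses.sq_eq_one_of_star hW.unit.ne_zero hc)
  rw [hcc, one_smul] at hc
  have hsym : Jᵀ = J := hc
  by_cases h2 : (2 : F) = 0
  swap
  · obtain ⟨S, hS, hsim⟩ := hns
    exact hS (solvable_of_symmetric_two h2 hW.unit hsym S hsim)
  haveI : Nonempty ι := Fintype.card_pos_iff.1 (by omega)
  have hneg : (-1 : F) = 1 := GeoClasses.neg_eq_self_of_two h2 1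
  have hdiag : ∀ k, J k k = 0 := fun k => by
    have h1 := GeoClasses.formOf_single (RingEquiv.refl F) (coordGram (RingEquiv.refl F) (polarMat Q) L)
      (fun _ : Fin 3 => k) fun _ => k
    rw [← GeoClasses.formOf_coord, formOf_polarMat, OrthGen.polar_self_two, h2, zero_mul, hW.gram] at h1
    simp only [Matrix.smul_apply, pureMat, Finset.prod_const, smul_eq_mul] at h1
    exact eq_zero_of_pow_eq_zero ((mul_eq_zero.1 h1.symm).resolve_left hW.ne_zero)
  have hJv := GeoClasses.formOf_self_eq_zero (B := J) (by rw [hsym, ← neg_one_smul F J, hneg, one_smul]) hdiag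
  obtain ⟨U, hU, hUd⟩ := GeoClasses.exists_upper h2 (G := s • pureMat fun _ : Fin 3 => J)
    (by rw [Matrix.transpose_smul, GeoClasses.pureMat_transpose, hsym])
    (fun x => by
      rw [Matrix.smul_apply, pureMat, Finset.prod_eq_zero (Finset.mem_univ (0 : Fin 3)) (hdiag _), smul_zero])
  have hQeq : ∀ v, Q v = quadOf U (L.symm v) := by
    intro v
    refine sub_eq_zero.1 (GeoClasses.eq_zero_of_additive_irreducible hirr h2 (by omega)
      (D := fun v => Q v - quadOf U (L.symm v)) (fun x y => ?_) (fun c x => ?_) (fun h hh v => ?_) v)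
    · have h3 : formOf (RingEquiv.refl F) (U + Uᵀ) (L.symm x) (L.symm y) = polar Q x y := by
        rw [hU, ← hW.gram, ← GeoClasses.formOf_coord, L.apply_symm_apply, L.apply_symm_apply, formOf_polarMat]
      simp only [map_add, GeoClasses.quadOf_add, Classical.qf_add, h3]
      ring
    · simp only [map_smul, GeoClasses.quadOf_smul, QuadraticMap.map_smul, smul_eq_mul]
      ring
    · obtain ⟨cs, π, hd, -⟩ := hW.mem h hh
      have hX := (GeoClasses.isSim_coord_iff hd).1 (isSim_of_isometry (hH hh))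
      rw [one_smul, hW.gram] at hX
      show Q _ - _ = _
      rw [isometry_apply (hH hh), hd, GeoClasses.conjMat_mulVec, L.symm_apply_apply,
        GeoClasses.quadOf_mulVec hU hUd hX]
      intro z
      rw [GeoClasses.pureMat_mul_factorPerm_single]
      exact GeoClasses.quadOf_pureVec (by norm_num) hU hUd hJv _
  -- the vectors supported on the first half
  let z : Fin 4 → (Fin 3 → Fin 2) := fun k => Fin.cons 0 (finFunctionFinEquiv.symm k)
  have hz : Function.Injective z := fun p q h => finFunctionFinEquiv.symm.injective (Fin.cons_right_injective _ h)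
  let e : Fin 4 → (ι → F) := fun k => L (Pi.single (z k) 1)
  have hli : LinearIndependent F e := by
    have h1 := ((Pi.basisFun F (Fin 3 → Fin 2)).linearIndependent.map' L.toLinearMap L.ker).comp z hz
    simpa [e, Function.comp_def] using h1
  have horth : ∀ p q, polar Q (e p) (e q) = 0 := by
    intro p q
    rw [← formOf_polarMat Q, GeoClasses.formOf_coord, GeoClasses.formOf_single, hW.gram, Matrix.smul_apply,
      pureMat, Finset.prod_eq_zero (Finset.mem_univ (0 : Fin 3)) (by simp [z, hdiag]), smul_zero]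
  have hsing : ∀ p, Q (e p) = 0 := by
    intro p
    rw [hQeq, L.symm_apply_apply]
    have hp : (Pi.single (z p) 1 : (Fin 3 → Fin 2) → F) = pureVec fun i => Pi.single (z p i) 1 := by
      funext x
      by_cases hx : x = z p
      · subst hx; simp [pureVec]
      · obtain ⟨i, hi⟩ := Function.ne_iff.1 hx
        rw [Pi.single_eq_of_ne hx]
        exact (Finset.prod_eq_zero (Finset.mem_univ i) (by simp [hi])).symm
    rw [hp]
    exact GeoClasses.quadOf_pureVec (by norm_num) hU hUd hJv _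
  refine hminus (plus_of_ts (U := Submodule.span F (Set.range e)) le_top ?_ ?_ ?_)
  · intro w hw
    obtain ⟨c, rfl⟩ := (Submodule.mem_span_range_iff_exists_fun F).1 hw
    rw [qf_sum_orth]
    · simp [QuadraticMap.map_smul, hsing]
    · intro p q _
      rw [polar_smul_left, polar_smul_right, horth, smul_zero, smul_zero]
  · rw [finrank_top, Module.finrank_fintype_fun_eq_card, hn]; decide
  · rw [finrank_top, Module.finrank_fintype_fun_eq_card, hn, finrank_span_eq_card hli]; simp

/-- No symplectic type subgroup in dimension eight of minus type. -/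
theorem abelian_minus_false [Fintype F] (hB : BNondeg Q) (hn : Fintype.card ι = 8) (hminus : ¬ IsPlusTypeOn ⇑Q ⊤)
    {H : Subgroup (GL ι F)} (hH : H ≤ Cfsg.isometryGroup F ⇑Q) {N : Subgroup (GL ι F)}
    (hN : IsMinNormal (H ⊔ scalars ι F) N) (hmod : ModComm N) (htop : spanAlg N = ⊤) : False := by
  classical
  haveI : Nonempty ι := Fintype.card_pos_iff.1 (by omega)
  obtain ⟨r, k, x, hS⟩ := GeoClasses.exists_sympTypeSystem hN hmod htop (by omega)
  obtain ⟨m, hm, hrm⟩ := hS.card_pow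
  obtain rfl : r = 2 := by
    have hd : r ∣ 2 ^ 3 := by
      rw [show (2 : ℕ) ^ 3 = r ^ m by rw [← hrm, hn]; norm_num]
      exact dvd_pow_self r (by omega)
    exact (Nat.prime_dvd_prime_iff_eq hS.prime Nat.prime_two).1 (hS.prime.dvd_of_dvd_pow hd)
  have h2 : (2 : F) ≠ 0 := by simpa using hS.char_ne
  have hsimQ : ∀ g ∈ N, ∃ c : F, c ≠ 0 ∧ ∀ v, Q ((g : Matrix ι ι F) *ᵥ v) = c * Q v := by
    intro g hg
    obtain ⟨zz, hzz, h, hh, rfl⟩ := GeoClasses.mem_sup_scalars.1 (hN.le hg)
    obtain ⟨c, hc⟩ := (Cfsg.Geo.mem_scalars_iff zz).1 hzz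
    refine ⟨(c : F) * c, mul_ne_zero c.ne_zero c.ne_zero, fun v => ?_⟩
    rw [Units.val_mul, hc, Matrix.smul_mul, one_mul, Matrix.smul_mulVec, QuadraticMap.map_smul,
      isometry_apply (hH hh), smul_eq_mul]
  have hsq : ∀ g ∈ N, ∃ l : F, l ≠ 0 ∧ (g : Matrix ι ι F) * (g : Matrix ι ι F) = l • 1 := by
    intro g hg
    obtain ⟨c, hc⟩ := (Cfsg.Geo.mem_scalars_iff _).1 (hS.pow_mem g hg)
    exact ⟨c, c.ne_zero, by rw [← _root_.sq, ← Units.val_pow_eq_pow_val]; exact hc⟩
  have hcomm : ∀ g ∈ N, ∀ h ∈ N, (g : Matrix ι ι F) * (h : Matrix ι ι F) = (h : Matrix ι ι F) * (g : Matrix ι ι F) ∨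
      (g : Matrix ι ι F) * (h : Matrix ι ι F) = -((h : Matrix ι ι F) * (g : Matrix ι ι F)) := by
    intro g hg h hh
    obtain ⟨c, hc, he⟩ := hS.commutator_eq g hg h hh
    rcases sq_eq_one_iff.1 hc with rfl | rfl
    · exact Or.inl (by rw [he, one_smul])
    · exact Or.inr (by rw [he, neg_one_smul])
  have hanti : ∀ g ∈ N, (∀ c : F, (g : Matrix ι ι F) ≠ c • 1) →
      ∃ h ∈ N, (g : Matrix ι ι F) * (h : Matrix ι ι F) = -((h : Matrix ι ι F) * (g : Matrix ι ι F)) := by
    intro g hg hns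
    by_contra hno
    push Not at hno
    have hall := GeoClasses.commute_all_of_span htop (M := (g : Matrix ι ι F)) fun h hh =>
      (hcomm g hg h hh).resolve_right (hno h hh)
    obtain ⟨c, hc⟩ := (Cfsg.Geo.mem_scalars_iff g).1 (GeoClasses.mem_scalars_of_commute_all hall)
    exact hns c hc
  have hnot_comm : ∀ A B : Matrix ι ι F, IsUnit A → IsUnit B → A * B = -(B * A) → A * B ≠ B * A := by
    intro A B hA hB' h1 h3
    have h4 : (2 : F) • (B * A) = 0 := by rw [two_smul]; nth_rewrite 1 [← h3]; rw [h1, neg_add_cancel]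
    exact (hB'.mul hA).ne_zero ((smul_eq_zero.1 h4).resolve_left h2)
  obtain ⟨g, hg, hgns, l, hl, hgl⟩ : ∃ g ∈ N, (∀ c : F, (g : Matrix ι ι F) ≠ c • 1) ∧
      ∃ l : F, l ≠ 0 ∧ (g : Matrix ι ι F) * (g : Matrix ι ι F) = (l * l) • 1 := by
    by_contra hno
    push Not at hno
    have hnsq : ∀ g ∈ N, (∀ c : F, (g : Matrix ι ι F) ≠ c • 1) → ∀ l : F,
        (g : Matrix ι ι F) * (g : Matrix ι ι F) = l • 1 → ¬ IsSquare l := by
      rintro g hg hgns l hl ⟨w, rfl⟩
      refine hno g hg hgns w (fun h0 => ?_) hl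
      rw [h0, zero_mul, zero_smul] at hl
      exact (g.isUnit.mul g.isUnit).ne_zero hl
    obtain ⟨g, hg, hgZ⟩ := SetLike.not_le_iff_exists.1 hN.not_le
    have hgns : ∀ c : F, (g : Matrix ι ι F) ≠ c • 1 := fun c hc =>
      hgZ (GeoClasses.mem_scalars_of_commute_all fun X => by rw [hc]; simp)
    obtain ⟨h, hh, hgh⟩ := hanti g hg hgns
    have hns_of : ∀ A B : GL ι F, (A : Matrix ι ι F) * (B : Matrix ι ι F) ≠ (B : Matrix ι ι F) * (A : Matrix ι ι F) →
        ∀ c : F, (A : Matrix ι ι F) ≠ c • 1 := fun A B h c hc => h (by rw [hc]; simp)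
    have hgh' := hnot_comm _ _ g.isUnit h.isUnit hgh
    have hhns := hns_of h g (Ne.symm hgh')
    have hghns : ∀ c : F, ((g * h : GL ι F) : Matrix ι ι F) ≠ c • 1 := by
      intro c hc
      rw [Units.val_mul] at hc
      apply hgh'
      have h1 : (g : Matrix ι ι F) * ((g : Matrix ι ι F) * (h : Matrix ι ι F))
          = ((g : Matrix ι ι F) * (h : Matrix ι ι F)) * (g : Matrix ι ι F) := by rw [hc]; simp
      exact g.isUnit.mul_left_cancel (h1.trans (mul_assoc _ _ _))
    obtain ⟨i, hi⟩ : ∃ i, (x i : Matrix ι ι F) ∉ Submodule.span F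
        (Set.range ![(1 : Matrix ι ι F), g, h, ((g * h : GL ι F) : Matrix ι ι F)]) := by
      by_contra hall
      push Not at hall
      have hle := Submodule.span_le.2 (Set.range_subset_iff.2 hall)
      have h1 := Submodule.finrank_mono hle
      rw [finrank_span_eq_card hS.li, Fintype.card_fin, hS.card_eq, hn] at h1
      have h3 := finrank_range_le_card (R := F)
        ![(1 : Matrix ι ι F), g, h, ((g * h : GL ι F) : Matrix ι ι F)]
      rw [Fintype.card_fin] at h3
      exact absurd (h1.trans h3) (by norm_num)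
    have hmem : ∀ (j : Fin 4) (c : F),
        (x i : Matrix ι ι F) ≠ c • ![(1 : Matrix ι ι F), g, h, ((g * h : GL ι F) : Matrix ι ι F)] j :=
      fun j c hc => hi (hc ▸ Submodule.smul_mem _ _ (Submodule.subset_span ⟨j, rfl⟩))
    have hxns : ∀ c : F, (x i : Matrix ι ι F) ≠ c • 1 := fun c => by simpa using hmem 0 c
    have hac : ∀ (y : GL ι F), y ∈ N → (∀ c : F, (y : Matrix ι ι F) ≠ c • 1) →
        (∀ c : F, (x i : Matrix ι ι F) ≠ c • (y : Matrix ι ι F)) →
        (x i : Matrix ι ι F) * (y : Matrix ι ι F) = -((y : Matrix ι ι F) * (x i : Matrix ι ι F)) := by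
      intro y hy hyns hxy
      refine (hcomm _ (hS.mem i) y hy).resolve_left fun hc => ?_
      obtain ⟨lx, -, hlx⟩ := hsq _ (hS.mem i)
      obtain ⟨ly, hly0, hly⟩ := hsq y hy
      have hxyns : ∀ c : F, ((x i * y : GL ι F) : Matrix ι ι F) ≠ c • 1 := by
        intro c hc'
        rw [Units.val_mul] at hc'
        have h1 := congrArg (· * (y : Matrix ι ι F)) hc'
        simp only [mul_assoc, hly, Matrix.mul_smul, mul_one, Matrix.smul_mul, one_mul] at h1
        refine hxy (c / ly) ?_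
        rw [div_eq_inv_mul, mul_smul, ← h1, inv_smul_smul₀ hly0]
      have hsq' : ((x i * y : GL ι F) : Matrix ι ι F) * ((x i * y : GL ι F) : Matrix ι ι F) = (lx * ly) • 1 := by
        rw [Units.val_mul, mul_assoc, ← mul_assoc (y : Matrix ι ι F), ← hc, mul_assoc (x i : Matrix ι ι F), hly,
          Matrix.mul_smul, mul_one, Matrix.mul_smul, hlx, smul_smul, mul_comm]
      exact hnsq _ (N.mul_mem (hS.mem i) hy) hxyns _ hsq'
        (isSquare_mul_of_not h2 (hnsq _ (hS.mem i) hxns _ hlx) (hnsq y hy hyns _ hly))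
    have e1 := hac g hg hgns fun c => by simpa using hmem 1 c
    have e2 := hac h hh hhns fun c => by simpa using hmem 2 c
    have e3 := hac (g * h) (N.mul_mem hg hh) hghns fun c => by simpa using hmem 3 c
    rw [Units.val_mul] at e3
    refine hnot_comm _ _ (x i).isUnit ((g.isUnit).mul h.isUnit) e3 ?_
    rw [← mul_assoc, e1, neg_mul, mul_assoc, e2, mul_neg, neg_neg, mul_assoc]
  obtain ⟨h, hh, hgh⟩ := hanti g hg hgns
  obtain ⟨c, hc, hQg⟩ := hsimQ g hg
  obtain ⟨d, hd, hQh⟩ := hsimQ h hh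
  set A : Matrix ι ι F := l⁻¹ • (g : Matrix ι ι F) with hA
  have hAA : A * A = 1 := by
    rw [hA, Matrix.smul_mul, Matrix.mul_smul, hgl, smul_smul, smul_smul,
      show l⁻¹ * l⁻¹ * (l * l) = 1 by field_simp, one_smul]
  set ε : F := l⁻¹ * l⁻¹ * c with hε
  have hQA : ∀ v, Q (A *ᵥ v) = ε * Q v := fun v => by
    rw [hA, Matrix.smul_mulVec, QuadraticMap.map_smul, hQg, smul_eq_mul, hε]; ring
  have hAh : A * (h : Matrix ι ι F) = -((h : Matrix ι ι F) * A) := by
    rw [hA, Matrix.smul_mul, Matrix.mul_smul, hgh, smul_neg]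
  let E : F → Submodule F (ι → F) := fun e => LinearMap.ker (Matrix.toLin' (A - e • (1 : Matrix ι ι F)))
  have hE : ∀ e v, v ∈ E e ↔ A *ᵥ v = e • v := fun e v => by
    simp [E, Matrix.sub_mulVec, Matrix.smul_mulVec, sub_eq_zero]
  have hhE : ∀ e v, v ∈ E e → (h : Matrix ι ι F) *ᵥ v ∈ E (-e) := fun e v hv => by
    rw [hE] at hv ⊢
    rw [Matrix.mulVec_mulVec, hAh, Matrix.neg_mulVec, ← Matrix.mulVec_mulVec, hv, Matrix.mulVec_smul, neg_smul]
  have hle : ∀ e, finrank F (E e) ≤ finrank F (E (-e)) := fun e => by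
    refine LinearMap.finrank_le_finrank_of_injective
      (f := ((Matrix.toLin' (h : Matrix ι ι F)).comp (E e).subtype).codRestrict (E (-e))
        fun v => by simpa using hhE e v v.2) ?_
    intro u v huv
    exact Subtype.ext (GeoClasses.mulVec_injective h (by simpa using congrArg Subtype.val huv))
  have hdim : finrank F (E 1) = finrank F (E (-1)) := le_antisymm (hle 1) (by have h := hle (-1); rwa [neg_neg] at h)
  have hinf : E 1 ⊓ E (-1) = ⊥ := by
    rw [eq_bot_iff]
    rintro v ⟨hv, hv'⟩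
    have h1 := (hE 1 v).1 hv
    rw [(hE (-1) v).1 hv', neg_one_smul, one_smul] at h1
    have h4 : (2 : F) • v = 0 := by rw [two_smul]; nth_rewrite 1 [← h1]; exact neg_add_cancel v
    exact (smul_eq_zero.1 h4).resolve_left h2
  have hsup : E 1 ⊔ E (-1) = ⊤ := by
    rw [eq_top_iff]
    intro v _
    have hv : v = (2 : F)⁻¹ • (v + A *ᵥ v) + (2 : F)⁻¹ • (v - A *ᵥ v) := by
      rw [← smul_add, show v + A *ᵥ v + (v - A *ᵥ v) = (2 : F) • v by rw [two_smul]; abel, inv_smul_smul₀ h2]
    rw [hv]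
    refine Submodule.add_mem_sup (Submodule.smul_mem _ _ ?_) (Submodule.smul_mem _ _ ?_)
    · rw [hE, Matrix.mulVec_add, Matrix.mulVec_mulVec, hAA, Matrix.one_mulVec, one_smul, add_comm]
    · rw [hE, Matrix.mulVec_sub, Matrix.mulVec_mulVec, hAA, Matrix.one_mulVec, neg_one_smul, neg_sub]
  have h8 : finrank F (E 1) = 4 := by
    have h1 := Submodule.finrank_sup_add_finrank_inf_eq (E 1) (E (-1))
    rw [hsup, hinf, finrank_top, finrank_bot, Module.finrank_fintype_fun_eq_card, hn] at h1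
    omega
  by_cases hε1 : ε = 1
  · have horth : AreOrthogonalFor (polar ⇑Q) (E 1) (E (-1)) := by
      intro u hu v hv
      have h1 : polar Q (A *ᵥ u) (A *ᵥ v) = polar Q u v := by
        simp only [polar, ← Matrix.mulVec_add, hQA, hε1, one_mul]
      rw [(hE _ _).1 hu, (hE _ _).1 hv, one_smul, neg_one_smul, polar_neg_right] at h1
      exact (mul_eq_zero.1 (show (2 : F) * polar Q u v = 0 by linear_combination -h1)).resolve_left h2
    have hnd : IsNondegenerateOn (polar ⇑Q) (E 1) := by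
      rw [isNondegenerateOn_iff, eq_bot_iff]
      rintro v ⟨hv, hv'⟩
      refine hB v fun w => ?_
      obtain ⟨p, hp, q, hq, rfl⟩ := Submodule.mem_sup.1 (hsup ▸ Submodule.mem_top : w ∈ E 1 ⊔ E (-1))
      rw [polar_add_right, horth v hv q hq, add_zero, polar_comm]
      exact hv' p hp
    apply hminus
    rw [← hsup]
    exact plus_of_similar hnd horth hdim (by rw [h8]; decide)
      ((Matrix.toLin' (h : Matrix ι ι F)).comp (E 1).subtype) (fun v => by simpa using hhE 1 v v.2) hd
      (fun v => by simpa using hQh v)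
  · refine hminus (plus_of_ts (U := E 1) le_top (fun v hv => ?_) ?_ ?_)
    · have h1 := hQA v
      rw [(hE 1 v).1 hv, one_smul] at h1
      exact (mul_eq_zero.1 (show (ε - 1) * Q v = 0 by linear_combination -h1)).resolve_left (sub_ne_zero.2 hε1)
    · rw [finrank_top, Module.finrank_fintype_fun_eq_card, hn]; decide
    · rw [finrank_top, Module.finrank_fintype_fun_eq_card, hn, h8]

end Cfsg.Agent.OrthMax
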