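import Cfsg.Agent.OrthMax.EvenField
import Cfsg.Agent.MaxSub.PlusTensor
import Cfsg.Agent.GeoClasses.OrthOdd

/-!
Tensor decompositions for orthogonal groups in even dimension.
-/

set_option autoImplicit false
set_option linter.style.haveILetI false
set_option linter.unusedSectionVars false

namespace Cfsg.Agent.OrthMax

open Matrix Cfsg.Geo QuadraticMap Module
open Cfsg.Agent.Classical (OQ BNondeg)
open Cfsg.Agent.GeoClasses (formOf IsPolar IsSim adj StarClosed conjGL conjMat coordGram adjForm starMat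
  tensorVec quadOf IsTensorData altTwo coordPerm)
open scoped MatrixGroups Matrix Kronecker

variable {F : Type*} [Field F] {ι : Type} [Fintype ι] [DecidableEq ι] {Q : QuadraticForm F (ι → F)}
  {H : Subgroup (GL ι F)} {a b : ℕ} {L : (Fin a × Fin b → F) ≃ₗ[F] (ι → F)}
  {J₁ : Matrix (Fin a) (Fin a) F} {J₂ : Matrix (Fin b) (Fin b) F}

theorem det_eq_one_of_mem_omega {h : GL ι F} (hh : h ∈ omegaGL ⇑Q) : (h : Matrix ι ι F).det = 1 := by
  obtain ⟨g, hg, rfl⟩ := hh
  have hle : Cfsg.Omega F ⇑Q ≤ (Matrix.GeneralLinearGroup.det.comp (Cfsg.isometryGroup F ⇑Q).subtype).ker := by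
    refine Abelianization.commutator_subset_ker _
  have h1 := congrArg Units.val (MonoidHom.mem_ker.1 (hle hg))
  exact h1

theorem card_eq_of_tensor (hT : IsTensorData (RingEquiv.refl F) (polarMat Q) 1 H L J₁ J₂) :
    Fintype.card ι = a * b := by
  simpa using L.finrank_eq.symm

/-- The polar form on pure tensors. -/
theorem polar_tensorVec (hT : IsTensorData (RingEquiv.refl F) (polarMat Q) 1 H L J₁ J₂)
    (u u' : Fin a → F) (w w' : Fin b → F) :
    polar Q (L (tensorVec u w)) (L (tensorVec u' w')) =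
      formOf (RingEquiv.refl F) J₁ u u' * formOf (RingEquiv.refl F) J₂ w w' := by
  rw [← formOf_polarMat Q, GeoClasses.formOf_coord, hT.gram, GeoClasses.formOf_tensorVec]

theorem tensorVec_map (c : Matrix (Fin a) (Fin a) F) (d : Matrix (Fin b) (Fin b) F) (u : Fin a → F)
    (w : Fin b → F) : (c ⊗ₖ d) *ᵥ tensorVec u w = tensorVec (c *ᵥ u) (d *ᵥ w) := by
  ext ⟨i, j⟩
  simp only [Matrix.mulVec, dotProduct, tensorVec, Matrix.kroneckerMap_apply, Fintype.sum_prod_type,
    Finset.sum_mul_sum]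
  exact Finset.sum_congr rfl fun k _ => Finset.sum_congr rfl fun l _ => by ring

/-- Slices of tensor vectors. -/
def tensorLin (u : Fin a → F) : (Fin b → F) →ₗ[F] (Fin a × Fin b → F) where
  toFun w := tensorVec u w
  map_add' x y := funext fun p => by simp [tensorVec, mul_add]
  map_smul' c x := funext fun p => by simp [tensorVec, mul_left_comm]

theorem tensorLin_injective {u : Fin a → F} (hu : u ≠ 0) :
    Function.Injective (tensorLin (b := b) u) := by
  obtain ⟨i, hi⟩ := Function.ne_iff.1 hu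
  intro x y h
  funext j
  have h1 := congrFun h (i, j)
  exact mul_left_cancel₀ hi h1

/-- Alternating factors: the pure tensors are singular. -/
theorem quad_tensorVec_of_alt [Fintype F] (hB : BNondeg Q) (hH : H ≤ Cfsg.isometryGroup F ⇑Q)
    (hirr : ActsIrreducibly (matrixSet H))
    (hT : IsTensorData (RingEquiv.refl F) (polarMat Q) 1 H L J₁ J₂)
    (h1 : J₁ᵀ = -J₁) (h1d : ∀ i, J₁ i i = 0) (h2' : J₂ᵀ = -J₂) (h2d : ∀ i, J₂ i i = 0)
    (u : Fin a → F) (w : Fin b → F) : Q (L (tensorVec u w)) = 0 := by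
  have ha := hT.left_two_le
  have hb := hT.right_two_le
  have hcard := card_eq_of_tensor hT
  have hn : 2 ≤ Fintype.card ι := by rw [hcard]; nlinarith
  haveI : Nonempty ι := Fintype.card_pos_iff.1 (by omega)
  have ha1 := GeoClasses.formOf_self_eq_zero h1 h1d
  have ha2 := GeoClasses.formOf_self_eq_zero h2' h2d
  by_cases h2 : (2 : F) = 0
  swap
  · have h := polar_tensorVec hT u u w w
    rw [OrthGen.polar_self_two, ha1, zero_mul] at h
    exact (mul_eq_zero.1 h).resolve_left h2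
  have hneg : ∀ c : F, -c = c := fun c => GeoClasses.neg_eq_self_of_two h2 c
  have hd : ∀ p, (J₁ ⊗ₖ J₂) p p = 0 := fun p => by rw [Matrix.kroneckerMap_apply, h1d, zero_mul]
  have hsymm : (J₁ ⊗ₖ J₂)ᵀ = J₁ ⊗ₖ J₂ := by
    ext ⟨i, j⟩ ⟨k, l⟩
    simp only [Matrix.transpose_apply, Matrix.kroneckerMap_apply]
    rw [show J₁ k i = -J₁ i k from congrFun (congrFun h1 i) k,
      show J₂ l j = -J₂ j l from congrFun (congrFun h2' j) l, neg_mul_neg]
  obtain ⟨U, hU, hUd⟩ := GeoClasses.exists_upper h2 hsymm hd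
  have hD := GeoClasses.eq_zero_of_additive_irreducible hirr h2 hn
    (D := fun v => Q v - quadOf U (L.symm v)) (fun x y => ?_) (fun c x => ?_) (fun h hh v => ?_)
    (L (tensorVec u w))
  · rw [L.symm_apply_apply, GeoClasses.quadOf_tensorVec hU hUd ha1 ha2, sub_zero] at hD
    exact hD
  · have h3 : formOf (RingEquiv.refl F) (U + Uᵀ) (L.symm x) (L.symm y) = polar Q x y := by
      rw [hU, ← hT.gram, ← GeoClasses.formOf_coord, L.apply_symm_apply, L.apply_symm_apply, formOf_polarMat]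
    simp only [map_add, GeoClasses.quadOf_add, Classical.qf_add, h3]
    ring
  · simp only [map_smul, GeoClasses.quadOf_smul, QuadraticMap.map_smul, smul_eq_mul]
    ring
  · obtain ⟨c, d, μ, ν, hcd, -, -⟩ := hT.mem h hh
    have hX := (GeoClasses.isSim_coord_iff hcd).1 (isSim_of_isometry (hH hh))
    rw [one_smul, hT.gram] at hX
    show Q _ - _ = _
    rw [isometry_apply (hH hh), hcd, GeoClasses.conjMat_mulVec, L.symm_apply_apply,
      GeoClasses.quadOf_mulVec hU hUd hX]
    intro p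
    rw [GeoClasses.mulVec_single_kronecker]
    exact GeoClasses.quadOf_tensorVec hU hUd ha1 ha2 _ _

/-- An alternating first factor of size two gives plus type. -/
theorem plus_of_alt_two [Finite F] (hB : BNondeg Q) {L : (Fin 2 × Fin b → F) ≃ₗ[F] (ι → F)}
    {J₁ : Matrix (Fin 2) (Fin 2) F} (hT : IsTensorData (RingEquiv.refl F) (polarMat Q) 1 H L J₁ J₂)
    (hpure : ∀ u w, Q (L (tensorVec u w)) = 0) : IsPlusTypeOn ⇑Q ⊤ := by
  set u : Fin 2 → F := Pi.single 0 1
  have hu : u ≠ 0 := fun h => by simpa [u] using congrFun h 0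
  refine ⟨LinearMap.range (L.toLinearMap ∘ₗ tensorLin u), le_top, ?_, ?_⟩
  · rintro _ ⟨w, rfl⟩
    exact hpure u w
  · rw [LinearMap.finrank_range_of_inj ((fun p q h => tensorLin_injective hu (L.injective h))), Module.finrank_fin_fun,
      finrank_top, Module.finrank_fintype_fun_eq_card, card_eq_of_tensor hT]

/-- The two kinds of factors. -/
theorem tensor_kinds [Fintype F] (hB : BNondeg Q) (hH : H ≤ Cfsg.isometryGroup F ⇑Q)
    (hirr : ActsIrreducibly (matrixSet H))
    (hT : IsTensorData (RingEquiv.refl F) (polarMat Q) 1 H L J₁ J₂) :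
    ((J₁ᵀ = -J₁ ∧ ∀ i, J₁ i i = 0) ∧ (J₂ᵀ = -J₂ ∧ ∀ i, J₂ i i = 0) ∧ Even a ∧ Even b) ∨
    ((2 : F) ≠ 0 ∧ J₁ᵀ = J₁ ∧ J₂ᵀ = J₂) := by
  haveI : NeZero a := ⟨by have := hT.left_two_le; omega⟩
  haveI : NeZero b := ⟨by have := hT.right_two_le; omega⟩
  obtain ⟨c₁, c₂, hcc, h1, h2'⟩ := hT.star
  have hc1 := mul_self_eq_one_iff.1 (GeoClasses.sq_eq_one_of_star hT.unit₁.ne_zero h1)
  have hev : ∀ {m : ℕ} {J : Matrix (Fin m) (Fin m) F}, IsUnit J → Jᵀ = -J → (∀ i, J i i = 0) → Even m :=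
    fun hu hs hd => by simpa using GeoClasses.even_card_of_alternating hu hs hd
  by_cases h2 : (2 : F) = 0
  · left
    have hneg : (-1 : F) = 1 := GeoClasses.neg_eq_self_of_two h2 1
    have hzero : ∀ {a b : ℕ} {L : (Fin a × Fin b → F) ≃ₗ[F] (ι → F)} {J₁ : Matrix (Fin a) (Fin a) F}
        {J₂ : Matrix (Fin b) (Fin b) F}, IsTensorData (RingEquiv.refl F) (polarMat Q) 1 H L J₁ J₂ →
        J₁ᵀ = -J₁ ∧ ∀ i, J₁ i i = 0 := by
      intro a b L J₁ J₂ hT
      haveI : NeZero a := ⟨by have := hT.left_two_le; omega⟩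
      haveI : NeZero b := ⟨by have := hT.right_two_le; omega⟩
      obtain ⟨c₁, c₂, -, h1, -⟩ := hT.star
      have hc : c₁ = 1 := by
        rcases mul_self_eq_one_iff.1 (GeoClasses.sq_eq_one_of_star hT.unit₁.ne_zero h1) with h | h
        · exact h
        · rw [h, hneg]
      rw [hc, one_smul] at h1
      have hsym : J₁ᵀ = J₁ := h1
      obtain ⟨R, hRirr, hR⟩ := GeoClasses.exists_irreducible_factor (L := L) hirr fun h hh => by
        obtain ⟨c, d, μ, ν, hcd, -, -⟩ := hT.mem h hh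
        exact ⟨c, d, hcd⟩
      refine ⟨by rw [hsym, ← neg_one_smul F J₁, hneg, one_smul], GeoClasses.diag_eq_zero_of_irreducible hRirr h2
        (by simpa using hT.left_two_le) hsym fun c hc => ?_⟩
      obtain ⟨d, h, hh, hcd⟩ := hR c hc
      have h3 := (GeoClasses.isSim_coord_iff hcd).1 (isSim_of_isometry (hH hh))
      rw [hT.gram, GeoClasses.adjForm_kronecker, one_smul] at h3
      obtain ⟨μ, ν, -, hμ, -⟩ := GeoClasses.kronecker_eq_kronecker h3 hT.unit₁.ne_zero hT.unit₂.ne_zero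
      exact ⟨μ, hμ⟩
    obtain ⟨hs1, hd1⟩ := hzero hT
    obtain ⟨hs2, hd2⟩ := hzero hT.swap
    exact ⟨⟨hs1, hd1⟩, ⟨hs2, hd2⟩, hev hT.unit₁ hs1 hd1, hev hT.unit₂ hs2 hd2⟩
  have hdiag : ∀ {m : ℕ} {J : Matrix (Fin m) (Fin m) F}, Jᵀ = -J → ∀ i, J i i = 0 := fun hJ i => by
    have h3 := congrFun (congrFun hJ i) i
    simp only [Matrix.transpose_apply, Matrix.neg_apply] at h3
    exact (mul_eq_zero.1 (show (2 : F) * _ = 0 by linear_combination h3)).resolve_left h2
  rcases hc1 with h | h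
  · right
    rw [h, one_mul] at hcc
    rw [h, one_smul] at h1
    rw [hcc, one_smul] at h2'
    exact ⟨h2, h1, h2'⟩
  · left
    rw [h, neg_one_mul, neg_eq_iff_eq_neg] at hcc
    rw [h, neg_one_smul] at h1
    rw [hcc, neg_one_smul] at h2'
    exact ⟨⟨h1, hdiag h1⟩, ⟨h2', hdiag h2'⟩, hev hT.unit₁ h1 (hdiag h1), hev hT.unit₂ h2' (hdiag h2')⟩

/-- The listed structure of a symplectic tensor decomposition. -/
theorem exists_tensor_listing (hT : IsTensorData (RingEquiv.refl F) (polarMat Q) 1 H L J₁ J₂)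
    (h1 : J₁ᵀ = -J₁) (h1d : ∀ i, J₁ i i = 0) (h2' : J₂ᵀ = -J₂) (h2d : ∀ i, J₂ i i = 0)
    (hpure : ∀ u w, Q (L (tensorVec u w)) = 0) :
    ∃ (e : ι ≃ Fin a × Fin b) (P : GL ι F) (f₁ : (Fin a → F) → (Fin a → F) → F)
      (f₂ : (Fin b → F) → (Fin b → F) → F), IsSymplecticForm f₁ ∧ IsSymplecticForm f₂ ∧
      IsTensorFormStructure id (polar ⇑Q) f₁ f₂ e P ∧
      (∀ (x₁ : Fin a → F) (x₂ : Fin b → F),
        Q ((P : Matrix ι ι F) *ᵥ ((fun p : Fin a × Fin b => x₁ p.1 * x₂ p.2) ∘ e)) = 0) ∧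
      H ≤ tensorProductSubgroup a b e P := by
  obtain e := Fintype.equivOfCardEq (show Fintype.card ι = Fintype.card (Fin a × Fin b) by
    simpa using L.finrank_eq.symm)
  obtain ⟨P, hPv, hPX⟩ := GeoClasses.exists_coordGL L e
  refine ⟨e, P, formOf (RingEquiv.refl F) J₁, formOf (RingEquiv.refl F) J₂,
    GeoClasses.isSymplecticForm_formOf hT.unit₁ h1 h1d, GeoClasses.isSymplecticForm_formOf hT.unit₂ h2' h2d,
    ?_, fun x₁ x₂ => by rw [hPv]; exact hpure x₁ x₂, fun h hh => ?_⟩
  · have := GeoClasses.tensorFormStructure (σ := RingEquiv.refl F) (B := polarMat Q) hPv one_ne_zero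
      (by rw [one_smul, hT.gram])
    rwa [formOf_polarMat] at this
  · obtain ⟨c, d, μ, ν, hcd, -, -⟩ := hT.mem h hh
    exact GeoClasses.mem_tensorProductSubgroup hPX c d hcd

/-- A symmetric factor of size two reduces to decompositions and fields. -/
theorem tensor_two_symm [Finite F] (hB : BNondeg Q) (hH : H ≤ Cfsg.isometryGroup F ⇑Q)
    (hirr : ActsIrreducibly (matrixSet H)) (h2 : (2 : F) ≠ 0)
    {L : (Fin 2 × Fin b → F) ≃ₗ[F] (ι → F)} {J₁ : Matrix (Fin 2) (Fin 2) F}
    (hT : IsTensorData (RingEquiv.refl F) (polarMat Q) 1 H L J₁ J₂) (hJ : J₁ᵀ = J₁) :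
    (∃ (t k : ℕ) (D : Fin t → Submodule F (ι → F)),
      IsOrthogonalMDecomposition ⇑Q k D ∧ H ≤ decompositionStabilizer D) ∨
    (∃ (k : ℕ) (D : Fin 2 → Submodule F (ι → F)), 2 * k = Fintype.card ι ∧ IsMDecomposition k D ∧
      (∀ i, IsTotallySingularQuad ⇑Q (D i)) ∧ H ≤ decompositionStabilizer D ∧
      ∃ g ∈ H, (D 0).map (Matrix.toLin' (g : Matrix ι ι F)) = D 1) ∨
    (∃ (r : ℕ) (K : Subalgebra F (Matrix ι ι F)), r.Prime ∧ r ∣ Fintype.card ι ∧ IsFieldSubalgebra r K ∧
      StarClosed (RingEquiv.refl F) (polarMat Q) K ∧ H ≤ subalgebraNormalizer K) := by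
  haveI : NeZero b := ⟨by have := hT.right_two_le; omega⟩
  have hcard := card_eq_of_tensor hT
  haveI : Nonempty ι := Fintype.card_pos_iff.1 (by have := hT.right_two_le; omega)
  have hP := isPolar_polarMat hB
  obtain ⟨u₁, hu₁⟩ := hT.unit₁
  obtain ⟨W, hJW⟩ : ∃ W, J₁ * W = altTwo F :=
    ⟨((u₁⁻¹ : GL (Fin 2) F) : Matrix (Fin 2) (Fin 2) F) * altTwo F, by
      rw [← mul_assoc, ← hu₁, Units.mul_inv, one_mul]⟩
  set ω := conjMat L (W ⊗ₖ (1 : Matrix (Fin b) (Fin b) F)) with hω
  set A := Algebra.adjoin F ({ω} : Set (Matrix ι ι F)) with hA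
  have hadjω : adj (RingEquiv.refl F) (polarMat Q) ω = -ω := by
    rw [hω, hP.adj_conjMat, ← map_neg]
    congr 1
    refine GeoClasses.adj_eq_of_mul (hP.coord L) ?_
    rw [hT.gram]
    have hWt : Wᵀ * J₁ = -(J₁ * W) := by
      have h0 : Wᵀ * J₁ = (J₁ * W)ᵀ := by rw [Matrix.transpose_mul, hJ]
      rw [h0, hJW, GeoClasses.altTwo_transpose]
    have ht : (W ⊗ₖ (1 : Matrix (Fin b) (Fin b) F))ᵀ = Wᵀ ⊗ₖ (1 : Matrix (Fin b) (Fin b) F) := by
      ext ⟨i, j⟩ ⟨k, l⟩
      simp [Matrix.kroneckerMap_apply, Matrix.one_apply, eq_comm]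
    rw [ht, ← Matrix.mul_kronecker_mul, one_mul, hWt,
      show (-(W ⊗ₖ (1 : Matrix (Fin b) (Fin b) F))).map (RingEquiv.refl F)
        = -(W ⊗ₖ (1 : Matrix (Fin b) (Fin b) F)) from rfl,
      mul_neg, ← Matrix.mul_kronecker_mul, mul_one]
    ext ⟨i, j⟩ ⟨k, l⟩
    simp [Matrix.kroneckerMap_apply]
  have hs : StarClosed (RingEquiv.refl F) (polarMat Q) A := by
    intro X hX
    induction hX using Algebra.adjoin_induction with
    | mem x hx =>
      rw [Set.mem_singleton_iff] at hx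
      subst hx
      rw [hadjω]
      exact neg_mem (Algebra.subset_adjoin rfl)
    | algebraMap c =>
      rw [Algebra.algebraMap_eq_smul_one, GeoClasses.adj_smul, hP.adj_one]
      exact A.smul_mem A.one_mem _
    | add x y _ _ hx hy => rw [GeoClasses.adj_add]; exact add_mem hx hy
    | mul x y _ _ hx hy => rw [hP.adj_mul]; exact mul_mem hy hx
  have hn : GeoClasses.Normalises H A := by
    intro g hg X hX
    have hle : A ≤ A.comap (conjGL g).toAlgHom := Algebra.adjoin_le (by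
      rintro x hx
      rw [Set.mem_singleton_iff] at hx
      subst hx
      show conjGL g ω ∈ A
      obtain ⟨c, d, μ, ν, hcd, hc, -⟩ := hT.mem g hg
      have hc' : (c : Matrix (Fin 2) (Fin 2) F)ᵀ * J₁ * (c : Matrix (Fin 2) (Fin 2) F) = μ • J₁ := hc
      have hcW : μ • (W * (c : Matrix (Fin 2) (Fin 2) F))
          = (c : Matrix (Fin 2) (Fin 2) F).det • ((c : Matrix (Fin 2) (Fin 2) F) * W) := by
        apply ((((Matrix.isUnit_transpose _).2 c.isUnit).mul hT.unit₁)).mul_left_cancel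
        rw [Matrix.mul_smul, Matrix.mul_smul, mul_assoc, mul_assoc, ← mul_assoc J₁ W, hJW,
          ← mul_assoc _ (altTwo F), GeoClasses.altTwo_adj, ← mul_assoc, ← mul_assoc, hc',
          Matrix.smul_mul, hJW, smul_comm]
      have hdet : (c : Matrix (Fin 2) (Fin 2) F).det ≠ 0 :=
        ((Matrix.isUnit_iff_isUnit_det _).1 c.isUnit).ne_zero
      have hgω : conjGL g ω = (μ / (c : Matrix (Fin 2) (Fin 2) F).det) • ω := by
        refine GeoClasses.conjGL_eq_of_mul_eq ?_
        rw [hω, hcd, ← map_smul, ← map_mul, ← map_mul]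
        congr 1
        rw [Matrix.smul_mul, ← Matrix.mul_kronecker_mul, ← Matrix.mul_kronecker_mul, one_mul,
          mul_one, ← Matrix.smul_kronecker, div_eq_inv_mul, mul_smul, hcW, inv_smul_smul₀ hdet]
      rw [hgω]
      exact A.smul_mem (Algebra.subset_adjoin rfl) _)
    exact hle hX
  have hcomm : ∀ x ∈ A, ∀ y ∈ A, x * y = y * x := by
    intro x hx y hy
    rw [hA, Algebra.adjoin_singleton_eq_range_aeval] at hx hy
    obtain ⟨p, rfl⟩ := hx
    obtain ⟨p', rfl⟩ := hy
    rw [← map_mul, ← map_mul, mul_comm]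
  have hns : ∃ z ∈ A, ∀ c : F, z ≠ c • (1 : Matrix ι ι F) := by
    refine ⟨ω, Algebra.subset_adjoin rfl, fun c hc => ?_⟩
    rw [hω, ← map_one (conjMat L), ← map_smul] at hc
    have hWc : W = c • (1 : Matrix (Fin 2) (Fin 2) F) := by
      ext i j
      simpa [Matrix.kroneckerMap_apply, Matrix.one_apply] using
        congrFun (congrFun ((conjMat L).injective hc) (i, 0)) (j, 0)
    rw [hWc, Matrix.mul_smul, mul_one] at hJW
    have h5 : (altTwo F)ᵀ = altTwo F := by rw [← hJW, Matrix.transpose_smul, hJ]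
    rw [GeoClasses.altTwo_transpose] at h5
    have h6 := congrFun (congrFun h5 0) 1
    simp [altTwo] at h6
    exact h2 (by linear_combination -h6)
  rcases hP.comm_cases (fun h hh => isSim_of_isometry (hH hh)) hirr hn hs hcomm hns with
    ⟨t, k, D, hD, hle, htr⟩ | ⟨A', e, he, h01⟩ | ⟨r, K, hr, hK, hKs, hle⟩
  · rw [formOf_polarMat] at hD
    exact Or.inl ⟨t, k, D, isOrthogonalMDecomposition_of_trans hH hD htr, hle⟩
  · obtain ⟨k, hk, hle⟩ := he.decomposition
    obtain ⟨g, hg, hg01⟩ := he.trans 0 1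
    refine Or.inr (Or.inl ⟨k, GeoClasses.blockSpaces e, GeoClasses.card_eq_of_decomposition hk, hk,
      fun i w hw => ?_, hle, g, hg, he.map_blockSpaces hg01⟩)
    have := hP.singular_pair he h01 i w hw w hw
    rw [formOf_polarMat, OrthGen.polar_self_two] at this
    exact (mul_eq_zero.1 this).resolve_left h2
  · exact Or.inr (Or.inr ⟨r, K, hr, MaxSub.degree_dvd_card hK, hK, hKs, hle⟩)

/-! ### Three times four -/

section ThreeFour

variable {L : (Fin 3 × Fin 4 → F) ≃ₗ[F] (ι → F)} {J₁ : Matrix (Fin 3) (Fin 3) F} {J₂ : Matrix (Fin 4) (Fin 4) F}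

theorem exists_orth_triple (h2 : (2 : F) ≠ 0) (hu : IsUnit J₁) (hJ₁ : J₁ᵀ = J₁) :
    ∃ x : Fin 3 → Fin 3 → F, (∀ i, formOf (RingEquiv.refl F) J₁ (x i) (x i) ≠ 0) ∧
      (∀ i j, i ≠ j → formOf (RingEquiv.refl F) J₁ (x i) (x j) = 0) := by
  haveI : Invertible (2 : F) := invertibleOfNonzero h2
  have hs := GeoClasses.isSymmetricForm_formOf hu hJ₁
  let B : LinearMap.BilinForm F (Fin 3 → F) :=
    LinearMap.mk₂ F (formOf (RingEquiv.refl F) J₁) hs.bilinear.add_left hs.bilinear.smul_left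
      hs.bilinear.add_right hs.bilinear.smul_right
  obtain ⟨b₀, hb₀⟩ := LinearMap.BilinForm.exists_orthogonal_basis (B := B) ⟨fun x y => hs.symm x y⟩
  have hd : Module.finrank F (Fin 3 → F) = 3 := Module.finrank_fin_fun F
  refine ⟨fun i => b₀ (finCongr hd.symm i), fun i h0 => ?_, fun i j hij => hb₀ fun h => hij
    ((finCongr hd.symm).injective h)⟩
  set k := finCongr hd.symm i
  obtain ⟨⟨y, hy⟩, -⟩ := hs.nondegenerate (b₀ k) (b₀.ne_zero k)
  apply hy
  show B y (b₀ k) = 0
  rw [← b₀.sum_repr y, map_sum, LinearMap.sum_apply]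
  refine Finset.sum_eq_zero fun l _ => ?_
  rw [map_smul, LinearMap.smul_apply]
  by_cases hl : l = k
  · rw [hl, show B (b₀ k) (b₀ k) = 0 from h0, smul_zero]
  · rw [show B (b₀ l) (b₀ k) = 0 from hb₀ hl, smul_zero]

/-- The three slices along an orthogonal basis of the first factor. -/
theorem slices_spec (hB : BNondeg Q) (hT : IsTensorData (RingEquiv.refl F) (polarMat Q) 1 H L J₁ J₂)
    {x : Fin 3 → Fin 3 → F} (hx : ∀ i, formOf (RingEquiv.refl F) J₁ (x i) (x i) ≠ 0)
    (hxo : ∀ i j, i ≠ j → formOf (RingEquiv.refl F) J₁ (x i) (x j) = 0) :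
    IsNondegenerateMDecomposition (polar ⇑Q) 4
      (fun i => LinearMap.range (L.toLinearMap ∘ₗ tensorLin (x i))) := by
  set D : Fin 3 → Submodule F (ι → F) := fun i => LinearMap.range (L.toLinearMap ∘ₗ tensorLin (x i)) with hD
  have hx0 : ∀ i, x i ≠ 0 := fun i h => hx i (by rw [h, GeoClasses.formOf_zero_left])
  have hd : ∀ i, finrank F (D i) = 4 := fun i => by
    rw [hD]
    dsimp only
    rw [LinearMap.finrank_range_of_inj ((fun p q h => tensorLin_injective (hx0 i) (L.injective h))), Module.finrank_fin_fun]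
  have horth : ∀ i j, i ≠ j → AreOrthogonalFor (polar ⇑Q) (D i) (D j) := by
    rintro i j hij _ ⟨w, rfl⟩ _ ⟨w', rfl⟩
    show polar Q (L (tensorVec _ w)) (L (tensorVec _ w')) = 0
    rw [polar_tensorVec hT, hxo i j hij, zero_mul]
  have hnd : ∀ i, IsNondegenerateOn (polar ⇑Q) (D i) := by
    rintro i _ ⟨w, rfl⟩ hw0
    have hw : w ≠ 0 := fun h => hw0 (by rw [h, map_zero])
    obtain ⟨⟨y, hy⟩, -⟩ := GeoClasses.isNondegenerateForm_formOf (RingEquiv.refl F) hT.unit₂ w hw
    have hne : polar Q (L (tensorVec (x i) y)) (L (tensorVec (x i) w)) ≠ 0 := by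
      rw [polar_tensorVec hT]; exact mul_ne_zero (hx i) hy
    exact ⟨⟨_, ⟨y, rfl⟩, hne⟩, ⟨_, ⟨y, rfl⟩, by rw [polar_comm]; exact hne⟩⟩
  have hindep : iSupIndep D := by
    rw [iSupIndep_def]
    intro i
    rw [disjoint_iff, eq_bot_iff]
    rintro v ⟨hv, hv'⟩
    rw [← isNondegenerateOn_iff.1 (hnd i)]
    refine ⟨hv, fun n hn => ?_⟩
    show polar Q n v = 0
    have hle : (⨆ j, ⨆ (_ : j ≠ i), D j) ≤ OrthGen.perpSub Q (D i) :=
      iSup₂_le fun j hj y hy n hn => horth i j (Ne.symm hj) n hn y hy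
    exact hle hv' n hn
  refine ⟨⟨by norm_num, by norm_num, hd, hindep, ?_⟩, hnd, horth⟩
  let Φ : (Fin 3 → Fin 4 → F) →ₗ[F] (ι → F) :=
    ∑ i, (L.toLinearMap ∘ₗ tensorLin (x i)) ∘ₗ LinearMap.proj i
  have hΦ : Function.Injective Φ := by
    rw [← LinearMap.ker_eq_bot, LinearMap.ker_eq_bot']
    intro z hz
    funext j
    by_contra hj
    obtain ⟨⟨y, hy⟩, -⟩ := GeoClasses.isNondegenerateForm_formOf (RingEquiv.refl F) hT.unit₂ (z j) hj
    apply hy
    have h0 : polar Q (L (tensorVec (x j) y)) (Φ z) = 0 := by rw [hz, ← polarBilin_apply_apply, map_zero]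
    simp only [Φ, LinearMap.sum_apply, LinearMap.comp_apply, LinearMap.proj_apply, LinearEquiv.coe_coe] at h0
    rw [← polarBilin_apply_apply, map_sum, Finset.sum_eq_single j] at h0
    · rw [polarBilin_apply_apply] at h0
      change polar Q (L (tensorVec (x j) y)) (L (tensorVec (x j) (z j))) = 0 at h0
      rw [polar_tensorVec hT] at h0
      exact (mul_eq_zero.1 h0).resolve_left (hx j)
    · intro i _ hij
      rw [polarBilin_apply_apply]
      exact horth j i (Ne.symm hij) _ ⟨y, rfl⟩ _ ⟨z i, rfl⟩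
    · simp
  have hle : LinearMap.range Φ ≤ iSup D := by
    rintro _ ⟨z, rfl⟩
    simp only [Φ, LinearMap.sum_apply, LinearMap.comp_apply, LinearMap.proj_apply]
    exact Submodule.sum_mem _ fun i _ => le_iSup D i ⟨z i, rfl⟩
  rw [← top_le_iff]
  refine le_trans (le_of_eq ?_) hle
  refine (Submodule.eq_top_of_finrank_eq ?_).symm
  rw [LinearMap.finrank_range_of_inj hΦ, Module.finrank_fintype_fun_eq_card, card_eq_of_tensor hT]
  simp [Module.finrank_pi_fintype]

theorem quad_slice (h2 : (2 : F) ≠ 0) (hT : IsTensorData (RingEquiv.refl F) (polarMat Q) 1 H L J₁ J₂)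
    (x : Fin 3 → F) (w : Fin 4 → F) :
    2 * Q (L (tensorVec x w)) = formOf (RingEquiv.refl F) J₁ x x * formOf (RingEquiv.refl F) J₂ w w := by
  rw [← polar_tensorVec hT, OrthGen.polar_self_two]

/-- A plus second factor gives plus type. -/
theorem plus_of_three_four [Finite F] (h2 : (2 : F) ≠ 0)
    (hT : IsTensorData (RingEquiv.refl F) (polarMat Q) 1 H L J₁ J₂) (hJ₂ : J₂ᵀ = J₂)
    (hp : IsPlusTypeOn (fun v : Fin 4 → F => formOf (RingEquiv.refl F) J₂ v v) ⊤) : IsPlusTypeOn ⇑Q ⊤ := by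
  obtain ⟨U, -, hU, hUd⟩ := hp
  rw [finrank_top, Module.finrank_fin_fun] at hUd
  have hs := GeoClasses.isSymmetricForm_formOf hT.unit₂ hJ₂
  have hUU : ∀ v ∈ U, ∀ w ∈ U, formOf (RingEquiv.refl F) J₂ v w = 0 := by
    intro v hv w hw
    have h1 : formOf (RingEquiv.refl F) J₂ (v + w) (v + w) = 0 := hU _ (U.add_mem hv hw)
    rw [hs.bilinear.add_left, hs.bilinear.add_right, hs.bilinear.add_right, show formOf _ J₂ v v = 0 from hU v hv,
      show formOf _ J₂ w w = 0 from hU w hw, hs.symm w v, zero_add, add_zero] at h1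
    exact (mul_eq_zero.1 (show (2 : F) * formOf (RingEquiv.refl F) J₂ v w = 0 by linear_combination h1)).resolve_left h2
  let Ψ : (Fin 3 → U) →ₗ[F] (Fin 3 × Fin 4 → F) :=
    { toFun := fun z p => (z p.1 : Fin 4 → F) p.2
      map_add' := fun _ _ => rfl
      map_smul' := fun _ _ => rfl }
  have hΨ : Function.Injective Ψ := fun x y h => funext fun i => Subtype.ext (funext fun j => congrFun h (i, j))
  refine ⟨LinearMap.range (L.toLinearMap ∘ₗ Ψ), le_top, ?_, ?_⟩
  · rintro _ ⟨z, rfl⟩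
    show Q (L (Ψ z)) = 0
    have hz : Ψ z = ∑ i, tensorVec (Pi.single i 1) (z i : Fin 4 → F) := by
      funext p
      rw [Finset.sum_apply, Finset.sum_eq_single p.1]
      · simp [tensorVec, Ψ]
      · intro i _ hi; simp [tensorVec, Pi.single_eq_of_ne (Ne.symm hi)]
      · simp
    have h0 : polar Q (L (Ψ z)) (L (Ψ z)) = 0 := by
      rw [hz, map_sum, ← polarBilin_apply_apply]
      simp only [map_sum, LinearMap.sum_apply]
      refine Finset.sum_eq_zero fun i _ => Finset.sum_eq_zero fun j _ => ?_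
      rw [polarBilin_apply_apply, polar_tensorVec hT, hUU _ (z j).2 _ (z i).2, mul_zero]
    rw [OrthGen.polar_self_two] at h0
    exact (mul_eq_zero.1 h0).resolve_left h2
  · rw [LinearMap.finrank_range_of_inj ((fun p q h => hΨ (L.injective h))), Module.finrank_pi_fintype, Finset.sum_const,
      Finset.card_univ, Fintype.card_fin, smul_eq_mul, finrank_top, Module.finrank_fintype_fun_eq_card,
      card_eq_of_tensor hT]
    omega

/-- A minus second factor gives minus type. -/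
theorem not_plus_of_three_four [Finite F] (hB : BNondeg Q) (h2 : (2 : F) ≠ 0)
    (hT : IsTensorData (RingEquiv.refl F) (polarMat Q) 1 H L J₁ J₂) (hJ₁ : J₁ᵀ = J₁) (hJ₂ : J₂ᵀ = J₂)
    (hp : ¬ IsPlusTypeOn (fun v : Fin 4 → F => formOf (RingEquiv.refl F) J₂ v v) ⊤) :
    ¬ IsPlusTypeOn ⇑Q ⊤ := by
  obtain ⟨x, hx, hxo⟩ := exists_orth_triple h2 hT.unit₁ hJ₁
  have hD := slices_spec hB hT hx hxo
  set D : Fin 3 → Submodule F (ι → F) := fun i => LinearMap.range (L.toLinearMap ∘ₗ tensorLin (x i))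
  have hminus : ∀ i, ¬ IsPlusTypeOn ⇑Q (D i) := by
    rintro i ⟨U, hUD, hU, hUd⟩
    apply hp
    have hinj : Function.Injective (L.toLinearMap ∘ₗ tensorLin (x i)) :=
      fun p q h => tensorLin_injective (fun h => hx i (by rw [h, GeoClasses.formOf_zero_left])) (L.injective h)
    refine ⟨U.comap (L.toLinearMap ∘ₗ tensorLin (x i)), le_top, fun w hw => ?_, ?_⟩
    · have h1 := quad_slice h2 hT (x i) w
      rw [show Q (L (tensorVec (x i) w)) = 0 from hU _ hw, mul_zero, eq_comm, mul_eq_zero] at h1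
      exact h1.resolve_left (hx i)
    · rw [finrank_top, Module.finrank_fin_fun, (Submodule.equivMapOfInjective _ hinj _).finrank_eq,
        Submodule.map_comap_eq_self hUD, hUd, hD.decomp.finrank_eq]
  intro hplus
  have hXn : IsNondegenerateOn (polar ⇑Q) (OrthGen.perpSub Q (D 2)) := isNondegenerateOn_perp hB (hD.nondegenerate 2)
  have h01X : D 0 ⊔ D 1 = OrthGen.perpSub Q (D 2) := by
    refine Submodule.eq_of_le_of_finrank_eq (sup_le (fun y hy n hn => hD.orthogonal 2 0 (by decide) n hn y hy)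
      fun y hy n hn => hD.orthogonal 2 1 (by decide) n hn y hy) ?_
    rw [finrank_sup_orth (hD.nondegenerate 0) (hD.orthogonal 0 1 (by decide)), hD.decomp.finrank_eq,
      hD.decomp.finrank_eq]
    have := finrank_perp_add hB (D 2)
    rw [hD.decomp.finrank_eq, card_eq_of_tensor hT] at this
    omega
  have hplus01 : IsPlusTypeOn ⇑Q (D 0 ⊔ D 1) := by
    set μ := formOf (RingEquiv.refl F) J₁ (x 1) (x 1) / formOf (RingEquiv.refl F) J₁ (x 0) (x 0)
    let e₀ := LinearEquiv.ofInjective (L.toLinearMap ∘ₗ tensorLin (x 0))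
      (L.injective.comp (tensorLin_injective fun h => hx 0 (by rw [h, GeoClasses.formOf_zero_left])))
    refine plus_of_similar (hD.nondegenerate 0) (hD.orthogonal 0 1 (by decide))
      (by rw [hD.decomp.finrank_eq, hD.decomp.finrank_eq]) (by rw [hD.decomp.finrank_eq]; decide)
      ((L.toLinearMap ∘ₗ tensorLin (x 1)) ∘ₗ e₀.symm.toLinearMap) (fun v => ⟨_, rfl⟩)
      (div_ne_zero (hx 1) (hx 0)) fun v => ?_
    obtain ⟨w, rfl⟩ := e₀.surjective v
    simp only [LinearMap.comp_apply, LinearEquiv.coe_coe, LinearEquiv.symm_apply_apply]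
    show Q (L (tensorVec (x 1) w)) = μ * Q (L (tensorVec (x 0) w))
    apply mul_left_cancel₀ h2
    rw [quad_slice h2 hT, show 2 * (μ * Q (L (tensorVec (x 0) w))) = μ * (2 * Q (L (tensorVec (x 0) w))) by ring,
      quad_slice h2 hT, ← mul_assoc, div_mul_cancel₀ _ (hx 0)]
  refine hminus 2 (plus_cancel hB hXn areOrthogonal_perp' (h01X ▸ hplus01) ?_)
  rwa [sup_comm, sup_perp_eq_top hB (hD.nondegenerate 2)]

/-- Over three elements the tensor decomposition refines to a decomposition. -/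
theorem decomposition_of_three_four [Fintype F] (hB : BNondeg Q) (h3 : Fintype.card F = 3)
    (hT : IsTensorData (RingEquiv.refl F) (polarMat Q) 1 H L J₁ J₂) (hJ₁ : J₁ᵀ = J₁) :
    ∃ D : Fin 3 → Submodule F (ι → F), IsOrthogonalMDecomposition ⇑Q 4 D ∧ H ≤ decompositionStabilizer D := by
  have h2 : (2 : F) ≠ 0 := GeoClasses.two_ne_zero_iff_odd_card.2 (by rw [h3]; decide)
  set ν := J₁.det with hν
  have hν0 : ν ≠ 0 := ((Matrix.isUnit_iff_isUnit_det J₁).1 hT.unit₁).ne_zero
  obtain ⟨Dm, hDm⟩ := GeoClasses.exists_congr_of_det h2 (k := 3) (J := ν • (1 : Matrix (Fin 3) (Fin 3) F))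
    (J' := J₁)
    (by rw [Matrix.isUnit_iff_isUnit_det, Matrix.det_smul, Matrix.det_one, mul_one]
        exact hν0.isUnit.pow _)
    hT.unit₁ (by rw [Matrix.transpose_smul, Matrix.transpose_one]) hJ₁
    ⟨ν * ν, by rw [Matrix.det_smul, Matrix.det_one, Fintype.card_fin, ← hν]; ring⟩
  set x : Fin 3 → Fin 3 → F := fun i => (Dm : Matrix (Fin 3) (Fin 3) F) *ᵥ Pi.single i 1 with hxdef
  have hxx : ∀ i j, formOf (RingEquiv.refl F) J₁ (x i) (x j) = if i = j then ν else 0 := fun i j => by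
    rw [GeoClasses.formOf_mulVec, hDm, GeoClasses.formOf_single]
    simp [Matrix.one_apply]
  have hx : ∀ i, formOf (RingEquiv.refl F) J₁ (x i) (x i) ≠ 0 := fun i => by rw [hxx, if_pos rfl]; exact hν0
  have hxo : ∀ i j, i ≠ j → formOf (RingEquiv.refl F) J₁ (x i) (x j) = 0 := fun i j h => by rw [hxx, if_neg h]
  have hD := slices_spec hB hT hx hxo
  have hinj : ∀ i, Function.Injective (L.toLinearMap ∘ₗ tensorLin (b := 4) (x i)) := fun i =>
    L.injective.comp (tensorLin_injective fun h => hx i (by rw [h, GeoClasses.formOf_zero_left]))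
  refine ⟨_, ⟨hD, fun i j => ?_⟩, fun h hh => ?_⟩
  · refine ⟨(LinearEquiv.ofInjective _ (hinj i)).symm.trans (LinearEquiv.ofInjective _ (hinj j)), fun v => ?_⟩
    obtain ⟨w, rfl⟩ := (LinearEquiv.ofInjective _ (hinj i)).surjective v
    simp only [LinearEquiv.trans_apply, LinearEquiv.symm_apply_apply]
    apply mul_left_cancel₀ h2
    show 2 * Q (L (tensorVec (x j) w)) = 2 * Q (L (tensorVec (x i) w))
    rw [quad_slice h2 hT, quad_slice h2 hT, hxx, hxx, if_pos rfl, if_pos rfl]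
  · obtain ⟨c, d, μ, μ', hcd, hc, -⟩ := hT.mem h hh
    set c' := Dm⁻¹ * c * Dm with hc'
    have hc'' : IsSim (RingEquiv.refl F) (1 : Matrix (Fin 3) (Fin 3) F) c' μ := by
      refine smul_right_injective _ hν0 ?_
      show ν • adjForm _ _ _ = ν • _
      rw [← GeoClasses.adjForm_smul_left, ← hDm, ← GeoClasses.adjForm_mul, ← Units.val_mul,
        show Dm * c' = c * Dm by rw [hc']; group, Units.val_mul, GeoClasses.adjForm_mul, hc,
        GeoClasses.adjForm_smul_left, hDm, smul_comm]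
    obtain ⟨π, hπ⟩ := GeoClasses.monomial_of_three h3 hc''
    have hcol : ∀ j, (c : Matrix (Fin 3) (Fin 3) F) *ᵥ x j
        = (c' : Matrix (Fin 3) (Fin 3) F) (π j) j • x (π j) := by
      intro j
      rw [hxdef]
      dsimp only
      rw [Matrix.mulVec_mulVec, ← Units.val_mul, show c * Dm = Dm * c' by rw [hc']; group, Units.val_mul,
        ← Matrix.mulVec_mulVec, ← Matrix.mulVec_smul]
      congr 1
      funext i
      rw [Matrix.mulVec_single_one, Pi.smul_apply, Pi.single_apply, smul_eq_mul]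
      show (c' : Matrix (Fin 3) (Fin 3) F) i j = _
      by_cases hi : i = π j
      · subst hi; simp
      · rw [if_neg hi, mul_zero, hπ i j hi]
    have hc0 : ∀ j, (c' : Matrix (Fin 3) (Fin 3) F) (π j) j ≠ 0 := fun j h0 => by
      apply hx j
      rw [GeoClasses.mulVec_injective c (show (c : Matrix (Fin 3) (Fin 3) F) *ᵥ x j = (c : Matrix (Fin 3) (Fin 3) F) *ᵥ 0 by
        rw [hcol, h0, zero_smul, Matrix.mulVec_zero]), GeoClasses.formOf_zero_left]
    have hπinj : Function.Injective π := by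
      intro i j hij
      by_contra hne
      have h1 : x i = ((c' : Matrix (Fin 3) (Fin 3) F) (π i) i / (c' : Matrix (Fin 3) (Fin 3) F) (π j) j) • x j := by
        refine GeoClasses.mulVec_injective c ?_
        show (c : Matrix (Fin 3) (Fin 3) F) *ᵥ _ = (c : Matrix (Fin 3) (Fin 3) F) *ᵥ _
        rw [Matrix.mulVec_smul, hcol, hcol, smul_smul, div_mul_cancel₀ _ (hc0 j), hij]
      have h3' := hxx i j
      rw [if_neg hne, h1, GeoClasses.formOf_smul_left, hxx, if_pos rfl] at h3'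
      exact mul_ne_zero (div_ne_zero (hc0 i) (hc0 j)) hν0 h3'
    refine ⟨Equiv.ofBijective π (Finite.injective_iff_bijective.1 hπinj), fun i => ?_⟩
    refine Submodule.eq_of_le_of_finrank_eq ?_ ?_
    · rintro _ ⟨_, ⟨w, rfl⟩, rfl⟩
      refine ⟨(c' : Matrix (Fin 3) (Fin 3) F) (π i) i • ((d : Matrix (Fin 4) (Fin 4) F) *ᵥ w), ?_⟩
      rw [Matrix.toLin'_apply, hcd]
      show L (tensorVec _ _) = conjMat L _ *ᵥ L (tensorVec _ w)
      rw [GeoClasses.conjMat_mulVec_apply, tensorVec_map, hcol]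
      congr 1
      funext p
      simp [tensorVec]
      ring
    · rw [← (Submodule.equivMapOfInjective _ (fun a b hab => by
        rw [Matrix.toLin'_apply, Matrix.toLin'_apply] at hab
        exact GeoClasses.mulVec_injective h hab) _).finrank_eq, hD.decomp.finrank_eq, hD.decomp.finrank_eq]

/-- A plus second factor gives a symplectic decomposition `2 × 6`. -/
theorem two_six_of_three_four [Finite F] (h2 : (2 : F) ≠ 0) (hHΩ : H ≤ omegaGL ⇑Q)
    (hT : IsTensorData (RingEquiv.refl F) (polarMat Q) 1 H L J₁ J₂) (hJ₁ : J₁ᵀ = J₁) (hJ₂ : J₂ᵀ = J₂)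
    (hp : IsPlusTypeOn (fun v : Fin 4 → F => formOf (RingEquiv.refl F) J₂ v v) ⊤) :
    ∃ (L' : (Fin 2 × Fin 6 → F) ≃ₗ[F] (ι → F)) (J₁' : Matrix (Fin 2) (Fin 2) F)
      (J₂' : Matrix (Fin 6) (Fin 6) F), IsTensorData (RingEquiv.refl F) (polarMat Q) 1 H L' J₁' J₂' ∧
      J₁'ᵀ = -J₁' := by
  classical
  obtain ⟨v, hv, hvli⟩ := MaxSub.exists_plus_frame h2 (GeoClasses.isSymmetricForm_formOf hT.unit₂ hJ₂) hp
  let e4 : Fin 2 × Fin 2 ≃ Fin 4 := finProdFinEquiv
  -- the frame as a change of basis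
  set V : Matrix (Fin 4) (Fin 4) F := Matrix.of fun i j => v (e4.symm j) i with hV
  have hVcol : ∀ j, V *ᵥ Pi.single j 1 = v (e4.symm j) := fun j => by
    funext i
    rw [Matrix.mulVec_single_one]
    rfl
  have hVu : IsUnit V := by
    rw [← Matrix.linearIndependent_cols_iff_isUnit]
    exact hvli.comp _ e4.symm.injective
  obtain ⟨Vg, hVg⟩ := hVu
  set G : Matrix (Fin 4) (Fin 4) F :=
    (GeoClasses.altTwo F ⊗ₖ GeoClasses.altTwo F).submatrix e4.symm e4.symm with hG
  have hVG : adjForm (RingEquiv.refl F) J₂ V = G := by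
    refine Matrix.ext fun i j => ?_
    rw [← GeoClasses.formOf_single (RingEquiv.refl F) (adjForm _ J₂ V) i j, ← GeoClasses.formOf_mulVec,
      hVcol, hVcol, hv]
    rfl
  -- new coordinates
  let e6 : Fin 3 × Fin 2 ≃ Fin 6 := finProdFinEquiv (m := 3) (n := 2)
  let e26 : Fin 2 × Fin 6 ≃ Fin 3 × Fin 4 :=
    (Equiv.prodCongr (Equiv.refl (Fin 2)) e6.symm).trans
      ((Equiv.prodCongr (Equiv.refl (Fin 2)) (Equiv.refl (Fin 3 × Fin 2))).trans
        (((Equiv.prodAssoc (Fin 2) (Fin 3) (Fin 2)).symm.trans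
          ((Equiv.prodCongr (Equiv.prodComm (Fin 2) (Fin 3)) (Equiv.refl (Fin 2))).trans
            (Equiv.prodAssoc (Fin 3) (Fin 2) (Fin 2)))).trans (Equiv.prodCongr (Equiv.refl (Fin 3)) e4)))
  set Vk : GL (Fin 3 × Fin 4) F := GeoClasses.glKron (1 : GL (Fin 3) F) Vg with hVk
  have hVkval : (Vk : Matrix (Fin 3 × Fin 4) (Fin 3 × Fin 4) F) = (1 : Matrix (Fin 3) (Fin 3) F) ⊗ₖ V := by
    rw [hVk, ← hVg]; rfl
  set L₁ := GeoClasses.coordMul L Vk with hL₁
  set J₂' : Matrix (Fin 6) (Fin 6) F :=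
    (J₁ ⊗ₖ GeoClasses.altTwo F).submatrix e6.symm e6.symm with hJ₂'
  refine ⟨coordPerm L₁ e26, GeoClasses.altTwo F, J₂', ?_, GeoClasses.altTwo_transpose⟩
  have hkron : ∀ (A B : Matrix (Fin 2) (Fin 2) F) (C : Matrix (Fin 3) (Fin 3) F),
      (C ⊗ₖ (A ⊗ₖ B).submatrix e4.symm e4.symm).submatrix e26 e26 =
        A ⊗ₖ (C ⊗ₖ B).submatrix e6.symm e6.symm := by
    intro A B C
    ext ⟨i, j⟩ ⟨k, l⟩
    simp [e26, Matrix.kroneckerMap_apply]
    ring
  have haltu : IsUnit (GeoClasses.altTwo F) := by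
    rw [Matrix.isUnit_iff_isUnit_det]
    simp [GeoClasses.altTwo, Matrix.det_fin_two]
  refine
    { left_two_le := le_rfl
      right_two_le := by norm_num
      gram := ?_
      unit₁ := haltu
      unit₂ := ?_
      star := ⟨-1, -1, by norm_num, ?_, ?_⟩
      mem := ?_ }
  · rw [GeoClasses.coordGram_coordPerm, hL₁, GeoClasses.coordGram_coordMul, hT.gram, hVkval,
      GeoClasses.adjForm_kronecker, hVG, hG,
      show adjForm (RingEquiv.refl F) J₁ (1 : Matrix (Fin 3) (Fin 3) F) = J₁ by simp [adjForm, Matrix.map_one],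
      hkron]
  · rw [hJ₂', Matrix.isUnit_submatrix_equiv, Matrix.isUnit_iff_isUnit_det, Matrix.det_kronecker]
    exact (((Matrix.isUnit_iff_isUnit_det _).1 hT.unit₁).pow _).mul
      (((Matrix.isUnit_iff_isUnit_det _).1 haltu).pow _)
  · rw [neg_one_smul]; exact GeoClasses.altTwo_transpose
  · rw [neg_one_smul]
    ext i j
    simp only [starMat, hJ₂', Matrix.transpose_apply, Matrix.map_apply, Matrix.submatrix_apply,
      Matrix.kroneckerMap_apply, RingEquiv.refl_apply, Matrix.neg_apply]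
    rw [show J₁ (e6.symm j).1 (e6.symm i).1
        = J₁ (e6.symm i).1 (e6.symm j).1 from congrFun (congrFun hJ₁ _) _,
      show altTwo F (e6.symm j).2 (e6.symm i).2
        = -altTwo F (e6.symm i).2 (e6.symm j).2 from
          congrFun (congrFun GeoClasses.altTwo_transpose _) _]
    ring
  intro h hh
  obtain ⟨c, d, μ, ν, hcd, hc, hd⟩ := hT.mem h hh
  -- the multipliers
  have hμν : μ * ν = 1 := by
    have h1 := (GeoClasses.isSim_coord_iff hcd).1 (isSim_of_isometry ((hHΩ.trans omega_le_isometry) hh))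
    rw [hT.gram, GeoClasses.adjForm_kronecker, one_smul, hc, hd, Matrix.smul_kronecker,
      Matrix.kronecker_smul, smul_smul] at h1
    obtain ⟨i, k, hik⟩ := GeoClasses.exists_entry_ne_zero (hT.unit₁.ne_zero)
    obtain ⟨j, l, hjl⟩ := GeoClasses.exists_entry_ne_zero (hT.unit₂.ne_zero)
    have h3 := congrFun (congrFun h1 (i, j)) (k, l)
    simp only [Matrix.smul_apply, Matrix.kroneckerMap_apply, smul_eq_mul] at h3
    exact mul_right_cancel₀ (mul_ne_zero hik hjl) (by rw [h3, one_mul])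
  -- the second factor in the frame
  set d' : GL (Fin 4) F := Vg⁻¹ * d * Vg with hd'
  have hd'sim : adjForm (RingEquiv.refl F) G (d' : Matrix (Fin 4) (Fin 4) F) = ν • G := by
    rw [← hVG, ← GeoClasses.adjForm_mul, ← hVg, ← Units.val_mul, show Vg * d' = d * Vg by rw [hd']; group,
      Units.val_mul, GeoClasses.adjForm_mul, hd, GeoClasses.adjForm_smul_left]
  let φ : Matrix (Fin 2) (Fin 2) F →ₗ[F] Matrix (Fin 2) (Fin 2) F :=
    { toFun := fun X => Matrix.of fun i j => ((d' : Matrix (Fin 4) (Fin 4) F) *ᵥ fun p => X (e4.symm p).1 (e4.symm p).2) (e4 (i, j))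
      map_add' := fun X Y => by
        ext i j
        simp only [Matrix.of_apply, Matrix.add_apply]
        rw [← Pi.add_apply, ← Matrix.mulVec_add]
        rfl
      map_smul' := fun r X => by
        ext i j
        simp only [Matrix.of_apply, Matrix.smul_apply, RingHom.id_apply]
        rw [← Pi.smul_apply, ← Matrix.mulVec_smul]
        rfl }
  have hφinj : Function.Injective φ := by
    intro X Y hXY
    have h1 : (fun p => X (e4.symm p).1 (e4.symm p).2) = fun p => Y (e4.symm p).1 (e4.symm p).2 :=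
      GeoClasses.mulVec_injective d' (funext fun p => by
        have := congrFun (congrFun hXY (e4.symm p).1) (e4.symm p).2
        simpa [φ] using this)
    ext i j
    simpa using congrFun h1 (e4 (i, j))
  have hdet : ∀ X : Matrix (Fin 2) (Fin 2) F,
      formOf (RingEquiv.refl F) G (fun p => X (e4.symm p).1 (e4.symm p).2)
        (fun p => X (e4.symm p).1 (e4.symm p).2) = 2 * X.det := by
    intro X
    simp only [formOf, dotProduct, Matrix.mulVec, RingEquiv.refl_apply]
    rw [← e4.sum_comp]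
    simp only [← e4.sum_comp (fun q => G _ q * X (e4.symm q).1 (e4.symm q).2)]
    simp [hG, Fintype.sum_prod_type, Fin.sum_univ_two, GeoClasses.altTwo, Matrix.det_fin_two]
    ring
  have hφdet : ∀ X, (φ X).det = ν * X.det := by
    intro X
    have h1 := hdet (φ X)
    have h3 : (fun p => φ X (e4.symm p).1 (e4.symm p).2)
        = (d' : Matrix (Fin 4) (Fin 4) F) *ᵥ fun p => X (e4.symm p).1 (e4.symm p).2 := funext fun p => by simp [φ]
    rw [h3, GeoClasses.formOf_mulVec, hd'sim, GeoClasses.formOf_smul, hdet] at h1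
    exact mul_left_cancel₀ h2 (by linear_combination -h1)
  have hν0 : ν ≠ 0 := right_ne_zero_of_mul (hμν.trans_ne one_ne_zero)
  obtain ⟨A, B, hA, hB', hcase⟩ := MaxSub.det_similitude_cases φ hφinj hν0 hφdet
  have hνAB : A.det * B.det = ν := by
    have h1 := hφdet 1
    rw [Matrix.det_one, mul_one] at h1
    rcases hcase with h | h <;> rw [h] at h1 <;> simpa [Matrix.det_mul] using h1
  -- columns of the second factor
  have hcols : ∀ i j k l, (d' : Matrix (Fin 4) (Fin 4) F) (e4 (i, j)) (e4 (k, l)) = φ (Matrix.single k l 1) i j := by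
    intro i j k l
    show _ = ((d' : Matrix (Fin 4) (Fin 4) F) *ᵥ fun p => Matrix.single k l (1 : F) (e4.symm p).1 (e4.symm p).2) _
    rw [show (fun p => Matrix.single k l (1 : F) (e4.symm p).1 (e4.symm p).2) = Pi.single (e4 (k, l)) 1 from
      funext fun p => by
        obtain ⟨⟨a, b⟩, rfl⟩ := e4.surjective p
        simp [Matrix.single_apply, Pi.single_apply, eq_comm], Matrix.mulVec_single_one]
    rfl
  have hform : (d' : Matrix (Fin 4) (Fin 4) F) = (A ⊗ₖ Bᵀ).submatrix e4.symm e4.symm := by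
    rcases hcase with hc' | hc'
    · ext p q
      obtain ⟨⟨i, j⟩, rfl⟩ := e4.surjective p
      obtain ⟨⟨k, l⟩, rfl⟩ := e4.surjective q
      rw [hcols, hc']
      simp [Matrix.mul_apply, Matrix.single_apply, Matrix.kroneckerMap_apply, ite_and, Finset.sum_ite_eq]
    · exfalso
      have hform' : (d' : Matrix (Fin 4) (Fin 4) F) =
          ((A ⊗ₖ Bᵀ).submatrix id (Equiv.prodComm (Fin 2) (Fin 2))).submatrix e4.symm e4.symm := by
        ext p q
        obtain ⟨⟨i, j⟩, rfl⟩ := e4.surjective p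
        obtain ⟨⟨k, l⟩, rfl⟩ := e4.surjective q
        rw [hcols, hc']
        simp [Matrix.mul_apply, Matrix.single_apply, Matrix.kroneckerMap_apply, ite_and, Finset.sum_ite_eq]
      have hdd : (d : Matrix (Fin 4) (Fin 4) F).det = -(ν * ν) := by
        have h1 : (d' : Matrix (Fin 4) (Fin 4) F).det = (d : Matrix (Fin 4) (Fin 4) F).det := by
          rw [hd', Units.val_mul, Units.val_mul, Matrix.det_mul, Matrix.det_mul, mul_right_comm,
            ← Matrix.det_mul, Units.inv_mul, Matrix.det_one, one_mul]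
        rw [← h1, hform', Matrix.det_submatrix_equiv_self, Matrix.det_permute',
          show (Equiv.Perm.sign (Equiv.prodComm (Fin 2) (Fin 2)) : ℤˣ) = -1 by decide,
          Matrix.det_kronecker, Matrix.det_transpose, ← hνAB]
        simp
        ring
      have hdh := det_eq_one_of_mem_omega (hHΩ hh)
      rw [hcd, GeoClasses.det_conjMat, Matrix.det_kronecker, hdd] at hdh
      simp only [Fintype.card_fin] at hdh
      have hcdet : (c : Matrix (Fin 3) (Fin 3) F).det ^ 2 = μ ^ 3 := by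
        have h1 := congrArg Matrix.det hc
        rw [adjForm, show (c : Matrix (Fin 3) (Fin 3) F).map (RingEquiv.refl F)
          = (c : Matrix (Fin 3) (Fin 3) F) from rfl, Matrix.det_mul, Matrix.det_mul, Matrix.det_transpose,
          Matrix.det_smul, Fintype.card_fin] at h1
        exact mul_right_cancel₀ ((Matrix.isUnit_iff_isUnit_det J₁).1 hT.unit₁).ne_zero (by linear_combination h1)
      have h6 : (μ * ν) ^ 6 = -1 := by
        calc (μ * ν) ^ 6 = -((c : Matrix (Fin 3) (Fin 3) F).det ^ 4 * (-(ν * ν)) ^ 3) := by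
              rw [show (c : Matrix (Fin 3) (Fin 3) F).det ^ 4 = ((c : Matrix (Fin 3) (Fin 3) F).det ^ 2) ^ 2 by ring,
                hcdet]
              ring
          _ = -1 := by rw [hdh]
      rw [hμν, one_pow] at h6
      exact h2 (by linear_combination h6)
  let Ag : GL (Fin 2) F := Matrix.GeneralLinearGroup.mkOfDetNeZero A hA
  let Bg : GL (Fin 2) F := Matrix.GeneralLinearGroup.mkOfDetNeZero Bᵀ (by rwa [Matrix.det_transpose])
  refine ⟨Ag, Cfsg.Geo.glReindex e6 (GeoClasses.glKron c Bg), A.det, μ * B.det, ?_, ?_, ?_⟩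
  · have h1 : (h : Matrix ι ι F) = conjMat L₁ ((c : Matrix (Fin 3) (Fin 3) F) ⊗ₖ (d' : Matrix (Fin 4) (Fin 4) F)) := by
      rw [hL₁, GeoClasses.conjMat_coordMul, hcd]
      congr 1
      refine (GeoClasses.conjGL_eq_of_mul_eq ?_).symm
      rw [hVkval, ← Matrix.mul_kronecker_mul, ← Matrix.mul_kronecker_mul, one_mul, mul_one, ← hVg,
        ← Units.val_mul, show Vg * d' = d * Vg by rw [hd']; group, Units.val_mul]
    rw [h1, hform, ← GeoClasses.conjMat_coordPerm L₁ e26, hkron]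
    rfl
  · exact GeoClasses.altTwo_adj A
  · show adjForm (RingEquiv.refl F) J₂'
      (((c : Matrix (Fin 3) (Fin 3) F) ⊗ₖ Bᵀ).submatrix e6.symm e6.symm) = (μ * B.det) • J₂'
    have hs : ∀ X Y : Matrix (Fin 3 × Fin 2) (Fin 3 × Fin 2) F,
        adjForm (RingEquiv.refl F) (X.submatrix e6.symm e6.symm) (Y.submatrix e6.symm e6.symm)
          = (adjForm (RingEquiv.refl F) X Y).submatrix e6.symm e6.symm := fun X Y => by
      simp [adjForm, Matrix.transpose_submatrix, Matrix.submatrix_map, Matrix.submatrix_mul_equiv]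
    have hc' : adjForm (RingEquiv.refl F) J₁ (c : Matrix (Fin 3) (Fin 3) F) = μ • J₁ := hc
    have hB2 : adjForm (RingEquiv.refl F) (GeoClasses.altTwo F) Bᵀ = B.det • GeoClasses.altTwo F := by
      rw [← Matrix.det_transpose B]
      exact GeoClasses.altTwo_adj Bᵀ
    rw [hJ₂', hs, GeoClasses.adjForm_kronecker, hc', hB2, Matrix.smul_kronecker, Matrix.kronecker_smul, smul_smul]
    rfl

end ThreeFour

end Cfsg.Agent.OrthMax
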