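import Cfsg.Agent.OrthMax.Basics
import Cfsg.Agent.GeoClasses.OrthOdd
import Cfsg.Agent.MaxSub.LinearClasses
import Cfsg.Agent.MaxSub.FormTools

/-!
The maximal subgroups of `Ω_{2m+1}(q)` for `q` odd and `m ≥ 3`.
-/

set_option autoImplicit false
set_option linter.style.haveILetI false
set_option linter.unusedSectionVars false

namespace Cfsg.Agent.OrthMax

open Matrix Cfsg.Geo QuadraticMap Module
open Cfsg.Agent.Classical (OQ BNondeg)
open Cfsg.Agent.GeoClasses (OddIx)
open Cfsg.Agent.ClassicalMax (eq_inf_max)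
open scoped MatrixGroups Matrix

variable {F : Type*} [Field F] [Fintype F] {m : ℕ}

/-- An orthogonal basis of one value in a three-space over three elements. -/
theorem exists_value_triple {ι : Type} [Fintype ι] [DecidableEq ι] {Q : QuadraticForm F (ι → F)}
    (h3 : Fintype.card F = 3) (h2 : (2 : F) ≠ 0) {W : Submodule F (ι → F)}
    (hW : IsNondegenerateOn (polar ⇑Q) W) (hd : finrank F W = 3) :
    ∃ v : Fin 3 → (ι → F), ∃ c : F, c ≠ 0 ∧ (∀ i, v i ∈ W) ∧ (∀ i, Q (v i) = c) ∧
      (∀ i j, i ≠ j → polar Q (v i) (v j) = 0) ∧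
      ∀ w ∈ W, Q w = c → ∃ i, ∃ s : F, w = s • v i := by
  classical
  haveI : Invertible (2 : F) := invertibleOfNonzero h2
  let B : LinearMap.BilinForm F W := (polarBilin Q).compl₁₂ W.subtype W.subtype
  have hB : LinearMap.IsSymm B := ⟨fun x y => polar_comm Q _ _⟩
  obtain ⟨b₀, hb₀'⟩ := LinearMap.BilinForm.exists_orthogonal_basis hB
  have hb₀ : ∀ {i j}, i ≠ j → polar Q (b₀ i : ι → F) (b₀ j : ι → F) = 0 := fun h => hb₀' h
  obtain ⟨b, horth, hne⟩ : ∃ b : Basis (Fin 3) F W, (∀ i j, i ≠ j → polar Q (b i : ι → F) (b j : ι → F) = 0) ∧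
      ∀ i, Q (b i : ι → F) ≠ 0 := by
    refine ⟨b₀.reindex (finCongr hd), fun i j hij => ?_, fun i h0 => ?_⟩
    · rw [Basis.reindex_apply, Basis.reindex_apply]
      exact hb₀ (fun h => hij ((finCongr hd).symm.injective h))
    · rw [Basis.reindex_apply] at h0
      set k := (finCongr hd).symm i
      obtain ⟨⟨x, hx, hne⟩, -⟩ := hW (b₀ k : ι → F) (b₀ k).2
        fun h => b₀.ne_zero k (Subtype.ext h)
      apply hne
      have : ∀ w : W, polar Q (w : ι → F) (b₀ k : ι → F) = 0 := by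
        intro w
        rw [← b₀.sum_repr w]
        push_cast
        show polarBilin Q _ _ = 0
        rw [map_sum, LinearMap.sum_apply]
        refine Finset.sum_eq_zero fun l _ => ?_
        rw [map_smul, LinearMap.smul_apply, polarBilin_apply_apply]
        by_cases hl : l = k
        · rw [hl, OrthGen.polar_self_two, h0, mul_zero, smul_zero]
        · rw [show polar Q (b₀ l : ι → F) (b₀ k : ι → F) = 0 from hb₀ hl, smul_zero]
      exact this ⟨x, hx⟩
  set u : Fin 3 → (ι → F) := fun i => (b i : ι → F) with hu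
  have hsq : ∀ x : F, x ≠ 0 → x * x = 1 := fun x hx => sq_eq_one_of_three h3 hx
  have hpm : ∀ i j, Q (u i) = Q (u j) ∨ Q (u i) = -Q (u j) := fun i j =>
    mul_self_eq_mul_self_iff.1 (by rw [hsq _ (hne i), hsq _ (hne j)])
  have h30 : (3 : F) = 0 := by
    have := Nat.cast_card_eq_zero F
    rw [h3] at this
    exact_mod_cast this
  -- same value on all three
  obtain ⟨v, c, hc, hvW, hv, hvo⟩ : ∃ v : Fin 3 → (ι → F), ∃ c : F, c ≠ 0 ∧ (∀ i, v i ∈ W) ∧
      (∀ i, Q (v i) = c) ∧ ∀ i j, i ≠ j → polar Q (v i) (v j) = 0 := by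
    by_cases hall : ∀ i, Q (u i) = Q (u 0)
    · exact ⟨u, Q (u 0), hne 0, fun i => (b i).2, hall, horth⟩
    obtain ⟨i, j, k, hij, hjk, hik, hQij, hQk⟩ : ∃ i j k : Fin 3, i ≠ j ∧ j ≠ k ∧ i ≠ k ∧
        Q (u i) = Q (u j) ∧ Q (u k) = -Q (u i) := by
      rcases hpm 1 0 with h1 | h1 <;> rcases hpm 2 0 with h2' | h2'
      · exact absurd (fun i => by fin_cases i <;> first | rfl | exact h1 | exact h2') hall
      · exact ⟨0, 1, 2, by decide, by decide, by decide, h1.symm, h2'⟩
      · exact ⟨0, 2, 1, by decide, by decide, by decide, h2'.symm, h1⟩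
      · exact ⟨1, 2, 0, by decide, by decide, by decide, h1.trans h2'.symm, by rw [h1, neg_neg]⟩
    have hij' : polar Q (u i) (u j) = 0 := horth i j hij
    refine ⟨![u i + u j, u i - u j, u k], -Q (u i), neg_ne_zero.2 (hne i), fun l => ?_, fun l => ?_,
      fun l l' hll => ?_⟩
    · fin_cases l
      exacts [W.add_mem (b i).2 (b j).2, W.sub_mem (b i).2 (b j).2, (b k).2]
    · fin_cases l
      · show Q (u i + u j) = _
        rw [Classical.qf_add, hij', ← hQij]
        linear_combination Q (u i) * h30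
      · show Q (u i - u j) = _
        rw [Classical.qf_sub, hij', ← hQij]
        linear_combination Q (u i) * h30
      · exact hQk
    · have e1 : polar Q (u i + u j) (u i - u j) = 0 := by
        rw [polar_add_left, polar_sub_right, polar_sub_right, polar_comm Q (u j) (u i), hij',
          OrthGen.polar_self_two, OrthGen.polar_self_two, ← hQij]
        ring
      have e2 : polar Q (u i + u j) (u k) = 0 := by
        rw [polar_add_left, horth i k hik, horth j k hjk, add_zero]
      have e3 : polar Q (u i - u j) (u k) = 0 := by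
        rw [polar_sub_left, horth i k hik, horth j k hjk, sub_zero]
      fin_cases l <;> fin_cases l' <;>
        first | exact absurd rfl hll | exact e1 | exact e2 | exact e3 |
          (rw [polar_comm]; first | exact e1 | exact e2 | exact e3)
  refine ⟨v, c, hc, hvW, hv, hvo, fun w hw hQw => ?_⟩
  have hli : LinearIndependent F v := by
    rw [Fintype.linearIndependent_iff]
    intro g hg i
    have h := congrArg (polarBilin Q (v i)) hg
    rw [map_sum, map_zero, Finset.sum_eq_single i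
      (fun j _ hj => by rw [map_smul, polarBilin_apply_apply, hvo i j (Ne.symm hj), smul_zero])
      (fun h => absurd (Finset.mem_univ i) h), map_smul, polarBilin_apply_apply, OrthGen.polar_self_two,
      hv, smul_eq_mul] at h
    exact (mul_eq_zero.1 h).resolve_right (mul_ne_zero h2 hc)
  have hspan : Submodule.span F (Set.range v) = W := by
    refine Submodule.eq_of_le_of_finrank_eq (Submodule.span_le.2 ?_) ?_
    · rintro _ ⟨i, rfl⟩; exact hvW i
    · rw [finrank_span_eq_card hli, Fintype.card_fin, hd]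
  rw [← hspan, Submodule.mem_span_range_iff_exists_fun] at hw
  obtain ⟨x, rfl⟩ := hw
  rw [Fin.sum_univ_three] at hQw
  have hq : x 0 * x 0 + x 1 * x 1 + x 2 * x 2 = 1 := by
    simp only [Classical.qf_add, QuadraticMap.map_smul, polar_add_left, polar_smul_left, polar_smul_right,
      hv, hvo 0 1 (by decide), hvo 0 2 (by decide), hvo 1 2 (by decide), smul_eq_mul, mul_zero, add_zero] at hQw
    exact mul_right_cancel₀ hc (by linear_combination hQw)
  rw [Fin.sum_univ_three]
  rcases eq_or_ne (x 0) 0 with h0 | h0 <;> rcases eq_or_ne (x 1) 0 with h1 | h1 <;>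
    rcases eq_or_ne (x 2) 0 with h2' | h2'
  · simp [h0, h1, h2'] at hq
  · exact ⟨2, x 2, by simp [h0, h1]⟩
  · exact ⟨1, x 1, by simp [h0, h2']⟩
  · rw [h0, hsq _ h1, hsq _ h2'] at hq
    exact absurd (by linear_combination hq : (1 : F) = 0) one_ne_zero
  · exact ⟨0, x 0, by simp [h1, h2']⟩
  · rw [h1, hsq _ h0, hsq _ h2'] at hq
    exact absurd (by linear_combination hq : (1 : F) = 0) one_ne_zero
  · rw [h2', hsq _ h0, hsq _ h1] at hq
    exact absurd (by linear_combination hq : (1 : F) = 0) one_ne_zero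
  · rw [hsq _ h0, hsq _ h1, hsq _ h2'] at hq
    exact absurd (by linear_combination h30 - hq : (1 : F) = 0) one_ne_zero

/-- Over three elements, decompositions into three-spaces refine to frames. -/
theorem exists_frame_of_three_spaces {ι : Type} [Fintype ι] [DecidableEq ι] {Q : QuadraticForm F (ι → F)}
    (h3 : Fintype.card F = 3) (h2 : (2 : F) ≠ 0) {t : ℕ} {D : Fin t → Submodule F (ι → F)}
    (hD : IsOrthogonalMDecomposition ⇑Q 3 D) :
    ∃ E : Fin (t * 3) → Submodule F (ι → F), IsOrthogonalMDecomposition ⇑Q 1 E ∧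
      decompositionStabilizer D ⊓ Cfsg.isometryGroup F ⇑Q ≤ decompositionStabilizer E := by
  classical
  have ht := hD.decomp.decomp.two_le
  set i₀ : Fin t := ⟨0, by omega⟩
  obtain ⟨v₀, c, hc, hv₀W, hv₀, hv₀o, huniq⟩ :=
    exists_value_triple h3 h2 (hD.decomp.nondegenerate i₀) (hD.decomp.decomp.finrank_eq i₀)
  choose e he using fun i => hD.isometric i₀ i
  let w₀ : Fin t → Fin 3 → (ι → F) := fun i a => ((e i ⟨v₀ a, hv₀W a⟩ : D i) : ι → F)
  let v : Fin (t * 3) → (ι → F) := fun k => w₀ (finProdFinEquiv.symm k).1 (finProdFinEquiv.symm k).2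
  have hv : ∀ k, Q (v k) = c := fun k => (he _ _).trans (hv₀ _)
  have horth : ∀ k l, k ≠ l → polar Q (v k) (v l) = 0 := by
    intro k l hkl
    obtain ⟨⟨i, a⟩, rfl⟩ := finProdFinEquiv.surjective k
    obtain ⟨⟨j, b⟩, rfl⟩ := finProdFinEquiv.surjective l
    simp only [v]
    rw [Equiv.symm_apply_apply, Equiv.symm_apply_apply]
    simp only [w₀]
    by_cases hij : i = j
    · subst hij
      rw [areIsometric_polar (e i) (he i)]
      exact hv₀o a b fun h => hkl (by rw [h])
    · exact hD.decomp.orthogonal i j hij _ (Submodule.coe_mem _) _ (Submodule.coe_mem _)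
  have hcard : t * 3 = Fintype.card ι := (MaxSub.mul_eq_card_of_isMDecomposition hD.decomp.decomp)
  have hE := isOrthogonalMDecomposition_frame h2 (by omega) hcard hc hv horth
  refine ⟨_, hE, ?_⟩
  rintro g ⟨⟨σ, hσ⟩, hg⟩
  refine mem_frame_stabilizer hE.decomp.decomp fun k => ?_
  set i := (finProdFinEquiv.symm k).1
  have hmem : (g : Matrix ι ι F) *ᵥ v k ∈ D (σ i) := by
    rw [← hσ i]; exact ⟨v k, Submodule.coe_mem _, Matrix.toLin'_apply _ _⟩
  set w := (e (σ i)).symm ⟨_, hmem⟩ with hwdef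
  have hwQ : Q (w : ι → F) = c := by
    rw [← he (σ i) w, hwdef, LinearEquiv.apply_symm_apply]
    exact (isometry_apply hg _).trans (hv k)
  obtain ⟨l, s, hls⟩ := huniq w w.2 hwQ
  refine ⟨finProdFinEquiv (σ i, l), s, ?_⟩
  have h1 : w = s • ⟨v₀ l, hv₀W l⟩ := Subtype.ext hls
  have h2' := congrArg (fun x : D (σ i) => (x : ι → F)) (congrArg (e (σ i)) h1)
  rw [hwdef, LinearEquiv.apply_symm_apply, map_smul] at h2'
  show (g : Matrix ι ι F) *ᵥ v k = s • w₀ (finProdFinEquiv.symm (finProdFinEquiv (σ i, l))).1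
    (finProdFinEquiv.symm (finProdFinEquiv (σ i, l))).2
  rw [Equiv.symm_apply_apply]
  exact h2'

set_option maxHeartbeats 2000000 in
/-- The maximal subgroups of `Ω_{2m+1}(q)`. -/
theorem odd_cases (hm : 3 ≤ m) (hodd : Odd (Fintype.card F))
    {H : Subgroup (GL (OddIx m) F)} (hH : IsMaximalIn (omegaGL (Cfsg.quadFormOdd m F)) H) :
    (∃ W : Submodule F (OddIx m → F), W ≠ ⊥ ∧ IsTotallySingularQuad (Cfsg.quadFormOdd m F) W ∧
      H = subspaceStabilizer W ⊓ omegaGL (Cfsg.quadFormOdd m F)) ∨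
    (∃ W : Submodule F (OddIx m → F), W ≠ ⊥ ∧ Even (Module.finrank F W) ∧
      IsNondegenerateOn (QuadraticMap.polar (Cfsg.quadFormOdd m F)) W ∧
      ¬ (Fintype.card F = 3 ∧ Module.finrank F W = 2 ∧ IsPlusTypeOn (Cfsg.quadFormOdd m F) W) ∧
      H = subspaceStabilizer W ⊓ omegaGL (Cfsg.quadFormOdd m F)) ∨
    ((Fintype.card F).Prime ∧ ∃ D : Fin (2 * m + 1) → Submodule F (OddIx m → F),
      IsOrthogonalMDecomposition (Cfsg.quadFormOdd m F) 1 D ∧
      H = decompositionStabilizer D ⊓ omegaGL (Cfsg.quadFormOdd m F)) ∨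
    (∃ (t k : ℕ) (D : Fin t → Submodule F (OddIx m → F)), 1 < k ∧ t * k = 2 * m + 1 ∧
      ¬ (Fintype.card F = 3 ∧ k = 3) ∧ IsOrthogonalMDecomposition (Cfsg.quadFormOdd m F) k D ∧
      H = decompositionStabilizer D ⊓ omegaGL (Cfsg.quadFormOdd m F)) ∨
    (∃ (r : ℕ) (K : Subalgebra F (Matrix (OddIx m) (OddIx m) F)), r.Prime ∧ r ≠ 2 * m + 1 ∧
      r ∣ 2 * m + 1 ∧ IsFieldSubalgebra r K ∧
      IsSelfAdjointFor (QuadraticMap.polar (Cfsg.quadFormOdd m F)) K ∧
      H = subalgebraNormalizer K ⊓ omegaGL (Cfsg.quadFormOdd m F)) ∨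
    (∃ (n₁ n₂ : ℕ), 3 ≤ n₁ ∧ n₁ < n₂ ∧ n₁ * n₂ = 2 * m + 1) ∨
    (∃ (F₀ : Subfield F) (r : ℕ) (P : GL (OddIx m) F), r.Prime ∧ Fintype.card F = Nat.card F₀ ^ r ∧
      IsQuadFormRationalStructure (Cfsg.quadFormOdd m F) F₀ P ∧
      H = subfieldSubgroup F₀ P ⊓ omegaGL (Cfsg.quadFormOdd m F)) ∨
    (∃ (k t : ℕ) (e : (OddIx m) ≃ (Fin t → Fin k)) (P : GL (OddIx m) F) (f₁ : (Fin k → F) → (Fin k → F) → F),
      3 ≤ k ∧ 2 ≤ t ∧ ¬ (Fintype.card F = 3 ∧ k = 3) ∧ k ^ t = 2 * m + 1 ∧ IsSymmetricForm f₁ ∧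
      IsTensorPowerFormStructure id (QuadraticMap.polar (Cfsg.quadFormOdd m F)) f₁ e P ∧
      H ≤ tensorWreathSubgroup k t e P ∧
      (t ≤ 3 → H = tensorWreathSubgroup k t e P ⊓ omegaGL (Cfsg.quadFormOdd m F))) ∨
    InOrthogonalResidualClass H := by
  classical
  have h2 : (2 : F) ≠ 0 := GeoClasses.two_ne_zero_iff_odd_card.2 hodd
  have hcardI : Fintype.card (OddIx m) = 2 * m + 1 := GeoClasses.card_oddIx
  have hQ' := NotMax.nondegenerate_quadFormOdd (F := F) (m := m) h2
  have hdich := GeoClasses.orthogonal_odd_dichotomy (m := m) (by omega) h2 hH.1.le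
  obtain ⟨Q, hB, hfun⟩ : ∃ Q : QuadraticForm F (OddIx m → F), BNondeg Q ∧ ⇑Q = Cfsg.quadFormOdd m F :=
    ⟨GeoClasses.toQF hQ', GeoClasses.bNondeg_toQF hQ', rfl⟩
  simp only [InOrthogonalOddClass, ← hfun] at hdich
  rw [← hfun] at hH ⊢
  have hn7 : 7 ≤ Fintype.card (OddIx m) := by omega
  have hn5 : 5 ≤ Fintype.card (OddIx m) := by omega
  have hHiso : H ≤ Cfsg.isometryGroup F ⇑Q := hH.1.le.trans omega_le_isometry
  -- a non-degenerate subspace gives the second type
  have hnondeg : ∀ W : Submodule F (OddIx m → F), W ≠ ⊥ → W ≠ ⊤ → IsNondegenerateOn (polar ⇑Q) W →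
      H ≤ subspaceStabilizer W →
      ∃ W : Submodule F (OddIx m → F), W ≠ ⊥ ∧ Even (Module.finrank F W) ∧
        IsNondegenerateOn (polar ⇑Q) W ∧
        ¬ (Fintype.card F = 3 ∧ Module.finrank F W = 2 ∧ IsPlusTypeOn ⇑Q W) ∧
        H = subspaceStabilizer W ⊓ omegaGL ⇑Q := by
    intro W hb ht hW hle
    obtain ⟨E, hEb, hEt, hEeven, hE, hleE⟩ : ∃ E : Submodule F (OddIx m → F), E ≠ ⊥ ∧ E ≠ ⊤ ∧
        Even (finrank F E) ∧ IsNondegenerateOn (polar ⇑Q) E ∧ H ≤ subspaceStabilizer E := by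
      rcases Nat.even_or_odd (finrank F W) with he | ho
      · exact ⟨W, hb, ht, he, hW, hle⟩
      · have hd := finrank_perp_add hB W
        have hlt : finrank F W < 2 * m + 1 := by
          have := Submodule.finrank_lt ht
          rwa [Module.finrank_fintype_fun_eq_card, hcardI] at this
        refine ⟨OrthGen.perpSub Q W, fun h => ?_, fun h => ?_, ?_, isNondegenerateOn_perp hB hW,
          (le_inf hle hHiso).trans (stabilizer_le_stabilizer_perp W)⟩
        · rw [h, finrank_bot] at hd; omega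
        · rw [h, finrank_top, Module.finrank_fintype_fun_eq_card] at hd
          exact hb (Submodule.finrank_eq_zero.mp (by omega))
        · obtain ⟨j, hj⟩ := ho
          exact ⟨m - j, by omega⟩
    by_cases hexc : Fintype.card F = 3 ∧ finrank F E = 2 ∧ IsPlusTypeOn ⇑Q E
    · obtain ⟨a, -, ha, hlea⟩ := exists_point_of_plus_small (by omega) hE hexc.2.1 hexc.2.2
      have hQa : Q a ≠ 0 := by rw [ha]; exact one_ne_zero
      have ha0 : a ≠ 0 := fun h => hQa (by rw [h, QuadraticMap.map_zero])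
      have hA := isNondegenerateOn_singleton h2 hQa
      have hd := finrank_perp_add hB (F ∙ a)
      rw [finrank_span_singleton ha0] at hd
      refine ⟨OrthGen.perpSub Q (F ∙ a), fun h => ?_, ⟨m, by omega⟩, isNondegenerateOn_perp hB hA,
        fun h => by omega, ?_⟩
      · rw [h, finrank_bot] at hd; omega
      · refine eq_inf_max hH ((le_inf ((le_inf hleE hHiso).trans hlea) hHiso).trans
          (stabilizer_le_stabilizer_perp _)) ?_
        refine omega_not_le_stabilizer hB hn5 (fun h => ?_) (fun h => ?_)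
        · rw [h, finrank_bot] at hd; omega
        · rw [h, finrank_top, Module.finrank_fintype_fun_eq_card] at hd; omega
    · exact ⟨E, hEb, hEeven, hE, hexc, eq_inf_max hH hleE (omega_not_le_stabilizer hB hn5 hEb hEt)⟩
  rcases hdich with ⟨M, hM, hle⟩ | hres
  swap
  · iterate 8 right
    exact hres
  rcases hM with ⟨W, hb, hts, rfl⟩ | ⟨W, hb, ht, hnd, rfl⟩ | ⟨t, k, D, hk, hD, rfl⟩ | ⟨t, D, hp, hD, rfl⟩ |
    ⟨r, K, hr, hrn, hK, hsa, rfl⟩ | ⟨n₁, n₂, e, P, f₁, f₂, h1, h12, -, -, -, rfl⟩ |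
    ⟨F₀, r, P, hr, hc, hrat, rfl⟩ | ⟨k, t, e, P, f₁, hk, ht, hkq, hf₁, hst, rfl⟩
  · refine Or.inl ⟨W, hb, hts, eq_inf_max hH (hle.trans inf_le_left)
      (omega_not_le_stabilizer hB hn5 hb fun h => ?_)⟩
    have := hts (Pi.single (.inl ()) 1) (h ▸ Submodule.mem_top)
    rw [hfun] at this
    simp [Cfsg.quadFormOdd] at this
  · exact Or.inr <| Or.inl <| hnondeg W hb ht hnd (hle.trans inf_le_left)
  · have htk := MaxSub.mul_eq_card_of_isMDecomposition hD.decomp.decomp
    rw [hcardI] at htk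
    by_cases h33 : Fintype.card F = 3 ∧ k = 3
    · obtain ⟨h3, rfl⟩ := h33
      obtain ⟨E, hE, hDE⟩ := exists_frame_of_three_spaces h3 h2 hD
      right; right; left
      have hE' := hle.trans hDE
      generalize hN : t * 3 = N at E hE hE'
      obtain rfl : N = 2 * m + 1 := hN.symm.trans htk
      exact ⟨by rw [h3]; norm_num, E, hE, eq_inf_max hH hE'
        (omega_not_le_decompositionStabilizer hB hn7 hE.decomp.decomp)⟩
    · exact Or.inr <| Or.inr <| Or.inr <| Or.inl ⟨t, k, D, hk, htk, h33, hD, eq_inf_max hH (hle.trans inf_le_left)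
        (omega_not_le_decompositionStabilizer hB hn7 hD.decomp.decomp)⟩
  · right; right; left
    have ht : t = 2 * m + 1 := by
      have := MaxSub.mul_eq_card_of_isMDecomposition hD.decomp.decomp
      rwa [hcardI, mul_one] at this
    subst ht
    exact ⟨hp, D, hD, eq_inf_max hH (hle.trans inf_le_left)
      (omega_not_le_decompositionStabilizer hB hn7 hD.decomp.decomp)⟩
  · have := MaxSub.degree_dvd_card hK
    rw [hcardI] at this
    exact Or.inr <| Or.inr <| Or.inr <| Or.inr <| Or.inl ⟨r, K, hr, Ne.symm hrn, this, hK, hsa,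
      eq_inf_max hH (hle.trans inf_le_left) (omega_not_le_subalgebraNormalizer hB hn7 hr.one_lt hK)⟩
  · have := Fintype.card_congr e
    rw [hcardI, Fintype.card_prod, Fintype.card_fin, Fintype.card_fin] at this
    exact Or.inr <| Or.inr <| Or.inr <| Or.inr <| Or.inr <| Or.inl ⟨n₁, n₂, h1, h12, this.symm⟩
  · iterate 6 right
    exact Or.inl ⟨F₀, r, P, hr, hc, hrat, eq_inf_max hH (hle.trans inf_le_left)
      (omega_not_le_subfieldSubgroup hB hn7 (MaxSub.subfield_ne_top hr hc) P)⟩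
  · iterate 7 right
    have hcard := Fintype.card_congr e
    rw [hcardI, Fintype.card_fun, Fintype.card_fin, Fintype.card_fin] at hcard
    refine Or.inl ⟨k, t, e, P, f₁, hk, ht, hkq, hcard.symm, hf₁, hst, hle.trans inf_le_left, fun ht3 => ?_⟩
    refine eq_inf_max hH (hle.trans inf_le_left) fun hcon => ?_
    obtain ⟨e', he'⟩ := MaxSub.exists_tensorProduct_of_perfect (by omega : t = 2 ∨ t = 3) e P
      (omega_perfect hB hn7) hcon
    refine omega_not_le_tensorProductSubgroup hB hn5 (by omega) ?_ e' P he'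
    exact hk.trans (Nat.le_self_pow (by omega) k)

end Cfsg.Agent.OrthMax
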