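import Cfsg.Agent.OrthMax.EvenDecomp
import Cfsg.Agent.OrthMax.EvenTensor
import Cfsg.Agent.OrthMax.EvenSympType
import Cfsg.Agent.OrthMax.EvenRational
import Cfsg.Agent.OrthMax.EvenFieldFive
import Cfsg.Agent.OrthMax.OddCases

/-!
Maximal subgroups of orthogonal groups in dimensions eight, ten and twelve: common reductions.
-/

set_option autoImplicit false
set_option linter.style.haveILetI false
set_option linter.unusedSectionVars false

namespace Cfsg.Agent.OrthMax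

open Matrix Cfsg.Geo QuadraticMap Module
open Cfsg.Agent.Classical (OQ BNondeg)
open Cfsg.Agent.GeoClasses (formOf IsTensorData StarClosed tensorVec)
open Cfsg.Agent.ClassicalMax (eq_inf_max)
open scoped MatrixGroups Matrix

variable {F : Type*} [Field F] [Fintype F] {ι : Type} [Fintype ι] [DecidableEq ι]
  {Q : QuadraticForm F (ι → F)} {H : Subgroup (GL ι F)}

theorem odd_card_iff : Odd (Fintype.card F) ↔ (2 : F) ≠ 0 :=
  GeoClasses.two_ne_zero_iff_odd_card.symm

theorem not_isSquare_neg_one (h : Fintype.card F % 4 = 3) : ¬ IsSquare (-1 : F) := fun hs =>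
  FiniteField.isSquare_neg_one_iff.1 hs h

theorem card_mod_four_of_square (h2 : (2 : F) ≠ 0) (h : IsSquare (-1 : F)) : Fintype.card F % 4 = 1 := by
  have h3 := FiniteField.isSquare_neg_one_iff.1 h
  obtain ⟨j, hj⟩ := odd_card_iff.2 h2
  omega

theorem card_mod_four_of_nonsquare (h : ¬ IsSquare (-1 : F)) : Fintype.card F % 4 = 3 := by
  rw [FiniteField.isSquare_neg_one_iff] at h
  omega

theorem finrank_top_eq : finrank F (⊤ : Submodule F (ι → F)) = Fintype.card ι := by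
  rw [finrank_top, Module.finrank_fintype_fun_eq_card]

theorem ts_bound (hB : BNondeg Q) {W : Submodule F (ι → F)} (hW : IsTotallySingularQuad ⇑Q W) :
    2 * finrank F W ≤ Fintype.card ι := by
  have h1 : W ≤ OrthGen.perpSub Q W := fun u hu n hn => polar_eq_zero_of_ts hW hn hu
  have h2 := Submodule.finrank_mono h1
  have h3 := finrank_perp_add hB W
  omega

theorem eq_stabilizer (hB : BNondeg Q) (hn : 5 ≤ Fintype.card ι) (hH : IsMaximalIn (omegaGL ⇑Q) H)
    {W : Submodule F (ι → F)} (hb : W ≠ ⊥) (hd : finrank F W < Fintype.card ι)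
    (hle : H ≤ subspaceStabilizer W) : H = subspaceStabilizer W ⊓ omegaGL ⇑Q :=
  eq_inf_max hH hle (omega_not_le_stabilizer hB hn hb fun h => by rw [h, finrank_top_eq] at hd; omega)

theorem ne_bot_of_finrank {W : Submodule F (ι → F)} {d : ℕ} (hd : finrank F W = d) (h0 : d ≠ 0) : W ≠ ⊥ :=
  fun h => h0 (by rw [← hd, h, finrank_bot])

/-- A singular subspace, one dimension `m - 1` avoided. -/
theorem ts_case (hB : BNondeg Q) (hn : 5 ≤ Fintype.card ι) (hH : IsMaximalIn (omegaGL ⇑Q) H)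
    {W : Submodule F (ι → F)} (hb : W ≠ ⊥) (hW : IsTotallySingularQuad ⇑Q W) (hle : H ≤ subspaceStabilizer W) :
    ∃ W : Submodule F (ι → F), W ≠ ⊥ ∧ IsTotallySingularQuad ⇑Q W ∧
      H = subspaceStabilizer W ⊓ omegaGL ⇑Q :=
  ⟨W, hb, hW, eq_stabilizer hB hn hH hb (by have := ts_bound hB hW; omega) hle⟩

theorem ts_case_plus (hB : BNondeg Q) (hn : 5 ≤ Fintype.card ι) (hH : IsMaximalIn (omegaGL ⇑Q) H)
    (hplus : IsPlusTypeOn ⇑Q ⊤) {m : ℕ} (hm : Fintype.card ι = 2 * (m + 1))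
    {W : Submodule F (ι → F)} (hb : W ≠ ⊥) (hW : IsTotallySingularQuad ⇑Q W) (hle : H ≤ subspaceStabilizer W) :
    ∃ W : Submodule F (ι → F), W ≠ ⊥ ∧ IsTotallySingularQuad ⇑Q W ∧ finrank F W ≠ m ∧
      H = subspaceStabilizer W ⊓ omegaGL ⇑Q := by
  by_cases hd : finrank F W = m
  · obtain ⟨U, hUb, hU, hUd, hleU⟩ := submaximal_le hB hn hplus hW (by rw [hd, hm])
    exact ⟨U, hUb, hU, by omega,
      eq_stabilizer hB hn hH hUb (by omega) ((le_inf hle hH.1.le).trans hleU)⟩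
  · exact ⟨W, hb, hW, hd, eq_stabilizer hB hn hH hb (by have := ts_bound hB hW; omega) hle⟩

/-- A non-degenerate subspace of odd dimension different from the half. -/
theorem odd_nondeg_case (hB : BNondeg Q) (hn : 5 ≤ Fintype.card ι) (hH : IsMaximalIn (omegaGL ⇑Q) H)
    {W : Submodule F (ι → F)} (ho : Odd (finrank F W)) (hd : 2 * finrank F W < Fintype.card ι)
    (hW : IsNondegenerateOn (polar ⇑Q) W) (hle : H ≤ subspaceStabilizer W) :
    Odd (Fintype.card F) ∧ ∃ W : Submodule F (ι → F), W ≠ ⊥ ∧ W ≠ ⊤ ∧ Odd (finrank F W) ∧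
      2 * finrank F W ≠ Fintype.card ι ∧ IsNondegenerateOn (polar ⇑Q) W ∧
      H = subspaceStabilizer W ⊓ omegaGL ⇑Q := by
  have hb : W ≠ ⊥ := fun h => by rw [h, finrank_bot] at ho; exact Nat.not_odd_zero ho
  refine ⟨odd_card_iff.2 (two_ne_zero_of_odd hW ho), W, hb, fun h => ?_, ho, by omega, hW,
    eq_stabilizer hB hn hH hb (by omega) hle⟩
  rw [h, finrank_top_eq] at hd
  omega

/-- A point in characteristic two. -/
theorem point_case (hB : BNondeg Q) (hn : 5 ≤ Fintype.card ι) (hH : IsMaximalIn (omegaGL ⇑Q) H)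
    (h2 : (2 : F) = 0) {v : ι → F} (hv : Q v ≠ 0) (hle : H ≤ subspaceStabilizer (Submodule.span F {v})) :
    ¬ Odd (Fintype.card F) ∧ ∃ v : ι → F, Q v ≠ 0 ∧
      H = subspaceStabilizer (Submodule.span F {v}) ⊓ omegaGL ⇑Q := by
  have hv0 : v ≠ 0 := fun h => hv (by rw [h, QuadraticMap.map_zero])
  refine ⟨fun h => odd_card_iff.1 h h2, v, hv, eq_stabilizer hB hn hH ?_ ?_ hle⟩
  · exact ne_bot_of_finrank (finrank_span_singleton hv0) one_ne_zero
  · rw [finrank_span_singleton hv0]; omega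

/-- A non-degenerate plane. -/
theorem plane_case (hB : BNondeg Q) (hn : 5 ≤ Fintype.card ι) (hH : IsMaximalIn (omegaGL ⇑Q) H)
    {W : Submodule F (ι → F)} (hd : finrank F W = 2) (hW : IsNondegenerateOn (polar ⇑Q) W)
    (hle : H ≤ subspaceStabilizer W) :
    (∃ W : Submodule F (ι → F), finrank F W = 2 ∧ IsNondegenerateOn (polar ⇑Q) W ∧ ¬ IsPlusTypeOn ⇑Q W ∧
      H = subspaceStabilizer W ⊓ omegaGL ⇑Q) ∨
    (4 ≤ Fintype.card F ∧ ∃ W : Submodule F (ι → F), finrank F W = 2 ∧ IsNondegenerateOn (polar ⇑Q) W ∧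
      IsPlusTypeOn ⇑Q W ∧ H = subspaceStabilizer W ⊓ omegaGL ⇑Q) ∨
    (¬ Odd (Fintype.card F) ∧ ∃ v : ι → F, Q v ≠ 0 ∧
      H = subspaceStabilizer (Submodule.span F {v}) ⊓ omegaGL ⇑Q) ∨
    (Odd (Fintype.card F) ∧ ∃ W : Submodule F (ι → F), W ≠ ⊥ ∧ W ≠ ⊤ ∧ Odd (finrank F W) ∧
      2 * finrank F W ≠ Fintype.card ι ∧ IsNondegenerateOn (polar ⇑Q) W ∧
      H = subspaceStabilizer W ⊓ omegaGL ⇑Q) := by
  have heq := eq_stabilizer hB hn hH (ne_bot_of_finrank hd two_ne_zero) (by omega) hle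
  by_cases hp : IsPlusTypeOn ⇑Q W
  · by_cases hq : 4 ≤ Fintype.card F
    · exact Or.inr (Or.inl ⟨hq, W, hd, hW, hp, heq⟩)
    · obtain ⟨a, -, ha, hlea⟩ := exists_point_of_plus_small (by omega) hW hd hp
      have hQa : Q a ≠ 0 := by rw [ha]; exact one_ne_zero
      have hle' : H ≤ subspaceStabilizer (Submodule.span F {a}) :=
        (le_inf hle (hH.1.le.trans omega_le_isometry)).trans hlea
      by_cases h2 : (2 : F) = 0
      · exact Or.inr (Or.inr (Or.inl (point_case hB hn hH h2 hQa hle')))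
      · have h1 := finrank_span_singleton (K := F) (show a ≠ 0 from fun h => hQa (by rw [h, QuadraticMap.map_zero]))
        refine Or.inr (Or.inr (Or.inr (odd_nondeg_case hB hn hH (W := Submodule.span F {a}) ?_ ?_
          (isNondegenerateOn_singleton h2 hQa) hle')))
        · rw [h1]; exact odd_one
        · rw [h1]; omega
  · exact Or.inl ⟨W, hd, hW, hp, heq⟩

/-- A non-degenerate half and its orthogonal. -/
theorem halves (hB : BNondeg Q) {W : Submodule F (ι → F)} (hW : IsNondegenerateOn (polar ⇑Q) W) {k : ℕ}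
    (hk : 0 < k) (hd : finrank F W = k) (hcard : Fintype.card ι = 2 * k)
    (hle : H ≤ subspaceStabilizer W) (hle' : H ≤ subspaceStabilizer (OrthGen.perpSub Q W)) :
    IsNondegenerateMDecomposition (polar ⇑Q) k ![W, OrthGen.perpSub Q W] ∧
      H ≤ decompositionStabilizer ![W, OrthGen.perpSub Q W] := by
  have hd' := finrank_perp_add hB W
  have hD : IsNondegenerateMDecomposition (polar ⇑Q) k ![W, OrthGen.perpSub Q W] := by
    refine decomp_of_orth le_rfl hk (fun i => ?_) (fun i => ?_) (fun i j hij => ?_) (by omega)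
    · fin_cases i
      · exact hd
      · show finrank F ↥(OrthGen.perpSub Q W) = k
        omega
    · fin_cases i
      exacts [hW, isNondegenerateOn_perp hB hW]
    · fin_cases i <;> fin_cases j
      · exact absurd rfl hij
      · exact areOrthogonal_perp
      · exact areOrthogonal_perp'
      · exact absurd rfl hij
  refine ⟨hD, fun g hg => mem_decompositionStabilizer_of hD.decomp fun i => ⟨i, fun x hx => ?_⟩⟩
  fin_cases i
  exacts [(GeoClasses.mem_subspaceStabilizer_iff.1 (hle hg) x).1 hx,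
    (GeoClasses.mem_subspaceStabilizer_iff.1 (hle' hg) x).1 hx]

theorem eq_decomposition (hB : BNondeg Q) (hn : 7 ≤ Fintype.card ι) (hH : IsMaximalIn (omegaGL ⇑Q) H)
    {t k : ℕ} {D : Fin t → Submodule F (ι → F)} (hD : IsMDecomposition k D) (hle : H ≤ decompositionStabilizer D) :
    H = decompositionStabilizer D ⊓ omegaGL ⇑Q :=
  eq_inf_max hH hle (omega_not_le_decompositionStabilizer hB hn hD)

theorem eq_normalizer (hB : BNondeg Q) (hn : 7 ≤ Fintype.card ι) (hH : IsMaximalIn (omegaGL ⇑Q) H)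
    {r : ℕ} (hr : r.Prime) {K : Subalgebra F (Matrix ι ι F)} (hK : IsFieldSubalgebra r K)
    (hle : H ≤ subalgebraNormalizer K) : H = subalgebraNormalizer K ⊓ omegaGL ⇑Q :=
  eq_inf_max hH hle (omega_not_le_subalgebraNormalizer hB hn hr.one_lt hK)

theorem ne_top_of_card {F₀ : Subfield F} {r : ℕ} (hr : r.Prime) (hcard : Fintype.card F = Nat.card F₀ ^ r) :
    F₀ ≠ ⊤ := by
  intro h
  subst h
  have h1 : Nat.card (⊤ : Subfield F) = Fintype.card F := by
    rw [← Nat.card_eq_fintype_card]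
    exact Nat.card_congr Subfield.topEquiv.toEquiv
  rw [h1] at hcard
  have hq : 1 < Fintype.card F := Fintype.one_lt_card
  have := Nat.pow_lt_pow_right hq hr.one_lt
  rw [pow_one] at this
  omega

theorem eq_subfield (hB : BNondeg Q) (hn : 7 ≤ Fintype.card ι) (hH : IsMaximalIn (omegaGL ⇑Q) H)
    (h : ∃ (F₀ : Subfield F) (r : ℕ) (P : GL ι F) (ζ : F), r.Prime ∧ Fintype.card F = Nat.card F₀ ^ r ∧ ζ ≠ 0 ∧
      IsQuadFormRationalStructure (fun v => ζ * Q v) F₀ P ∧ H ≤ subfieldSubgroup F₀ P) :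
    ∃ (F₀ : Subfield F) (r : ℕ) (P : GL ι F) (ζ : F), r.Prime ∧ Fintype.card F = Nat.card F₀ ^ r ∧ ζ ≠ 0 ∧
      IsQuadFormRationalStructure (fun v => ζ * Q v) F₀ P ∧ H = subfieldSubgroup F₀ P ⊓ omegaGL ⇑Q := by
  obtain ⟨F₀, r, P, ζ, hr, hcard, hζ, hrat, hle⟩ := h
  exact ⟨F₀, r, P, ζ, hr, hcard, hζ, hrat,
    eq_inf_max hH hle (omega_not_le_subfieldSubgroup hB hn (ne_top_of_card hr hcard) P)⟩

theorem eq_subfield_odd (hB : BNondeg Q) (hn : 7 ≤ Fintype.card ι) (he : Even (Fintype.card ι))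
    (hminus : ¬ IsPlusTypeOn ⇑Q ⊤) (hH : IsMaximalIn (omegaGL ⇑Q) H)
    (h : ∃ (F₀ : Subfield F) (r : ℕ) (P : GL ι F) (ζ : F), r.Prime ∧ Fintype.card F = Nat.card F₀ ^ r ∧ ζ ≠ 0 ∧
      IsQuadFormRationalStructure (fun v => ζ * Q v) F₀ P ∧ H ≤ subfieldSubgroup F₀ P) :
    ∃ (F₀ : Subfield F) (r : ℕ) (P : GL ι F) (ζ : F), r.Prime ∧ Odd r ∧ Fintype.card F = Nat.card F₀ ^ r ∧
      ζ ≠ 0 ∧ IsQuadFormRationalStructure (fun v => ζ * Q v) F₀ P ∧
      H = subfieldSubgroup F₀ P ⊓ omegaGL ⇑Q := by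
  obtain ⟨F₀, r, P, ζ, hr, hcard, hζ, hrat, heq⟩ := eq_subfield hB hn hH h
  exact ⟨F₀, r, P, ζ, hr, odd_index_of_minus hB he hminus hr hcard hζ hrat, hcard, hζ, hrat, heq⟩

/-- The irreducible outcomes in dimensions eight, ten and twelve. -/
theorem irreducible_cases (hB : BNondeg Q)
    (hn : Fintype.card ι = 8 ∨ Fintype.card ι = 10 ∨ Fintype.card ι = 12)
    (h8 : Fintype.card ι = 8 → ¬ IsPlusTypeOn ⇑Q ⊤) (hH : H ≤ omegaGL ⇑Q) :
    (∃ W : Submodule F (ι → F), W ≠ ⊥ ∧ IsTotallySingularQuad ⇑Q W ∧ H ≤ subspaceStabilizer W) ∨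
    ((2 : F) = 0 ∧ ∃ v : ι → F, Q v ≠ 0 ∧ H ≤ subspaceStabilizer (Submodule.span F {v})) ∨
    (∃ W : Submodule F (ι → F), 0 < finrank F W ∧ 2 * finrank F W ≤ Fintype.card ι ∧
      IsNondegenerateOn (polar ⇑Q) W ∧ H ≤ subspaceStabilizer W ∧
      H ≤ subspaceStabilizer (OrthGen.perpSub Q W)) ∨
    (∃ (t k : ℕ) (D : Fin t → Submodule F (ι → F)),
      IsOrthogonalMDecomposition ⇑Q k D ∧ H ≤ decompositionStabilizer D) ∨
    (∃ (k : ℕ) (D : Fin 2 → Submodule F (ι → F)), 2 * k = Fintype.card ι ∧ IsMDecomposition k D ∧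
      (∀ i, IsTotallySingularQuad ⇑Q (D i)) ∧ H ≤ decompositionStabilizer D ∧
      ∃ g ∈ H, (D 0).map (Matrix.toLin' (g : Matrix ι ι F)) = D 1) ∨
    (∃ (r : ℕ) (K : Subalgebra F (Matrix ι ι F)), r.Prime ∧ r ∣ Fintype.card ι ∧ IsFieldSubalgebra r K ∧
      StarClosed (RingEquiv.refl F) (polarMat Q) K ∧ H ≤ subalgebraNormalizer K ∧
      ActsIrreducibly (matrixSet H)) ∨
    (∃ (b : ℕ) (L : (Fin 2 × Fin b → F) ≃ₗ[F] (ι → F)) (J₁ : Matrix (Fin 2) (Fin 2) F)
      (J₂ : Matrix (Fin b) (Fin b) F), 2 * b = Fintype.card ι ∧ Even b ∧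
      IsTensorData (RingEquiv.refl F) (polarMat Q) 1 H L J₁ J₂ ∧
      J₁ᵀ = -J₁ ∧ (∀ i, J₁ i i = 0) ∧ J₂ᵀ = -J₂ ∧ (∀ i, J₂ i i = 0) ∧
      (∀ u w, Q (L (tensorVec u w)) = 0) ∧ IsPlusTypeOn ⇑Q ⊤) ∨
    (Fintype.card ι = 12 ∧ (2 : F) ≠ 0 ∧ 5 ≤ Fintype.card F ∧
      ∃ (L : (Fin 3 × Fin 4 → F) ≃ₗ[F] (ι → F)) (J₁ : Matrix (Fin 3) (Fin 3) F) (J₂ : Matrix (Fin 4) (Fin 4) F),
        IsTensorData (RingEquiv.refl F) (polarMat Q) 1 H L J₁ J₂ ∧ J₁ᵀ = J₁ ∧ J₂ᵀ = J₂ ∧
          ActsIrreducibly (matrixSet H)) ∨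
    InOrthogonalResidualClass H ∨
    (∃ (F₀ : Subfield F) (r : ℕ) (P : GL ι F) (ζ : F), r.Prime ∧ Fintype.card F = Nat.card F₀ ^ r ∧ ζ ≠ 0 ∧
      IsQuadFormRationalStructure (fun v => ζ * Q v) F₀ P ∧ H ≤ subfieldSubgroup F₀ P) := by
  have hHiso : H ≤ Cfsg.isometryGroup F ⇑Q := hH.trans omega_le_isometry
  have he : Even (Fintype.card ι) := by rcases hn with h | h | h <;> rw [h] <;> decide
  rcases even_cases hB (by omega) he hH with h | h | h | ⟨hirr, h⟩
  · exact Or.inl h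
  · exact Or.inr (Or.inl h)
  · exact Or.inr (Or.inr (Or.inl h))
  have hF : ∀ {r : ℕ} {K : Subalgebra F (Matrix ι ι F)}, r.Prime → r ∣ Fintype.card ι → IsFieldSubalgebra r K →
      StarClosed (RingEquiv.refl F) (polarMat Q) K → H ≤ subalgebraNormalizer K →
      ∃ (r : ℕ) (K : Subalgebra F (Matrix ι ι F)), r.Prime ∧ r ∣ Fintype.card ι ∧ IsFieldSubalgebra r K ∧
      StarClosed (RingEquiv.refl F) (polarMat Q) K ∧ H ≤ subalgebraNormalizer K ∧
      ActsIrreducibly (matrixSet H) :=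
    fun hr hd hK hs hle => ⟨_, _, hr, hd, hK, hs, hle, hirr⟩
  rcases h with h | h | ⟨r, K, hr, hd, hK, hs, hle⟩ | ⟨a, b, L, J₁, J₂, hT⟩ | ⟨a, t, L, J, s, hW, hns⟩ |
    ⟨N, hN, hmod, htop⟩ | ⟨P, hP⟩
  · exact Or.inr <| Or.inr <| Or.inr <| Or.inl h
  · exact Or.inr <| Or.inr <| Or.inr <| Or.inr <| Or.inl h
  · exact Or.inr <| Or.inr <| Or.inr <| Or.inr <| Or.inr <| Or.inl (hF hr hd hK hs hle)
  · wlog hab : a ≤ b generalizing a b with key
    · exact key b a _ J₂ J₁ hT.swap (by omega)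
    have ha := hT.left_two_le
    have hcard := card_eq_of_tensor hT
    have ha3 : a ≤ 3 := by
      by_contra h
      have : 4 * b ≤ a * b := Nat.mul_le_mul_right b (by omega)
      have : 4 * 4 ≤ a * b := Nat.mul_le_mul (by omega) (by omega)
      omega
    rcases tensor_kinds hB hHiso hirr hT with ⟨⟨h1, h1d⟩, ⟨h2', h2d⟩, hea, heb⟩ | ⟨h2, h1, h2'⟩
    · obtain rfl : a = 2 := by obtain ⟨j, hj⟩ := hea; omega
      have hpure := quad_tensorVec_of_alt hB hHiso hirr hT h1 h1d h2' h2d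
      exact Or.inr <| Or.inr <| Or.inr <| Or.inr <| Or.inr <| Or.inr <| Or.inl
        ⟨b, L, J₁, J₂, hcard.symm, heb, hT, h1, h1d, h2', h2d, hpure, plus_of_alt_two hB hT hpure⟩
    rcases (show a = 2 ∨ a = 3 by omega) with rfl | rfl
    · rcases tensor_two_symm hB hHiso hirr h2 hT h1 with h | h | ⟨r, K, hr, hd, hK, hs, hle⟩
      · exact Or.inr <| Or.inr <| Or.inr <| Or.inl h
      · exact Or.inr <| Or.inr <| Or.inr <| Or.inr <| Or.inl h
      · exact Or.inr <| Or.inr <| Or.inr <| Or.inr <| Or.inr <| Or.inl (hF hr hd hK hs hle)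
    obtain rfl : b = 4 := by omega
    by_cases h3 : Fintype.card F = 3
    · obtain ⟨D, hD, hle⟩ := decomposition_of_three_four hB h3 hT h1
      exact Or.inr <| Or.inr <| Or.inr <| Or.inl ⟨3, 4, D, hD, hle⟩
    · have hq : 5 ≤ Fintype.card F := by
        obtain ⟨j, hj⟩ := odd_card_iff.2 h2
        have := Fintype.one_lt_card (α := F)
        omega
      exact Or.inr <| Or.inr <| Or.inr <| Or.inr <| Or.inr <| Or.inr <| Or.inr <| Or.inl
        ⟨by omega, h2, hq, L, J₁, J₂, hT, h1, h2', hirr⟩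
  · exfalso
    have hat : a ^ t = Fintype.card ι := by simpa using L.finrank_eq
    have ha := hW.two_le
    have ht := hW.card_two_le
    have h8' : Fintype.card ι = 8 := by
      have ha8 : a ≤ 12 := by
        have := Nat.le_self_pow (show t ≠ 0 by omega) a
        omega
      have ht4 : t ≤ 3 := by
        by_contra h
        have h1 := Nat.pow_le_pow_left ha t
        have h2 := Nat.pow_le_pow_right (show 0 < 2 by omega) (show 4 ≤ t by omega)
        omega
      interval_cases t <;> interval_cases a <;> simp at hat <;> omega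
    exact wreath_minus_false hB h8' (h8 h8') hHiso hirr hW hns
  · exfalso
    haveI : Nonempty ι := Fintype.card_pos_iff.1 (by omega)
    obtain ⟨r, k, x, hS⟩ := GeoClasses.exists_sympTypeSystem hN hmod htop (by omega)
    obtain ⟨m, hm, hrm⟩ := hS.card_pow
    have hr := hS.prime
    have h8' : Fintype.card ι = 8 := by
      rcases hn with h | h | h
      · exact h
      all_goals
        exfalso
        rw [h] at hrm
        have hle : r ≤ r ^ m := Nat.le_self_pow (by omega) r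
        have hr2 := hr.two_le
        have hm4 : m < 4 := by
          by_contra hm4
          have h1 := Nat.pow_le_pow_left hr2 m
          have h2 := Nat.pow_le_pow_right (show 0 < 2 by omega) (show 4 ≤ m by omega)
          omega
        have hr12 : r ≤ 12 := by omega
        interval_cases m <;> interval_cases r <;> first | omega | (norm_num at hrm; done) | (norm_num at hr; done)
    exact abelian_minus_false hB h8' (h8 h8') hHiso hN hmod htop
  · exact Or.inr <| Or.inr <| Or.inr <| Or.inr <| Or.inr <| Or.inr <| Or.inr <| Or.inr <|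
      residual_or_rational hB (by omega) hHiso hirr hP

/-- Sizes of decompositions. -/
theorem decomposition_sizes {t k : ℕ} {D : Fin t → Submodule F (ι → F)} (hD : IsOrthogonalMDecomposition ⇑Q k D) :
    2 ≤ t ∧ 1 ≤ k ∧ t * k = Fintype.card ι :=
  ⟨hD.decomp.decomp.two_le, hD.decomp.decomp.pos, card_eq_mul hD⟩

theorem two_ne_zero_of_odd_parts {t k : ℕ} {D : Fin t → Submodule F (ι → F)}
    (hD : IsOrthogonalMDecomposition ⇑Q k D) (hk : Odd k) : (2 : F) ≠ 0 :=
  two_ne_zero_of_odd (hD.decomp.nondegenerate ⟨0, by have := hD.decomp.decomp.two_le; omega⟩)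
    (by rw [hD.decomp.decomp.finrank_eq]; exact hk)

end Cfsg.Agent.OrthMax
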