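import Cfsg.Agent.OrthMax.EvenReduce
import Cfsg.Agent.NotMax.OrthSingular

/-!
Refinements of decompositions over small fields, and submaximal singular subspaces.
-/

set_option autoImplicit false
set_option linter.style.haveILetI false
set_option linter.unusedSectionVars false

namespace Cfsg.Agent.OrthMax

open Matrix Cfsg.Geo QuadraticMap Module
open Cfsg.Agent.Classical (OQ BNondeg)
open Cfsg.Agent.GeoClasses (conjGL oqToGL gl_inv_mulVec gl_mulVec_inv)
open scoped MatrixGroups Matrix

variable {F : Type*} [Field F] {ι : Type} [Fintype ι] [DecidableEq ι] {Q : QuadraticForm F (ι → F)}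

/-! ### Singular subspaces -/

theorem exists_oq_of_mem_omega {g : GL ι F} (hg : g ∈ omegaGL ⇑Q) :
    ∃ k ∈ commutator (OQ Q), oqToGL Q k = g := by
  rwa [← GeoClasses.map_oqToGL_commutator, Subgroup.mem_map] at hg

/-- The stabiliser of a submaximal singular subspace fixes a maximal one. -/
theorem submaximal_le [Fintype F] (hB : BNondeg Q) (hn : 5 ≤ Fintype.card ι) (hplus : IsPlusTypeOn ⇑Q ⊤)
    {W : Submodule F (ι → F)} (hW : IsTotallySingularQuad ⇑Q W) (hdim : 2 * (finrank F W + 1) = Fintype.card ι) :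
    ∃ U : Submodule F (ι → F), U ≠ ⊥ ∧ IsTotallySingularQuad ⇑Q U ∧ 2 * finrank F U = Fintype.card ι ∧
      subspaceStabilizer W ⊓ omegaGL ⇑Q ≤ subspaceStabilizer U := by
  classical
  haveI : Finite (ι → F) := inferInstance
  have hN : finrank F (ι → F) = Fintype.card ι := Module.finrank_fintype_fun_eq_card F
  have hx := GeoClasses.notExceptional_five (Q := Q) (by omega)
  obtain ⟨U₀, -, hU₀, hU₀d⟩ := hplus
  rw [finrank_top, hN] at hU₀d
  obtain ⟨x₀, hx₀, hx₀0⟩ := U₀.exists_mem_ne_zero_of_ne_bot (fun h => by rw [h, finrank_bot] at hU₀d; omega)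
  obtain ⟨φ, hφx, -⟩ := GeoClasses.exists_functional (p := (⊥ : Submodule F (ι → F))) (x := x₀)
    (by simpa using hx₀0)
  set W₀ := U₀ ⊓ LinearMap.ker φ with hW₀
  have hW₀d : finrank F W₀ = finrank F W := by
    have := Forms.finrank_eq_inf_ker_add_one U₀ φ ⟨x₀, hx₀, by rw [hφx]; exact one_ne_zero⟩
    rw [← hW₀] at this
    omega
  obtain ⟨g, -, hgW⟩ := Forms.exists_commutator_map_totallySingular (Q := Q) hB hx
    (fun y hy => hU₀ y (Submodule.mem_inf.1 hy).1) hW hW₀d (Or.inl (by omega))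
  set U := U₀.map g.1.toLinearMap
  have hWU : W ≤ U := hgW ▸ Submodule.map_mono inf_le_left
  have hU : ∀ u ∈ U, Q u = 0 := by
    rintro _ ⟨y, hy, rfl⟩
    rw [show Q (g.1.toLinearMap y) = Q y from Classical.OQ_map_app g y]
    exact hU₀ y hy
  have hUd : finrank F U = finrank F W + 1 := by rw [LinearEquiv.finrank_map_eq g.1 U₀]; omega
  refine ⟨U, fun h => by rw [h, finrank_bot] at hUd; omega, hU, by omega, ?_⟩
  intro h hhI
  obtain ⟨hhW, hh⟩ := Subgroup.mem_inf.1 hhI
  obtain ⟨k, hk, rfl⟩ := exists_oq_of_mem_omega hh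
  rw [NotMax.oqToGL_mem_stab_iff] at hhW ⊢
  have hle : W.map k.1.toLinearMap ≤ W := by rintro _ ⟨y, hy, rfl⟩; exact hhW y hy
  have hWk : W ≤ U.map k.1.toLinearMap := by
    rw [← Submodule.eq_of_le_of_finrank_eq hle (LinearEquiv.finrank_map_eq k.1 W)]
    exact Submodule.map_mono hWU
  have heq := NotMax.eq_of_commutator_of_hyperplane hB (by omega) hU (by omega) hk
    (by have := Submodule.finrank_mono (le_inf hWU hWk); omega)
  intro y hy
  exact heq ▸ Submodule.mem_map_of_mem hy

/-- No element of `Ω` swaps complementary singular subspaces of odd dimension. -/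
theorem swap_false [Fintype F] (hB : BNondeg Q) (hn : 5 ≤ Fintype.card ι) {k : ℕ} (hk : 2 * k = Fintype.card ι)
    (hko : Odd k) {D : Fin 2 → Submodule F (ι → F)} (hD : IsMDecomposition k D)
    (hts : ∀ i, IsTotallySingularQuad ⇑Q (D i)) {g : GL ι F} (hg : g ∈ omegaGL ⇑Q)
    (hgD : (D 0).map (Matrix.toLin' (g : Matrix ι ι F)) = D 1) : False := by
  haveI : Finite (ι → F) := inferInstance
  have hN : finrank F (ι → F) = Fintype.card ι := Module.finrank_fintype_fun_eq_card F
  have hx := GeoClasses.notExceptional_five (Q := Q) (by omega)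
  obtain ⟨k', hk', rfl⟩ := exists_oq_of_mem_omega hg
  have hmap : (D 0).map k'.1.toLinearMap = D 1 := by
    rw [← hgD]
    congr 1
    exact LinearMap.ext fun v => by simp [GeoClasses.oqToGL_mulVec]
  have hdisj : D 0 ⊓ D 1 = ⊥ := by
    rw [eq_bot_iff]
    intro x hx
    exact Submodule.disjoint_def.1 (hD.indep 0) x hx.1
      (Submodule.mem_iSup_of_mem 1 (Submodule.mem_iSup_of_mem (by decide) hx.2))
  have hdk := Forms.dickson_of_mem_commutator hB hx hk'
  rw [Forms.dickson_eq_parity hB (OrthGen.RQ_eq_top hB hx) (hts 0) (by rw [hD.finrank_eq, hN]; omega), hmap, hdisj,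
    finrank_bot, hD.finrank_eq, add_zero, hko.neg_one_pow] at hdk
  exact absurd hdk (by decide)

/-! ### Decompositions -/

/-- Orthogonal non-degenerate parts of total dimension `n` form a decomposition. -/
theorem decomp_of_orth {t k : ℕ} (ht : 2 ≤ t) (hk : 0 < k) {D : Fin t → Submodule F (ι → F)}
    (hd : ∀ i, finrank F (D i) = k) (hnd : ∀ i, IsNondegenerateOn (polar ⇑Q) (D i))
    (horth : ∀ i j, i ≠ j → AreOrthogonalFor (polar ⇑Q) (D i) (D j)) (htk : t * k = Fintype.card ι) :
    IsNondegenerateMDecomposition (polar ⇑Q) k D := by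
  have hindep : iSupIndep D := by
    rw [iSupIndep_def]
    intro i
    rw [disjoint_iff, eq_bot_iff]
    rintro v ⟨hv, hv'⟩
    rw [← isNondegenerateOn_iff.1 (hnd i)]
    refine ⟨hv, fun n hn => ?_⟩
    show polar Q n v = 0
    have hle : (⨆ j, ⨆ (_ : j ≠ i), D j) ≤ OrthGen.perpSub Q (D i) :=
      iSup₂_le fun j hj y hy n hn => horth i j (Ne.symm hj) n hn y hy
    exact hle hv' n hn
  refine ⟨⟨ht, hk, hd, hindep, ?_⟩, hnd, horth⟩
  let Φ : (Π i, D i) →ₗ[F] (ι → F) := ∑ i, (D i).subtype ∘ₗ LinearMap.proj i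
  have hΦ : Function.Injective Φ := by
    rw [← LinearMap.ker_eq_bot, LinearMap.ker_eq_bot']
    intro z hz
    funext j
    by_contra hj
    obtain ⟨⟨y, hy, hne⟩, -⟩ := hnd j (z j) (z j).2 (fun h => hj (Subtype.ext h))
    apply hne
    have h0 : polar Q y (Φ z) = 0 := by rw [hz, polar_zero_right]
    simp only [Φ, LinearMap.sum_apply, LinearMap.comp_apply, LinearMap.proj_apply, Submodule.subtype_apply] at h0
    rw [← polarBilin_apply_apply, map_sum, Finset.sum_eq_single j] at h0
    · exact h0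
    · intro i _ hij
      exact horth j i (Ne.symm hij) y hy _ (z i).2
    · simp
  have hle : LinearMap.range Φ ≤ iSup D := by
    rintro _ ⟨z, rfl⟩
    simp only [Φ, LinearMap.sum_apply, LinearMap.comp_apply, LinearMap.proj_apply]
    exact Submodule.sum_mem _ fun i _ => le_iSup D i (z i).2
  rw [← top_le_iff]
  refine le_trans (le_of_eq (Submodule.eq_top_of_finrank_eq ?_).symm) hle
  rw [LinearMap.finrank_range_of_inj hΦ, Module.finrank_fintype_fun_eq_card, Module.finrank_pi_fintype,
    ← htk]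
  simp [hd]

/-- Criterion for membership in a decomposition stabiliser. -/
theorem mem_decompositionStabilizer_of {t k : ℕ} {D : Fin t → Submodule F (ι → F)} (hD : IsMDecomposition k D)
    {g : GL ι F} (hg : ∀ i, ∃ j, ∀ x ∈ D i, (g : Matrix ι ι F) *ᵥ x ∈ D j) : g ∈ decompositionStabilizer D := by
  choose σ hσ using hg
  have hinj : Function.Injective (Matrix.toLin' (g : Matrix ι ι F)) := fun x y h => by
    rw [Matrix.toLin'_apply, Matrix.toLin'_apply] at h
    exact GeoClasses.mulVec_injective g h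
  have hmap : ∀ i, (D i).map (Matrix.toLin' (g : Matrix ι ι F)) = D (σ i) := fun i => by
    refine Submodule.eq_of_le_of_finrank_eq ?_ ?_
    · rintro _ ⟨x, hx, rfl⟩
      rw [Matrix.toLin'_apply]
      exact hσ i x hx
    · rw [← (Submodule.equivMapOfInjective _ hinj (D i)).finrank_eq, hD.finrank_eq, hD.finrank_eq]
  have hσinj : Function.Injective σ := fun i j hij => by
    by_contra hne
    have h : D i = D j := Submodule.map_injective_of_injective hinj (by rw [hmap, hmap, hij])
    obtain ⟨x, hx, hx0⟩ := (D i).exists_mem_ne_zero_of_ne_bot fun hb => by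
      have := hD.finrank_eq i; rw [hb, finrank_bot] at this; have := hD.pos; omega
    exact hx0 (Submodule.disjoint_def.1 (hD.indep i) x hx
      (Submodule.mem_iSup_of_mem j (Submodule.mem_iSup_of_mem (Ne.symm hne) (h ▸ hx))))
  exact ⟨Equiv.ofBijective σ (Finite.injective_iff_bijective.1 hσinj), hmap⟩

/-- An element of the stabiliser sends each part to a part. -/
theorem exists_perm_of_mem {t : ℕ} {D : Fin t → Submodule F (ι → F)} {g : GL ι F}
    (hg : g ∈ decompositionStabilizer D) :
    ∃ σ : Equiv.Perm (Fin t), ∀ i, ∀ x ∈ D i, (g : Matrix ι ι F) *ᵥ x ∈ D (σ i) := by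
  obtain ⟨σ, hσ⟩ := hg
  exact ⟨σ, fun i x hx => hσ i ▸ ⟨x, hx, Matrix.toLin'_apply _ _⟩⟩

/-! ### Rational frames -/

/-- A frame of a rational structure preserved up to the small field. -/
theorem subfield_of_frame {H : Subgroup (GL ι F)} {F₀ : Subfield F} {ζ : F}
    (w : ι → (ι → F)) (hw : LinearIndependent F w) (hval : ∀ i, ζ * Q (w i) ∈ F₀)
    (hpol : ∀ i j, i ≠ j → ζ * polar Q (w i) (w j) ∈ F₀)
    (hH : ∀ h ∈ H, ∀ j, ∃ c : ι → F, (∀ i, c i ∈ F₀) ∧ (h : Matrix ι ι F) *ᵥ w j = ∑ i, c i • w i) :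
    ∃ P : GL ι F, IsQuadFormRationalStructure (fun v => ζ * Q v) F₀ P ∧ H ≤ subfieldSubgroup F₀ P := by
  classical
  set M : Matrix ι ι F := Matrix.of fun i j => w j i with hM
  obtain ⟨P, hP⟩ : IsUnit M := Matrix.linearIndependent_cols_iff_isUnit.1 hw
  have hPv : ∀ c : ι → F, (P : Matrix ι ι F) *ᵥ c = ∑ i, c i • w i := fun c => by
    funext k
    simp [hP, hM, Matrix.mulVec, dotProduct, mul_comm]
  refine ⟨P, fun u hu => ?_, fun h hh => ?_⟩
  · show ζ * Q _ ∈ F₀
    rw [hPv]
    suffices hs : ∀ S : Finset ι, ζ * Q (∑ i ∈ S, u i • w i) ∈ F₀ from hs _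
    intro S
    induction S using Finset.induction_on with
    | empty => simp [F₀.zero_mem]
    | @insert a S ha ih =>
      have hp : ζ * (u a * polar Q (w a) (∑ i ∈ S, u i • w i))
          = ∑ i ∈ S, ζ * (u a * polarBilin Q (w a) (u i • w i)) := by
        rw [← polarBilin_apply_apply, map_sum, Finset.mul_sum, Finset.mul_sum]
      rw [Finset.sum_insert ha, Classical.qf_add, mul_add, mul_add, QuadraticMap.map_smul, smul_eq_mul,
        polar_smul_left, smul_eq_mul, hp]
      refine add_mem (add_mem ?_ ih) (sum_mem fun i hi => ?_)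
      · rw [show ζ * (u a * u a * Q (w a)) = u a * u a * (ζ * Q (w a)) by ring]
        exact mul_mem (mul_mem (hu a) (hu a)) (hval a)
      · rw [polarBilin_apply_apply, polar_smul_right, smul_eq_mul,
          show ζ * (u a * (u i * polar Q (w a) (w i))) = u a * u i * (ζ * polar Q (w a) (w i)) by ring]
        exact mul_mem (mul_mem (hu a) (hu i)) (hpol a i fun h => ha (h ▸ hi))
  · set X := ((P⁻¹ : GL ι F) : Matrix ι ι F) * (h : Matrix ι ι F) * (P : Matrix ι ι F) with hX
    have hXm : ∀ i j, X i j ∈ F₀ := by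
      intro i j
      obtain ⟨c, hc, he⟩ := hH h hh j
      have h1 : X *ᵥ Pi.single j 1 = c := by
        rw [hX, ← Matrix.mulVec_mulVec, ← Matrix.mulVec_mulVec,
          show (P : Matrix ι ι F) *ᵥ Pi.single j 1 = w j by
            rw [hP, Matrix.mulVec_single_one]; rfl, he, ← hPv, gl_inv_mulVec]
      rw [Matrix.mulVec_single_one] at h1
      rw [show X i j = c i from congrFun h1 i]
      exact hc i
    set X₀ : Matrix ι ι F₀ := Matrix.of fun i j => ⟨X i j, hXm i j⟩ with hX₀
    have hdet : X₀.det ≠ 0 := fun h0 => by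
      have hXu : IsUnit X := ((P⁻¹).isUnit.mul h.isUnit).mul P.isUnit
      have h1 : X.det = F₀.subtype X₀.det := by rw [RingHom.map_det]; rfl
      rw [h0, map_zero] at h1
      exact ((Matrix.isUnit_iff_isUnit_det X).1 hXu).ne_zero h1
    refine ⟨_, Subgroup.mem_sup_left
      ⟨Matrix.GeneralLinearGroup.mkOfDetNeZero X₀ hdet, rfl⟩, Units.ext ?_⟩
    rw [GeoClasses.gl_conj_val]
    show (P : Matrix ι ι F) * X * ((P⁻¹ : GL ι F) : Matrix ι ι F) = _
    simp [hX, mul_assoc]

/-- Lines over a non-prime field give a subfield group. -/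
theorem subfield_of_lines [Fintype F] (h2 : (2 : F) ≠ 0) (hnp : ¬ (Fintype.card F).Prime) {H : Subgroup (GL ι F)}
    (hH : H ≤ Cfsg.isometryGroup F ⇑Q) {t : ℕ} {D : Fin t → Submodule F (ι → F)}
    (hD : IsOrthogonalMDecomposition ⇑Q 1 D) (hle : H ≤ decompositionStabilizer D) :
    ∃ (F₀ : Subfield F) (r : ℕ) (P : GL ι F) (ζ : F), r.Prime ∧ Fintype.card F = Nat.card F₀ ^ r ∧ ζ ≠ 0 ∧
      IsQuadFormRationalStructure (fun v => ζ * Q v) F₀ P ∧ H ≤ subfieldSubgroup F₀ P := by
  classical
  obtain ⟨hnd, hiso⟩ := hD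
  have htn := card_eq_mul ⟨hnd, hiso⟩
  rw [mul_one] at htn
  haveI : NeZero t := ⟨by have := hnd.decomp.two_le; omega⟩
  obtain ⟨v₀, hv₀, hv₀0⟩ := (D 0).exists_mem_ne_zero_of_ne_bot fun hb => by
    have := hnd.decomp.finrank_eq 0; rw [hb, finrank_bot] at this; omega
  have hc : Q v₀ ≠ 0 := by
    intro h0
    obtain ⟨⟨y, hy, hne⟩, -⟩ := hnd.nondegenerate 0 v₀ hv₀ hv₀0
    have h := (finrank_eq_one_iff_of_nonzero' (⟨v₀, hv₀⟩ : D 0) (fun h => hv₀0 (congrArg Subtype.val h))).1
      (hnd.decomp.finrank_eq 0) ⟨y, hy⟩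
    obtain ⟨a, ha⟩ := h
    have ha' : a • v₀ = y := congrArg Subtype.val ha
    apply hne
    rw [← ha', polar_smul_left, OrthGen.polar_self_two, h0, mul_zero, smul_zero]
  choose e he using fun i => hiso 0 i
  let v : Fin t → (ι → F) := fun i => (e i ⟨v₀, hv₀⟩ : ι → F)
  have hv : ∀ i, Q (v i) = Q v₀ := fun i => he i _
  have hvne : ∀ i, v i ≠ 0 := fun i h0 => hc (by rw [← hv i, h0, QuadraticMap.map_zero])
  have horth : ∀ i j, i ≠ j → polar Q (v i) (v j) = 0 := fun i j hij =>
    hnd.orthogonal i j hij _ (e i _).2 _ (e j _).2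
  let σ : ι ≃ Fin t := Fintype.equivOfCardEq (by rw [Fintype.card_fin, htn])
  let w : ι → (ι → F) := fun i => v (σ i)
  have hli : LinearIndependent F w := by
    refine (hnd.decomp.indep.linearIndependent _ (fun i => (e i ⟨v₀, hv₀⟩).2) hvne).comp _ σ.injective
  have hbot : (⊥ : Subfield F) ≠ ⊤ := by
    intro htop
    apply hnp
    obtain ⟨p, hp⟩ := CharP.exists F
    obtain ⟨n, hpp, hn⟩ := FiniteField.card F p
    haveI : Fact p.Prime := ⟨hpp⟩
    have hall : ∀ z : F, z ^ p = z := fun z => by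
      have hz : z ∈ RingHom.eqLocusField (frobenius F p) (RingHom.id F) :=
        (bot_le : (⊥ : Subfield F) ≤ _) (htop ▸ Subfield.mem_top z)
      exact hz
    have h1 := GeoClasses.card_le_of_forall_pow_eq hpp.one_lt hall
    rwa [show Fintype.card F = p from le_antisymm h1 (by rw [hn]; exact Nat.le_self_pow n.pos.ne' p)]
  obtain ⟨F₁, r, hr, -, hcard⟩ := GeoClasses.exists_subfield_prime_index hbot
  obtain ⟨P, hP⟩ := subfield_of_frame (H := H) (F₀ := F₁) (ζ := (Q v₀)⁻¹) w hli
    (fun i => by rw [hv, inv_mul_cancel₀ hc]; exact one_mem _)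
    (fun i j hij => by rw [horth _ _ fun h => hij (σ.injective h), mul_zero]; exact zero_mem _)
    (fun h hh j => by
      obtain ⟨π, hπ⟩ := exists_perm_of_mem (hle hh)
      have hm := hπ (σ j) (w j) (e _ _).2
      obtain ⟨a, ha⟩ := (finrank_eq_one_iff_of_nonzero' (e (π (σ j)) ⟨v₀, hv₀⟩)
        (fun h => hvne _ (congrArg Subtype.val h))).1 (hnd.decomp.finrank_eq _) ⟨_, hm⟩
      have ha' : a • v (π (σ j)) = (h : Matrix ι ι F) *ᵥ w j := congrArg Subtype.val ha
      have h1 : Q (a • v (π (σ j))) = Q v₀ := by rw [ha', isometry_apply (hH hh)]; exact hv _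
      rw [QuadraticMap.map_smul, hv, smul_eq_mul] at h1
      have haa : a * a = 1 := mul_right_cancel₀ hc (by rw [h1, one_mul])
      refine ⟨Pi.single (σ.symm (π (σ j))) a, fun i => ?_, ?_⟩
      · by_cases hi : i = σ.symm (π (σ j))
        · rw [hi, Pi.single_eq_same]
          rcases mul_self_eq_one_iff.1 haa with rfl | rfl
          exacts [one_mem _, neg_mem (one_mem _)]
        · rw [Pi.single_eq_of_ne hi]; exact zero_mem _
      · rw [Finset.sum_eq_single (σ.symm (π (σ j)))]
        · simp [w, ha']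
        · intro i _ hi; rw [Pi.single_eq_of_ne hi, zero_smul]
        · simp)
  exact ⟨F₁, r, P, (Q v₀)⁻¹, hr, by rw [← Nat.card_eq_fintype_card, hcard], inv_ne_zero hc, hP⟩

/-! ### Planes over small fields -/

/-- Values in a minus plane over three elements. -/
theorem value_one_minus_three [Fintype F] (h3 : Fintype.card F = 3) {W : Submodule F (ι → F)}
    (hW : IsNondegenerateOn (polar ⇑Q) W) (hd : finrank F W = 2) (hminus : ¬ IsPlusTypeOn ⇑Q W) :
    ∃ a ∈ W, ∃ b ∈ W, Q a = 1 ∧ Q b = 1 ∧ polar Q a b = 0 ∧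
      ∀ w ∈ W, Q w = 1 → w = a ∨ w = -a ∨ w = b ∨ w = -b := by
  have h2 : (2 : F) ≠ 0 := GeoClasses.two_ne_zero_iff_odd_card.2 (by rw [h3]; decide)
  have h30 : (3 : F) = 0 := by
    have := FiniteField.cast_card_eq_zero F
    rw [h3] at this
    exact_mod_cast this
  have haniso : ∀ w ∈ W, Q w = 0 → w = 0 := by
    intro w hw h0
    by_contra hne
    refine hminus ⟨F ∙ w, (Submodule.span_singleton_le_iff_mem _ _).2 hw, fun x hx => ?_, ?_⟩
    · obtain ⟨c, rfl⟩ := Submodule.mem_span_singleton.1 hx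
      rw [QuadraticMap.map_smul, h0, smul_zero]
    · rw [finrank_span_singleton hne, hd]
  have hval : ∀ c : F, c ≠ 0 → c = 1 ∨ c = -1 := fun c hc => mul_self_eq_one_iff.1 (sq_eq_one_of_three h3 hc)
  obtain ⟨u, hu, hu0⟩ := W.exists_mem_ne_zero_of_ne_bot fun hb => by rw [hb, finrank_bot] at hd; omega
  have hQu : Q u ≠ 0 := fun h => hu0 (haniso u hu h)
  obtain ⟨z, hz, hzu⟩ : ∃ z ∈ W, z ∉ (F ∙ u) := by
    by_contra hno
    push Not at hno
    have := Submodule.finrank_mono (show W ≤ F ∙ u from hno)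
    rw [hd, finrank_span_singleton hu0] at this
    omega
  set u' := z - (polar Q u z / (2 * Q u)) • u with hu'
  have hu'W : u' ∈ W := W.sub_mem hz (W.smul_mem _ hu)
  have horth : polar Q u u' = 0 := by
    rw [hu', polar_sub_right, polar_smul_right, OrthGen.polar_self_two, smul_eq_mul,
      div_mul_cancel₀ _ (mul_ne_zero h2 hQu), sub_self]
  have hu'0 : u' ≠ 0 := fun h => hzu (by
    rw [hu', sub_eq_zero] at h; rw [h]; exact Submodule.smul_mem _ _ (Submodule.mem_span_singleton_self u))
  have hQu' : Q u' ≠ 0 := fun h => hu'0 (haniso u' hu'W h)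
  have hsame : Q u = Q u' := by
    by_contra hne
    have hsum : Q (u + u') = 0 := by
      rw [Classical.qf_add, horth, add_zero]
      rcases hval _ hQu with a | a <;> rcases hval _ hQu' with b | b <;> rw [a, b] at hne ⊢ <;>
        first | exact absurd rfl hne | ring
    have h := haniso _ (W.add_mem hu hu'W) hsum
    rw [eq_neg_of_add_eq_zero_left h, polar_neg_left, OrthGen.polar_self_two, neg_eq_zero] at horth
    exact mul_ne_zero h2 hQu' horth
  obtain ⟨a, ha, b, hb, hQa, hQb, hab, hspan⟩ : ∃ a ∈ W, ∃ b ∈ W, Q a = 1 ∧ Q b = 1 ∧ polar Q a b = 0 ∧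
      ∀ w ∈ W, ∃ s t : F, w = s • a + t • b := by
    obtain ⟨a, ha, b, hb, hQa, hQb, hab⟩ : ∃ a ∈ W, ∃ b ∈ W, Q a = 1 ∧ Q b = 1 ∧ polar Q a b = 0 := by
      rcases hval _ hQu with h | h
      · exact ⟨u, hu, u', hu'W, h, hsame ▸ h, horth⟩
      · refine ⟨u + u', W.add_mem hu hu'W, u - u', W.sub_mem hu hu'W, ?_, ?_, ?_⟩
        · rw [Classical.qf_add, horth, ← hsame, h]; linear_combination -h30
        · rw [Classical.qf_sub, horth, ← hsame, h]; linear_combination -h30
        · rw [polar_add_left, polar_sub_right Q u u u', polar_sub_right Q u' u u', OrthGen.polar_self_two,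
            OrthGen.polar_self_two,
            polar_comm Q u' u, horth, hsame]
          ring
    refine ⟨a, ha, b, hb, hQa, hQb, hab, fun w hw => ?_⟩
    have hli : LinearIndependent F ![a, b] := by
      rw [LinearIndependent.pair_iff]
      intro s t hst
      have e1 := congrArg (polar Q a) hst
      have e2 := congrArg (polar Q b) hst
      simp only [polar_add_right, polar_smul_right, hab, polar_comm Q b a, polar_zero_right,
        OrthGen.polar_self_two, hQa, hQb, smul_eq_mul, mul_zero, mul_one, zero_add, add_zero] at e1 e2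
      exact ⟨(mul_eq_zero.1 e1).resolve_right h2, (mul_eq_zero.1 e2).resolve_right h2⟩
    have hspan : Submodule.span F (Set.range ![a, b]) = W := by
      refine Submodule.eq_of_le_of_finrank_eq ?_ ?_
      · rw [Submodule.span_le]; rintro _ ⟨i, rfl⟩; fin_cases i; exacts [ha, hb]
      · rw [finrank_span_eq_card hli, Fintype.card_fin, hd]
    rw [← hspan, Submodule.mem_span_range_iff_exists_fun] at hw
    obtain ⟨c, hc⟩ := hw
    exact ⟨c 0, c 1, by simpa [Fin.sum_univ_two] using hc.symm⟩
  refine ⟨a, ha, b, hb, hQa, hQb, hab, fun w hw hQw => ?_⟩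
  obtain ⟨s, t, rfl⟩ := hspan w hw
  rw [Classical.qf_add, QuadraticMap.map_smul, QuadraticMap.map_smul, polar_smul_left, polar_smul_right, hQa, hQb,
    hab] at hQw
  simp at hQw
  by_cases hs : s = 0
  · subst hs
    have ht0 : t ≠ 0 := fun h => by simp [h] at hQw
    rcases hval t ht0 with rfl | rfl <;> simp
  by_cases ht : t = 0
  · subst ht
    rcases hval s hs with rfl | rfl <;> simp
  exfalso
  rw [sq_eq_one_of_three h3 hs, sq_eq_one_of_three h3 ht] at hQw
  exact one_ne_zero (show (1 : F) = 0 by linear_combination hQw)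

/-- Values in a plus plane over five elements. -/
theorem value_one_plus_five [Fintype F] (h5 : Fintype.card F = 5) {W : Submodule F (ι → F)}
    (hW : IsNondegenerateOn (polar ⇑Q) W) (hd : finrank F W = 2) (hplus : IsPlusTypeOn ⇑Q W) :
    ∃ a ∈ W, ∃ b ∈ W, Q a = 1 ∧ Q b = 1 ∧ polar Q a b = 0 ∧
      ∀ w ∈ W, Q w = 1 → w = a ∨ w = -a ∨ w = b ∨ w = -b := by
  obtain ⟨u, hu, v, hv, hQu, hQv, huv, hspan⟩ := exists_pair_of_plus_plane hW hd hplus
  have h50 : (5 : F) = 0 := by
    have := FiniteField.cast_card_eq_zero F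
    rw [h5] at this
    exact_mod_cast this
  have hall : ∀ c : F, c = 0 ∨ c = 1 ∨ c = 2 ∨ c = 3 ∨ c = 4 := by
    intro c
    haveI : Fact (Nat.Prime 5) := ⟨by norm_num⟩
    haveI : CharP F 5 := CharP.charP_iff_prime_eq_zero (by norm_num) |>.2 (by exact_mod_cast h50)
    let φ : ZMod 5 →+* F := ZMod.castHom (dvd_refl 5) F
    obtain ⟨z, rfl⟩ := ((Fintype.bijective_iff_injective_and_card φ).2
      ⟨φ.injective, by rw [ZMod.card, h5]⟩).2 c
    rw [← ZMod.natCast_zmod_val z, map_natCast]
    have hlt := ZMod.val_lt z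
    generalize ZMod.val z = k at hlt ⊢
    interval_cases k <;> simp
  have hne : ∀ w : F, ∀ s t : F, s * t = 1 → s = 0 → False := fun _ s t h hs => by simp [hs] at h
  have hQsum : ∀ s t : F, Q (s • u + t • v) = s * t := fun s t => by
    rw [Classical.qf_add, QuadraticMap.map_smul, QuadraticMap.map_smul, hQu, hQv, polar_smul_left,
      polar_smul_right, huv]
    simp
  refine ⟨(1 : F) • u + (1 : F) • v, W.add_mem (W.smul_mem _ hu) (W.smul_mem _ hv),
    (2 : F) • u + (3 : F) • v, W.add_mem (W.smul_mem _ hu) (W.smul_mem _ hv), ?_, ?_, ?_, fun w hw hQw => ?_⟩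
  · rw [hQsum, one_mul]
  · rw [hQsum]; linear_combination h50
  · simp only [polar_add_left, polar_add_right, polar_smul_left, polar_smul_right, huv, polar_comm Q v u,
      OrthGen.polar_self_two, hQu, hQv, smul_eq_mul]
    linear_combination h50
  obtain ⟨s, t, rfl⟩ := hspan w hw
  rw [hQsum] at hQw
  rcases hall s with rfl | rfl | rfl | rfl | rfl
  · simp at hQw
  · obtain rfl : t = 1 := by simpa using hQw
    exact Or.inl rfl
  · obtain rfl : t = 3 := by linear_combination 3 * hQw - t * h50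
    exact Or.inr (Or.inr (Or.inl rfl))
  · obtain rfl : t = 2 := by linear_combination 2 * hQw - t * h50
    refine Or.inr (Or.inr (Or.inr ?_))
    rw [neg_add, ← neg_smul, ← neg_smul]
    congr 2
    · linear_combination h50
    · linear_combination h50
  · obtain rfl : t = 4 := by linear_combination 4 * hQw - 3 * t * h50
    refine Or.inr (Or.inl ?_)
    rw [neg_add, ← neg_smul, ← neg_smul]
    congr 2 <;> linear_combination h50

/-- Planes with two orthogonal value-one lines refine to lines. -/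
theorem lines_of_value_pairs (h2 : (2 : F) ≠ 0) {H : Subgroup (GL ι F)} (hH : H ≤ Cfsg.isometryGroup F ⇑Q)
    {t : ℕ} {D : Fin t → Submodule F (ι → F)} (hD : IsOrthogonalMDecomposition ⇑Q 2 D)
    (hle : H ≤ decompositionStabilizer D)
    (hpair : ∀ i, ∃ a ∈ D i, ∃ b ∈ D i, Q a = 1 ∧ Q b = 1 ∧ polar Q a b = 0 ∧
      ∀ w ∈ D i, Q w = 1 → w = a ∨ w = -a ∨ w = b ∨ w = -b) :
    ∃ D' : Fin (t * 2) → Submodule F (ι → F),
      IsOrthogonalMDecomposition ⇑Q 1 D' ∧ H ≤ decompositionStabilizer D' := by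
  have hcard := card_eq_mul hD
  choose a ha b hb hQa hQb hab huniq using hpair
  let v : Fin (t * 2) → (ι → F) := fun p =>
    if (finProdFinEquiv.symm p).2 = 0 then a (finProdFinEquiv.symm p).1 else b (finProdFinEquiv.symm p).1
  have hv0 : ∀ i, v (finProdFinEquiv (i, 0)) = a i := fun i => by
    show (if _ then _ else _) = _
    rw [Equiv.symm_apply_apply, if_pos rfl]
  have hv1 : ∀ i, v (finProdFinEquiv (i, 1)) = b i := fun i => by
    show (if _ then _ else _) = _
    rw [Equiv.symm_apply_apply, if_neg (by simp)]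
  have hmem : ∀ p, v p ∈ D (finProdFinEquiv.symm p).1 := fun p => by
    obtain ⟨⟨i, s⟩, rfl⟩ := finProdFinEquiv.surjective p
    rw [Equiv.symm_apply_apply]
    fin_cases s
    exacts [(hv0 i).symm ▸ ha i, (hv1 i).symm ▸ hb i]
  have hv : ∀ p, Q (v p) = 1 := fun p => by
    obtain ⟨⟨i, s⟩, rfl⟩ := finProdFinEquiv.surjective p
    fin_cases s
    exacts [(hv0 i).symm ▸ hQa i, (hv1 i).symm ▸ hQb i]
  have horth : ∀ p q, p ≠ q → polar Q (v p) (v q) = 0 := by
    intro p q hpq
    obtain ⟨⟨i, s⟩, rfl⟩ := finProdFinEquiv.surjective p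
    obtain ⟨⟨j, s'⟩, rfl⟩ := finProdFinEquiv.surjective q
    by_cases hij : i = j
    · subst hij
      fin_cases s <;> fin_cases s'
      · exact absurd rfl hpq
      · exact (congrArg₂ (polar ⇑Q) (hv0 i) (hv1 i)).trans (hab i)
      · exact (congrArg₂ (polar ⇑Q) (hv1 i) (hv0 i)).trans ((polar_comm Q _ _).trans (hab i))
      · exact absurd rfl hpq
    · have h1 := hmem (finProdFinEquiv (i, s))
      have h1' := hmem (finProdFinEquiv (j, s'))
      rw [Equiv.symm_apply_apply] at h1 h1'
      exact hD.1.orthogonal i j hij _ h1 _ h1'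
  have hF := isOrthogonalMDecomposition_frame h2 (by have := hD.1.decomp.two_le; omega) (by omega) one_ne_zero hv horth
  refine ⟨_, hF, fun h hh => mem_frame_stabilizer hF.1.decomp fun p => ?_⟩
  obtain ⟨π, hπ⟩ := exists_perm_of_mem (hle hh)
  set i := π (finProdFinEquiv.symm p).1
  have e0 : v (finProdFinEquiv (i, 0)) = a i := hv0 i
  have e1 : v (finProdFinEquiv (i, 1)) = b i := hv1 i
  rcases huniq i _ (hπ _ _ (hmem p)) (by rw [isometry_apply (hH hh)]; exact hv p) with e | e | e | e
  · exact ⟨finProdFinEquiv (i, 0), 1, by rw [e, one_smul, e0]⟩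
  · exact ⟨finProdFinEquiv (i, 0), -1, by rw [e, neg_one_smul, e0]⟩
  · exact ⟨finProdFinEquiv (i, 1), 1, by rw [e, one_smul, e1]⟩
  · exact ⟨finProdFinEquiv (i, 1), -1, by rw [e, neg_one_smul, e1]⟩

/-- The value-one vectors of plus planes over at most three elements, permuted up to sign. -/
theorem exists_value_frame [Fintype F] (hq : Fintype.card F ≤ 3) {H : Subgroup (GL ι F)}
    (hH : H ≤ Cfsg.isometryGroup F ⇑Q) {t : ℕ} {D : Fin t → Submodule F (ι → F)}
    (hD : IsOrthogonalMDecomposition ⇑Q 2 D) (hplus : ∀ i, IsPlusTypeOn ⇑Q (D i))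
    (hle : H ≤ decompositionStabilizer D) :
    ∃ v : Fin t → (ι → F), (∀ i, v i ∈ D i ∧ Q (v i) = 1) ∧
      ∀ h ∈ H, ∃ σ : Equiv.Perm (Fin t), ∀ i, ∃ s : F, s * s = 1 ∧ (h : Matrix ι ι F) *ᵥ v i = s • v (σ i) := by
  choose e he f hf hQe hQf hef hspan using
    fun i => exists_pair_of_plus_plane (hD.1.nondegenerate i) (hD.1.decomp.finrank_eq i) (hplus i)
  have hsq : ∀ c : F, c ≠ 0 → c * c = 1 := fun c hc => by
    rcases (show Fintype.card F = 2 ∨ Fintype.card F = 3 by have := Fintype.one_lt_card (α := F); omega) with h | h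
    · have h1 := FiniteField.pow_card_sub_one_eq_one c hc
      rw [h, pow_one] at h1
      rw [h1, one_mul]
    · exact sq_eq_one_of_three h hc
  have hQv : ∀ i, Q (e i + f i) = 1 := fun i => by rw [Classical.qf_add, hQe, hQf, hef, zero_add, zero_add]
  refine ⟨fun i => e i + f i, fun i => ⟨(D i).add_mem (he i) (hf i), hQv i⟩, fun h hh => ?_⟩
  obtain ⟨π, hπ⟩ := exists_perm_of_mem (hle hh)
  refine ⟨π, fun i => ?_⟩
  obtain ⟨s, t, hst⟩ := hspan _ _ (hπ i _ ((D i).add_mem (he i) (hf i)))
  have hq1 := isometry_apply (hH hh) (e i + f i)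
  rw [hst, Classical.qf_add, QuadraticMap.map_smul, QuadraticMap.map_smul, hQe, hQf, polar_smul_left,
    polar_smul_right, hef, hQv] at hq1
  have h1 : s * t = 1 := by simpa using hq1
  have hs := hsq s (left_ne_zero_of_mul_eq_one h1)
  refine ⟨s, hs, ?_⟩
  rw [hst, show t = s by linear_combination -t * hs + s * h1, ← smul_add]

/-- Plus planes over two elements: a fixed vector. -/
theorem point_of_plus_planes_two [Fintype F] (h2 : Fintype.card F = 2) {H : Subgroup (GL ι F)}
    (hH : H ≤ Cfsg.isometryGroup F ⇑Q) {t : ℕ} {D : Fin t → Submodule F (ι → F)}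
    (hD : IsOrthogonalMDecomposition ⇑Q 2 D) (hplus : ∀ i, IsPlusTypeOn ⇑Q (D i))
    (hle : H ≤ decompositionStabilizer D) :
    ∃ v : ι → F, v ≠ 0 ∧ Q v = (t : F) ∧ H ≤ subspaceStabilizer (F ∙ v) := by
  obtain ⟨v, hv, hperm⟩ := exists_value_frame (by omega) hH hD hplus hle
  have hone : ∀ c : F, c ≠ 0 → c = 1 := fun c hc => by
    simpa [h2] using FiniteField.pow_card_sub_one_eq_one c hc
  have horth : ∀ i j, i ≠ j → polar Q (v i) (v j) = 0 := fun i j hij =>
    hD.1.orthogonal i j hij _ (hv i).1 _ (hv j).1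
  refine ⟨∑ i, v i, fun h0 => ?_, ?_, fun h hh => GeoClasses.mem_subspaceStabilizer_of_le fun x hx => ?_⟩
  · haveI : NeZero t := ⟨by have := hD.1.decomp.two_le; omega⟩
    obtain ⟨⟨y, hy, hne⟩, -⟩ := hD.1.nondegenerate 0 (v 0) (hv 0).1 (fun h => by
      have := (hv 0).2; rw [h, QuadraticMap.map_zero] at this; exact zero_ne_one this)
    apply hne
    have h1 : polar Q y (∑ i, v i) = 0 := by rw [h0, polar_zero_right]
    rw [← polarBilin_apply_apply, map_sum, Finset.sum_eq_single (0 : Fin t)] at h1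
    · exact h1
    · intro i _ hi; exact hD.1.orthogonal 0 i (Ne.symm hi) _ hy _ (hv i).1
    · simp
  · rw [qf_sum_orth _ horth]
    simp [fun i => (hv i).2]
  · obtain ⟨c, rfl⟩ := Submodule.mem_span_singleton.1 hx
    obtain ⟨σ, hσ⟩ := hperm h hh
    rw [Matrix.mulVec_smul, Matrix.mulVec_sum]
    refine Submodule.smul_mem _ _ ?_
    have hsum : ∑ i, (h : Matrix ι ι F) *ᵥ v i = ∑ i, v (σ i) := Finset.sum_congr rfl fun i _ => by
      obtain ⟨s, hs, he⟩ := hσ i
      rw [he, hone s (fun h0 => by simp [h0] at hs), one_smul]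
    rw [hsum, Equiv.sum_comp σ v]
    exact Submodule.mem_span_singleton_self _

/-- Plus planes over three elements: an invariant non-degenerate subspace. -/
theorem subspace_of_plus_planes_three [Fintype F] (h3 : Fintype.card F = 3) {H : Subgroup (GL ι F)}
    (hH : H ≤ Cfsg.isometryGroup F ⇑Q) {t : ℕ} {D : Fin t → Submodule F (ι → F)}
    (hD : IsOrthogonalMDecomposition ⇑Q 2 D) (hplus : ∀ i, IsPlusTypeOn ⇑Q (D i))
    (hle : H ≤ decompositionStabilizer D) :
    ∃ W : Submodule F (ι → F), finrank F W = t ∧ IsNondegenerateOn (polar ⇑Q) W ∧ H ≤ subspaceStabilizer W ∧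
      H ≤ subspaceStabilizer (OrthGen.perpSub Q W) := by
  have h2 : (2 : F) ≠ 0 := GeoClasses.two_ne_zero_iff_odd_card.2 (by rw [h3]; decide)
  obtain ⟨v, hv, hperm⟩ := exists_value_frame (by omega) hH hD hplus hle
  have horth : ∀ i j, i ≠ j → polar Q (v i) (v j) = 0 := fun i j hij =>
    hD.1.orthogonal i j hij _ (hv i).1 _ (hv j).1
  set W := Submodule.span F (Set.range v) with hW
  have hpol : ∀ (c : Fin t → F) j, polar Q (v j) (∑ i, c i • v i) = c j * 2 := by
    intro c j
    rw [← polarBilin_apply_apply, map_sum, Finset.sum_eq_single j]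
    · rw [polarBilin_apply_apply, polar_smul_right, OrthGen.polar_self_two, (hv j).2, mul_one, smul_eq_mul]
    · intro i _ hi; rw [polarBilin_apply_apply, polar_smul_right, horth j i (Ne.symm hi), smul_zero]
    · simp
  have hli : LinearIndependent F v := by
    rw [Fintype.linearIndependent_iff]
    intro c hc j
    have h1 := hpol c j
    rw [hc, polar_zero_right] at h1
    exact (mul_eq_zero.1 h1.symm).resolve_right h2
  have hHW : H ≤ subspaceStabilizer W := fun h hh => GeoClasses.mem_subspaceStabilizer_of_le fun x hx => by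
    obtain ⟨c, rfl⟩ := (Submodule.mem_span_range_iff_exists_fun F).1 hx
    obtain ⟨σ, hσ⟩ := hperm h hh
    rw [Matrix.mulVec_sum]
    refine Submodule.sum_mem _ fun i _ => ?_
    obtain ⟨s, -, he⟩ := hσ i
    rw [Matrix.mulVec_smul, he, smul_smul]
    exact Submodule.smul_mem _ _ (Submodule.subset_span ⟨σ i, rfl⟩)
  refine ⟨W, by rw [finrank_span_eq_card hli, Fintype.card_fin], ?_, hHW,
    (le_inf hHW hH).trans (stabilizer_le_stabilizer_perp W)⟩
  intro x hx hx0
  obtain ⟨c, rfl⟩ := (Submodule.mem_span_range_iff_exists_fun F).1 hx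
  obtain ⟨j, hj⟩ : ∃ j, c j ≠ 0 := by
    by_contra hall
    push Not at hall
    exact hx0 (Finset.sum_eq_zero fun i _ => by rw [hall i, zero_smul])
  have hne : polar Q (v j) (∑ i, c i • v i) ≠ 0 := by rw [hpol]; exact mul_ne_zero hj h2
  exact ⟨⟨v j, Submodule.subset_span ⟨j, rfl⟩, hne⟩, ⟨v j, Submodule.subset_span ⟨j, rfl⟩, by rwa [polar_comm]⟩⟩

set_option maxHeartbeats 1000000 in
/-- Plus planes over four elements: a subfield group. -/
theorem subfield_of_plus_planes_four [Fintype F] (h4 : Fintype.card F = 4) {H : Subgroup (GL ι F)}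
    (hH : H ≤ Cfsg.isometryGroup F ⇑Q) {t : ℕ} {D : Fin t → Submodule F (ι → F)}
    (hD : IsOrthogonalMDecomposition ⇑Q 2 D) (hplus : ∀ i, IsPlusTypeOn ⇑Q (D i))
    (hle : H ≤ decompositionStabilizer D) :
    ∃ (F₀ : Subfield F) (r : ℕ) (P : GL ι F) (ζ : F), r.Prime ∧ Fintype.card F = Nat.card F₀ ^ r ∧ ζ ≠ 0 ∧
      IsQuadFormRationalStructure (fun v => ζ * Q v) F₀ P ∧ H ≤ subfieldSubgroup F₀ P := by
  classical
  choose e he f hf hQe hQf hef hspan using
    fun i => exists_pair_of_plus_plane (hD.1.nondegenerate i) (hD.1.decomp.finrank_eq i) (hplus i)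
  have h20 : (2 : F) = 0 := by
    have := FiniteField.cast_card_eq_zero F
    rw [h4] at this
    have h : (2 : F) * 2 = 0 := by exact_mod_cast this
    exact mul_self_eq_zero.1 h
  obtain ⟨ω, hω0, hω1⟩ : ∃ ω : F, ω ≠ 0 ∧ ω ≠ 1 := by
    by_contra hno
    push Not at hno
    have : Fintype.card F ≤ Finset.card ({0, 1} : Finset F) := Finset.card_le_card fun x _ => by
      simp only [Finset.mem_insert, Finset.mem_singleton]
      by_cases hx : x = 0
      exacts [Or.inl hx, Or.inr (hno x hx)]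
    have h' : Finset.card ({0, 1} : Finset F) ≤ 2 := Finset.card_le_two
    omega
  have hω3 : ω * ω * ω = 1 := by
    have := FiniteField.pow_card_sub_one_eq_one ω hω0
    rw [h4] at this
    linear_combination this
  have hω2 : ω * ω = ω + 1 := by
    have : (ω - 1) * (ω * ω + ω + 1) = 0 := by linear_combination hω3
    linear_combination (mul_eq_zero.1 this).resolve_left (sub_ne_zero.2 hω1) - (ω + 1) * h20
  have hall : ∀ c : F, c = 0 ∨ c = 1 ∨ c = ω ∨ c = ω + 1 := by
    intro c
    by_contra hno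
    push Not at hno
    obtain ⟨c0, c1, c2, c3⟩ := hno
    have hne : ω + 1 ≠ 0 := fun h => hω1 (by linear_combination h - h20)
    have hd : Finset.card ({c, 0, 1, ω, ω + 1} : Finset F) = 5 := by
      rw [Finset.card_insert_of_notMem (by simp [c0, c1, c2, c3]),
        Finset.card_insert_of_notMem (by simp [Ne.symm hω0, Ne.symm hne]),
        Finset.card_insert_of_notMem (by simp [Ne.symm hω1, hω0]),
        Finset.card_insert_of_notMem (by simp), Finset.card_singleton]
    have := Finset.card_le_univ ({c, 0, 1, ω, ω + 1} : Finset F)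
    omega
  let w1 : Fin t → (ι → F) := fun i => e i + f i
  let w2 : Fin t → (ι → F) := fun i => ω • e i + (ω + 1) • f i
  let w : Fin t × Fin 2 → (ι → F) := fun p => if p.2 = 0 then w1 p.1 else w2 p.1
  have hwm : ∀ p, w p ∈ D p.1 := fun p => by
    by_cases h : p.2 = 0 <;>
      simp [w, w1, w2, h, (D p.1).add_mem, (D p.1).smul_mem, he, hf]
  have hQw : ∀ i s t', Q (s • e i + t' • f i) = s * t' := fun i s t' => by
    rw [Classical.qf_add, QuadraticMap.map_smul, QuadraticMap.map_smul, hQe, hQf, polar_smul_left,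
      polar_smul_right, hef]
    simp
  have hw1 : ∀ i, Q (w1 i) = 1 := fun i => by
    rw [show w1 i = (1 : F) • e i + (1 : F) • f i by simp [w1], hQw, one_mul]
  have hw2 : ∀ i, Q (w2 i) = 1 := fun i => by
    show Q _ = 1
    rw [hQw]
    linear_combination hω2 + ω * h20
  have hw12 : ∀ i, polar Q (w1 i) (w2 i) = 1 := fun i => by
    simp only [w1, w2, polar_add_left, polar_add_right, polar_smul_right, hef, polar_comm Q (f i) (e i),
      OrthGen.polar_self_two, hQe, hQf, smul_eq_mul]
    linear_combination ω * h20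
  -- value one vectors are combinations over the prime field
  have hone : ∀ i, ∀ x ∈ D i, Q x = 1 → ∃ a b : F, (a = 0 ∨ a = 1) ∧ (b = 0 ∨ b = 1) ∧
      x = a • w1 i + b • w2 i := by
    intro i x hx hQx
    obtain ⟨s, t', rfl⟩ := hspan i x hx
    rw [hQw] at hQx
    rcases hall s with h | h | h | h <;> subst s
    · simp at hQx
    · obtain rfl : t' = 1 := by simpa using hQx
      exact ⟨1, 0, Or.inr rfl, Or.inl rfl, by simp [w1]⟩
    · obtain rfl : t' = ω + 1 := by linear_combination (ω * ω) * hQx - t' * hω3 + hω2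
      exact ⟨0, 1, Or.inl rfl, Or.inr rfl, by simp [w2]⟩
    · have ht' : t' = ω := by linear_combination ω * hQx - t' * hω2 - ω * t' * h20
      subst t'
      refine ⟨1, 1, Or.inr rfl, Or.inr rfl, ?_⟩
      have hh : ω + 1 + 1 = ω := by linear_combination h20
      simp only [w1, w2, one_smul, add_smul]
      have h2v : ∀ x : ι → F, x + x = 0 := fun x => by rw [← two_smul F, h20, zero_smul]
      calc ω • e i + e i + ω • f i
          = ω • e i + e i + ω • f i + (f i + f i) := by rw [h2v, add_zero]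
        _ = _ := by abel
  have hpolw : ∀ p q, p ≠ q → polar Q (w p) (w q) = 0 ∨ polar Q (w p) (w q) = 1 := by
    rintro ⟨i, s⟩ ⟨j, s'⟩ hpq
    by_cases hij : i = j
    · subst hij
      right
      fin_cases s <;> fin_cases s'
      · exact absurd rfl hpq
      · exact hw12 i
      · exact (polar_comm Q _ _).trans (hw12 i)
      · exact absurd rfl hpq
    · exact Or.inl (hD.1.orthogonal i j hij _ (hwm (i, s)) _ (hwm (j, s')))
  have hcard := card_eq_mul hD
  let σ : ι ≃ Fin t × Fin 2 := Fintype.equivOfCardEq (by simp [hcard])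
  have hli : LinearIndependent F fun p : ι => w (σ p) := by
    suffices hw : LinearIndependent F w from hw.comp σ σ.injective
    rw [Fintype.linearIndependent_iff]
    intro c hc p
    have hsum : ∀ y, polar Q y (∑ q, c q • w q) = 0 := fun y => by rw [hc, polar_zero_right]
    have hexp : ∀ i y, y ∈ D i → polar Q y (∑ q, c q • w q)
        = c (i, 0) * polar Q y (w1 i) + c (i, 1) * polar Q y (w2 i) := by
      intro i y hy
      rw [← polarBilin_apply_apply, map_sum, Fintype.sum_prod_type, Finset.sum_eq_single i]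
      · simp [Fin.sum_univ_two, w]
      · intro j _ hj
        refine Finset.sum_eq_zero fun s _ => ?_
        rw [polarBilin_apply_apply, polar_smul_right, hD.1.orthogonal i j (Ne.symm hj) _ hy _ (hwm (j, s)), smul_zero]
      · simp
    obtain ⟨i, s⟩ := p
    have h1 := (hexp i (w1 i) (hwm (i, 0))).symm.trans (hsum _)
    have h2' := (hexp i (w2 i) (hwm (i, 1))).symm.trans (hsum _)
    rw [OrthGen.polar_self_two, hw1, hw12, h20] at h1
    rw [polar_comm Q (w2 i) (w1 i), OrthGen.polar_self_two, hw2, hw12, h20] at h2'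
    simp at h1 h2'
    fin_cases s
    · exact h2'
    · exact h1
  set F₀ : Subfield F := ⊥
  have hF₀ : Nat.card F₀ = 2 := by
    haveI : Fact (Nat.Prime 2) := ⟨Nat.prime_two⟩
    haveI : CharP F 2 := CharP.charP_iff_prime_eq_zero Nat.prime_two |>.2 h20
    exact Subfield.card_bot F 2
  obtain ⟨P, hP⟩ := subfield_of_frame (Q := Q) (H := H) (F₀ := F₀) (ζ := 1) (fun p => w (σ p)) hli
    (fun p => by
      rw [one_mul]
      by_cases h : (σ p).2 = 0 <;> simp [w, h, hw1, hw2, one_mem])
    (fun p q hpq => by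
      rw [one_mul]
      rcases hpolw _ _ (fun h => hpq (σ.injective h)) with h | h <;> rw [h]
      exacts [zero_mem _, one_mem _])
    (fun h hh p => by
      obtain ⟨π, hπ⟩ := exists_perm_of_mem (hle hh)
      set i := π (σ p).1
      obtain ⟨a, b, ha, hb, hab⟩ := hone i _ (hπ _ _ (hwm (σ p))) (by
        rw [isometry_apply (hH hh)]
        by_cases h : (σ p).2 = 0 <;> simp [w, h, hw1, hw2])
      refine ⟨fun q => if σ q = (i, 0) then a else if σ q = (i, 1) then b else 0, fun q => ?_, ?_⟩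
      · dsimp only
        split_ifs
        · rcases ha with rfl | rfl; exacts [zero_mem _, one_mem _]
        · rcases hb with rfl | rfl; exacts [zero_mem _, one_mem _]
        · exact zero_mem _
      · rw [hab, ← σ.symm.sum_comp, Fintype.sum_prod_type, Finset.sum_eq_single i]
        · simp [Fin.sum_univ_two, w]
        · intro j _ hj
          simp [hj]
        · simp)
  exact ⟨F₀, 2, P, 1, Nat.prime_two, by rw [hF₀, h4]; norm_num, one_ne_zero, hP⟩

end Cfsg.Agent.OrthMax
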