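import Cfsg.Agent.OrthMax.EvenReduce

/-!
Extension fields of degree two for an orthogonal group in even dimension.
-/

set_option autoImplicit false
set_option linter.style.haveILetI false
set_option linter.unusedSectionVars false

namespace Cfsg.Agent.OrthMax

open Matrix Cfsg.Geo QuadraticMap Module
open Cfsg.Agent.Classical (OQ BNondeg)
open Cfsg.Agent.GeoClasses (formOf IsPolar IsSim adj StarClosed conjGL)
open scoped MatrixGroups Matrix

variable {F : Type*} [Field F] {ι : Type} [Fintype ι] [DecidableEq ι] {Q : QuadraticForm F (ι → F)}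

/-- The adjoint for the polar form. -/
noncomputable abbrev qadj (Q : QuadraticForm F (ι → F)) (X : Matrix ι ι F) : Matrix ι ι F :=
  adj (RingEquiv.refl F) (polarMat Q) X

theorem polar_qadj (hB : BNondeg Q) (X : Matrix ι ι F) (u v : ι → F) :
    polar Q (X *ᵥ u) v = polar Q u (qadj Q X *ᵥ v) := by
  rw [← formOf_polarMat Q]
  exact (isPolar_polarMat hB).formOf_adj X u v

theorem qadj_eq (hB : BNondeg Q) {X Y : Matrix ι ι F}
    (h : ∀ u v, polar Q (X *ᵥ u) v = polar Q u (Y *ᵥ v)) : qadj Q X = Y :=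
  (isPolar_polarMat hB).adj_eq fun u v => by rw [formOf_polarMat]; exact h u v

theorem qadj_one (hB : BNondeg Q) : qadj Q 1 = 1 := qadj_eq hB fun u v => by simp

theorem qadj_mul (hB : BNondeg Q) (X Y : Matrix ι ι F) : qadj Q (X * Y) = qadj Q Y * qadj Q X :=
  (isPolar_polarMat hB).adj_mul X Y

theorem qadj_qadj [Nonempty ι] (hB : BNondeg Q) (X : Matrix ι ι F) : qadj Q (qadj Q X) = X :=
  (isPolar_polarMat hB).adj_adj X

theorem qadj_smul (c : F) (X : Matrix ι ι F) : qadj Q (c • X) = c • qadj Q X := GeoClasses.adj_smul c X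

theorem isSelfAdjointFor_iff (hB : BNondeg Q) (K : Subalgebra F (Matrix ι ι F)) :
    IsSelfAdjointFor (polar ⇑Q) K ↔ ∀ k ∈ K, qadj Q k = k :=
  ⟨fun h k hk => qadj_eq hB (h k hk), fun h k hk u v => by rw [polar_qadj hB, h k hk]⟩

theorem isAdjointClosedFor_of (hB : BNondeg Q) {K : Subalgebra F (Matrix ι ι F)}
    (h : StarClosed (RingEquiv.refl F) (polarMat Q) K) : IsAdjointClosedFor (polar ⇑Q) K :=
  fun k hk => ⟨qadj Q k, h k hk, fun u v => polar_qadj hB k u v⟩

section Field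

variable {r : ℕ} {K : Subalgebra F (Matrix ι ι F)}

theorem mulVec_eq_zero_of_field (hK : IsFieldSubalgebra r K) {k : Matrix ι ι F} (hk : k ∈ K) {v : ι → F}
    (h : k *ᵥ v = 0) (hv : v ≠ 0) : k = 0 := by
  by_contra hne
  obtain ⟨y, hy, hky⟩ := hK.inv k hk hne
  apply hv
  rw [← Matrix.one_mulVec v, ← hky, hK.comm k hk y hy, ← Matrix.mulVec_mulVec, h, Matrix.mulVec_zero]

/-- The orbit of a vector under the field. -/
def kline (K : Subalgebra F (Matrix ι ι F)) (v : ι → F) : Submodule F (ι → F) :=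
  LinearMap.range ((LinearMap.flip (Matrix.mulVecBilin F F) v).comp K.toSubmodule.subtype)

theorem mem_kline {v x : ι → F} : x ∈ kline K v ↔ ∃ k ∈ K, k *ᵥ v = x := by
  constructor
  · rintro ⟨⟨k, hk⟩, rfl⟩; exact ⟨k, hk, rfl⟩
  · rintro ⟨k, hk, rfl⟩; exact ⟨⟨k, hk⟩, rfl⟩

theorem self_mem_kline (v : ι → F) : v ∈ kline K v := mem_kline.2 ⟨1, one_mem K, Matrix.one_mulVec v⟩

theorem finrank_kline (hK : IsFieldSubalgebra r K) {v : ι → F} (hv : v ≠ 0) : finrank F (kline K v) = r := by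
  rw [kline, LinearMap.finrank_range_of_inj]
  · exact hK.finrank_eq
  · rw [← LinearMap.ker_eq_bot, LinearMap.ker_eq_bot']
    rintro ⟨k, hk⟩ h
    exact Subtype.ext (mulVec_eq_zero_of_field hK hk h hv)

theorem mulVec_mem_kline {v x : ι → F} {k : Matrix ι ι F} (hk : k ∈ K) (hx : x ∈ kline K v) :
    k *ᵥ x ∈ kline K v := by
  obtain ⟨l, hl, rfl⟩ := mem_kline.1 hx
  exact mem_kline.2 ⟨k * l, mul_mem hk hl, by rw [Matrix.mulVec_mulVec]⟩

theorem kline_le {v : ι → F} {S : Submodule F (ι → F)} (hS : ∀ k ∈ K, ∀ x ∈ S, k *ᵥ x ∈ S) (hv : v ∈ S) :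
    kline K v ≤ S := fun x hx => by
  obtain ⟨k, hk, rfl⟩ := mem_kline.1 hx
  exact hS k hk v hv

theorem perp_stable (hB : BNondeg Q) (hs : StarClosed (RingEquiv.refl F) (polarMat Q) K)
    {S : Submodule F (ι → F)} (hS : ∀ k ∈ K, ∀ x ∈ S, k *ᵥ x ∈ S) :
    ∀ k ∈ K, ∀ x ∈ OrthGen.perpSub Q S, k *ᵥ x ∈ OrthGen.perpSub Q S := by
  intro k hk x hx n hn
  show polar Q n (k *ᵥ x) = 0
  rw [polar_comm, polar_qadj hB, polar_comm]
  exact hx _ (hS _ (hs k hk) n hn)

/-- A non-degenerate part splits off. -/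
theorem split_nondeg (hB : BNondeg Q) {S P : Submodule F (ι → F)} (hS : IsNondegenerateOn (polar ⇑Q) S)
    (hP : IsNondegenerateOn (polar ⇑Q) P) (hPS : P ≤ S) :
    IsNondegenerateOn (polar ⇑Q) (S ⊓ OrthGen.perpSub Q P) ∧ P ⊔ (S ⊓ OrthGen.perpSub Q P) = S ∧
      finrank F P + finrank F ↥(S ⊓ OrthGen.perpSub Q P) = finrank F S := by
  have hsup : P ⊔ (S ⊓ OrthGen.perpSub Q P) = S := by
    rw [inf_comm, ← sup_inf_assoc_of_le _ hPS, sup_perp_eq_top hB hP, top_inf_eq]
  refine ⟨?_, hsup, ?_⟩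
  · rw [isNondegenerateOn_iff, eq_bot_iff]
    rintro x ⟨⟨hxS, hxP⟩, hx⟩
    rw [← isNondegenerateOn_iff.1 hS]
    refine ⟨hxS, fun n hn => ?_⟩
    show polar Q n x = 0
    rw [← hsup] at hn
    obtain ⟨p, hp, s, hs, rfl⟩ := Submodule.mem_sup.1 hn
    rw [polar_add_left, show polar Q p x = 0 from hxP p hp, show polar Q s x = 0 from hx s hs, add_zero]
  · have h := finrank_sup_orth hP (Y := S ⊓ OrthGen.perpSub Q P) fun u hu v hv => hv.2 u hu
    rw [hsup] at h
    exact h.symm

theorem exists_value_ne_zero {S : Submodule F (ι → F)} (hS : IsNondegenerateOn (polar ⇑Q) S) (hne : S ≠ ⊥) :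
    ∃ v ∈ S, Q v ≠ 0 := by
  by_contra hno
  push Not at hno
  obtain ⟨w, hw, hw0⟩ := S.exists_mem_ne_zero_of_ne_bot hne
  obtain ⟨-, y, hy, hne'⟩ := hS w hw hw0
  apply hne'
  rw [polar, hno _ (S.add_mem hw hy), hno w hw, hno y hy, sub_zero, sub_zero]

variable [Fintype F]

/-- A self-adjoint field in characteristic two halves the dimension. -/
theorem two_mul_dvd_of_selfAdjoint (hB : BNondeg Q) (h2 : (2 : F) = 0) (hK : IsFieldSubalgebra r K)
    (hsa : ∀ k ∈ K, qadj Q k = k) : 2 * r ∣ Fintype.card ι := by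
  have hsq : ∀ k ∈ K, ∃ l ∈ K, k = l * l := by
    have hadd : ∀ X : Matrix ι ι F, X + X = 0 := fun X => by rw [← two_smul F X, h2, zero_smul]
    have hsurj : Function.Surjective fun l : K => l * l := by
      haveI : Finite K := inferInstance
      refine Finite.surjective_of_injective fun a b hab => ?_
      have hab' : a.1 * a.1 = b.1 * b.1 := congrArg Subtype.val hab
      have h1 : (a.1 - b.1) * (a.1 - b.1) = 0 := by
        rw [sub_mul, mul_sub, mul_sub, hK.comm _ b.2 _ a.2, hab', ← hadd (b.1 * b.1 - a.1 * b.1)]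
        abel
      by_contra hne
      obtain ⟨y, hy, hy1⟩ := hK.inv _ (sub_mem a.2 b.2) (sub_ne_zero.2 fun h => hne (Subtype.ext h))
      have h3 : (a.1 - b.1) * ((a.1 - b.1) * y) = 0 := by rw [← mul_assoc, h1, zero_mul]
      rw [hy1, mul_one] at h3
      exact hne (Subtype.ext (sub_eq_zero.1 h3))
    intro k hk
    obtain ⟨l, hl⟩ := hsurj ⟨k, hk⟩
    exact ⟨l.1, l.2, (congrArg Subtype.val hl).symm⟩
  have halt : ∀ k ∈ K, ∀ v, polar Q (k *ᵥ v) v = 0 := by
    intro k hk v
    obtain ⟨l, hl, rfl⟩ := hsq k hk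
    rw [← Matrix.mulVec_mulVec, polar_qadj hB, hsa l hl, OrthGen.polar_self_two, h2, zero_mul]
  suffices key : ∀ (d : ℕ) (S : Submodule F (ι → F)), finrank F S = d → IsNondegenerateOn (polar ⇑Q) S →
      (∀ k ∈ K, ∀ x ∈ S, k *ᵥ x ∈ S) → 2 * r ∣ d by
    refine key _ ⊤ (by rw [finrank_top, Module.finrank_fintype_fun_eq_card]) ?_ fun _ _ _ _ => Submodule.mem_top
    rw [isNondegenerateOn_iff, top_inf_eq, eq_bot_iff]
    exact fun x hx => (Submodule.mem_bot F).2 (hB x fun y => (polar_comm Q x y).trans (hx y Submodule.mem_top))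
  intro d
  induction d using Nat.strong_induction_on with
  | _ d ih =>
    intro S hd hS hKS
    rcases Nat.eq_zero_or_pos d with rfl | hpos
    · exact dvd_zero _
    obtain ⟨u, hu, hu0⟩ := S.exists_mem_ne_zero_of_ne_bot fun h => by rw [h, finrank_bot] at hd; omega
    obtain ⟨-, v, hv, huv⟩ := hS u hu hu0
    have hv0 : v ≠ 0 := fun h => huv (by rw [h, polar_zero_right])
    haveI : Nonempty ι := ⟨(Function.ne_iff.1 hu0).choose⟩
    have hUU : ∀ k ∈ K, ∀ l ∈ K, ∀ w, polar Q (k *ᵥ w) (l *ᵥ w) = 0 := fun k hk l hl w => by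
      rw [← qadj_qadj (hB := hB) l, ← polar_qadj hB, hsa l hl, Matrix.mulVec_mulVec]
      exact halt _ (mul_mem hl hk) w
    set P := kline K u ⊔ kline K v with hP
    -- coefficients of a vector of `P` orthogonal to `P` vanish
    have hrad : ∀ k ∈ K, ∀ l ∈ K, (∀ y ∈ P, polar Q (k *ᵥ u + l *ᵥ v) y = 0) → k = 0 ∧ l = 0 := by
      intro k hk l hl h
      constructor
      · by_contra hne
        obtain ⟨k', hk', hkk⟩ := hK.inv k hk hne
        have h1 := h (k' *ᵥ v) (Submodule.mem_sup_right (mem_kline.2 ⟨k', hk', rfl⟩))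
        rw [polar_add_left, hUU l hl k' hk' v, add_zero, polar_comm, polar_qadj hB, hsa k' hk',
          Matrix.mulVec_mulVec, hK.comm k' hk' k hk, hkk, Matrix.one_mulVec, polar_comm] at h1
        exact huv h1
      · by_contra hne
        obtain ⟨l', hl', hll⟩ := hK.inv l hl hne
        have h1 := h (l' *ᵥ u) (Submodule.mem_sup_left (mem_kline.2 ⟨l', hl', rfl⟩))
        rw [polar_add_left, hUU k hk l' hl' u, zero_add, polar_comm, polar_qadj hB, hsa l' hl',
          Matrix.mulVec_mulVec, hK.comm l' hl' l hl, hll, Matrix.one_mulVec] at h1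
        exact huv h1
    have hPn : IsNondegenerateOn (polar ⇑Q) P := by
      rw [isNondegenerateOn_iff, eq_bot_iff]
      rintro x ⟨hx, hx'⟩
      obtain ⟨_, ha, _, hb, rfl⟩ := Submodule.mem_sup.1 hx
      obtain ⟨k, hk, rfl⟩ := mem_kline.1 ha
      obtain ⟨l, hl, rfl⟩ := mem_kline.1 hb
      obtain ⟨rfl, rfl⟩ := hrad k hk l hl fun y hy => (polar_comm Q _ _).trans (hx' y hy)
      simp
    have hPd : finrank F P = 2 * r := by
      have h := Submodule.finrank_sup_add_finrank_inf_eq (kline K u) (kline K v)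
      have hbot : kline K u ⊓ kline K v = ⊥ := by
        rw [eq_bot_iff]
        rintro x ⟨ha, hb⟩
        obtain ⟨k, hk, rfl⟩ := mem_kline.1 ha
        obtain ⟨l, hl, hlk⟩ := mem_kline.1 hb
        obtain ⟨rfl, -⟩ := hrad k hk (-l) (neg_mem hl) fun y _ => by
          rw [Matrix.neg_mulVec, hlk, add_neg_cancel, polar_zero_left]
        simp
      rw [hbot, finrank_bot, finrank_kline hK hu0, finrank_kline hK hv0, ← hP] at h
      omega
    have hPS : P ≤ S := sup_le (kline_le hKS hu) (kline_le hKS hv)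
    obtain ⟨hS', -, hdim⟩ := split_nondeg hB hS hPn hPS
    have hPK : ∀ k ∈ K, ∀ x ∈ P, k *ᵥ x ∈ P := fun k hk x hx => by
      obtain ⟨a, ha, b, hb, rfl⟩ := Submodule.mem_sup.1 hx
      rw [Matrix.mulVec_add]
      exact Submodule.add_mem_sup (mulVec_mem_kline hk ha) (mulVec_mem_kline hk hb)
    have hr : 0 < r := by
      rw [← finrank_kline hK hu0]
      exact Submodule.one_le_finrank_iff.2 fun h => hu0 (by
        have := self_mem_kline (K := K) u
        rwa [h, Submodule.mem_bot] at this)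
    have := ih _ (by omega) (S ⊓ OrthGen.perpSub Q P) rfl hS' fun k hk x hx =>
      ⟨hKS k hk x hx.1, perp_stable hB (fun k hk => by show qadj Q k ∈ K; rw [hsa k hk]; exact hk) hPK k hk x hx.2⟩
    rw [← hd, ← hdim, hPd]
    exact dvd_add (dvd_refl _) this

/-- The norm of a non-self-adjoint quadratic field. -/
theorem exists_norm [Nonempty ι] (hB : BNondeg Q) (hK : IsFieldSubalgebra 2 K)
    (hs : StarClosed (RingEquiv.refl F) (polarMat Q) K) (hsa : ¬ ∀ k ∈ K, qadj Q k = k) :
    (∀ x ∈ K, qadj Q x = x → ∃ c : F, x = c • 1) ∧ ∀ k ∈ K, ∃ c : F, qadj Q k * k = c • 1 := by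
  have hfix : ∀ x ∈ K, qadj Q x = x → ∃ c : F, x = c • 1 := by
    intro x hx hxx
    by_contra hno
    push Not at hno
    apply hsa
    have hli : LinearIndependent F ![(1 : Matrix ι ι F), x] := by
      rw [LinearIndependent.pair_iff]
      intro s t hst
      by_cases ht : t = 0
      · subst ht
        rw [zero_smul, add_zero] at hst
        exact ⟨(smul_eq_zero.1 hst).resolve_right one_ne_zero, rfl⟩
      · exfalso
        refine hno (-(t⁻¹ * s)) ?_
        rw [neg_smul, mul_smul, eq_neg_iff_add_eq_zero, ← inv_smul_smul₀ ht x, ← smul_add, add_comm, hst,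
          smul_zero]
    have hspan : Submodule.span F (Set.range ![(1 : Matrix ι ι F), x]) = K.toSubmodule := by
      refine Submodule.eq_of_le_of_finrank_le ?_ ?_
      · rw [Submodule.span_le]
        rintro _ ⟨i, rfl⟩
        fin_cases i
        exacts [K.one_mem, hx]
      · rw [finrank_span_eq_card hli, Fintype.card_fin]
        exact le_of_eq hK.finrank_eq
    intro k hk
    have : k ∈ Submodule.span F (Set.range ![(1 : Matrix ι ι F), x]) := by rw [hspan]; exact hk
    rw [Submodule.mem_span_range_iff_exists_fun] at this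
    obtain ⟨c, rfl⟩ := this
    rw [Fin.sum_univ_two]
    simp [qadj, GeoClasses.adj_add, GeoClasses.adj_smul, (isPolar_polarMat hB).adj_one]
    exact congrArg _ hxx
  refine ⟨hfix, fun k hk => hfix _ (mul_mem (hs k hk) hk) ?_⟩
  rw [qadj_mul hB, qadj_qadj hB]

/-- The half of the trace in characteristic two. -/
theorem exists_omega [Nonempty ι] (hB : BNondeg Q) (h2 : (2 : F) = 0) (hK : IsFieldSubalgebra 2 K)
    (hs : StarClosed (RingEquiv.refl F) (polarMat Q) K) (hsa : ¬ ∀ k ∈ K, qadj Q k = k) :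
    ∃ ω ∈ K, qadj Q ω = ω + 1 := by
  have hadd : ∀ X : Matrix ι ι F, X + X = 0 := fun X => by rw [← two_smul F X, h2, zero_smul]
  push Not at hsa
  obtain ⟨k, hk, hkne⟩ := hsa
  obtain ⟨y, hy, hdy⟩ := hK.inv _ (add_mem hk (hs k hk)) fun h => hkne (by
    have h1 := hadd k
    rw [← h] at h1
    exact (add_left_cancel h1).symm)
  have hyfix : qadj Q y = y := by
    have h1 := congrArg (qadj Q) hdy
    rw [qadj_mul hB] at h1
    simp only [qadj] at h1
    rw [GeoClasses.adj_add, (isPolar_polarMat hB).adj_adj, (isPolar_polarMat hB).adj_one,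
      add_comm, hK.comm _ (hs y hy) _ (add_mem hk (hs k hk))] at h1
    calc qadj Q y = y * ((k + qadj Q k) * qadj Q y) := by
          rw [← mul_assoc, hK.comm y hy _ (add_mem hk (hs k hk)), hdy, one_mul]
      _ = y := by rw [h1, mul_one]
  refine ⟨k * y, mul_mem hk hy, ?_⟩
  rw [qadj_mul hB, hyfix]
  calc y * qadj Q k = qadj Q k * y := hK.comm y hy _ (hs k hk)
    _ = (k + qadj Q k) * y + k * y := by rw [add_mul, add_comm (k * y), add_assoc, hadd, add_zero]
    _ = k * y + 1 := by rw [hdy, add_comm]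

/-- The form is a multiple of a norm form in characteristic two. -/
theorem quad_eq_omega (hB : BNondeg Q) (hn : 2 ≤ Fintype.card ι) (h2 : (2 : F) = 0) {H : Subgroup (GL ι F)}
    (hH : H ≤ Cfsg.isometryGroup F ⇑Q) (hirr : ActsIrreducibly (matrixSet H)) (hK : IsFieldSubalgebra 2 K)
    (hs : StarClosed (RingEquiv.refl F) (polarMat Q) K) (hsa : ¬ ∀ k ∈ K, qadj Q k = k)
    (hle : H ≤ subalgebraNormalizer K) {ω : Matrix ι ι F} (hω : ω ∈ K) (hωa : qadj Q ω = ω + 1)
    (v : ι → F) : Q v = polar Q (ω *ᵥ v) v := by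
  haveI : Nonempty ι := Fintype.card_pos_iff.1 (by omega)
  obtain ⟨hfix, hnorm⟩ := exists_norm hB hK hs hsa
  have hadd : ∀ X : Matrix ι ι F, X + X = 0 := fun X => by rw [← two_smul F X, h2, zero_smul]
  have hsym : ∀ x y, polar Q (ω *ᵥ x) y + polar Q (ω *ᵥ y) x = polar Q x y := fun x y => by
    rw [polar_comm Q (ω *ᵥ y) x, polar_qadj hB, hωa, Matrix.add_mulVec, Matrix.one_mulVec, polar_add_right]
    linear_combination polar Q x (ω *ᵥ y) * h2
  refine sub_eq_zero.1 (GeoClasses.eq_zero_of_additive_irreducible hirr h2 hn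
    (D := fun v => Q v - polar Q (ω *ᵥ v) v) (fun x y => ?_) (fun c x => ?_) (fun h hh x => ?_) v)
  · simp only [Matrix.mulVec_add, polar_add_left, polar_add_right, Classical.qf_add]
    linear_combination -hsym x y
  · simp only [Matrix.mulVec_smul, polar_smul_left, polar_smul_right, QuadraticMap.map_smul, smul_eq_mul]
    ring
  set w := conjGL h⁻¹ ω with hw
  have hwK : w ∈ K := (hle (H.inv_mem hh) ω).1 hω
  have hwad : qadj Q w = conjGL h⁻¹ (qadj Q ω) :=
    (isPolar_polarMat hB).adj_conj (by simpa using (isSim_of_isometry (hH hh)).inv one_ne_zero) ω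
  obtain ⟨a, ha⟩ := hfix (w + ω) (add_mem hwK hω) (by
    rw [qadj, GeoClasses.adj_add]
    show qadj Q w + qadj Q ω = _
    rw [hwad, hωa, map_add, map_one, ← hw]
    calc w + 1 + (ω + 1) = w + ω + (1 + 1) := by abel
      _ = w + ω := by rw [hadd 1, add_zero])
  have hwω : w = ω + a • 1 := by rw [← ha, add_comm w, ← add_assoc, hadd, zero_add]
  obtain ⟨N, hN⟩ := hnorm ω hω
  have hN' : qadj Q w * w = N • 1 := by rw [hwad, hw, ← map_mul, hN, map_smul, map_one]
  have ha3 : a + a * a = 0 := by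
    have h1 : (a + a * a) • (1 : Matrix ι ι F) = qadj Q w * w - qadj Q ω * ω := by
      rw [hwω, qadj, GeoClasses.adj_add, GeoClasses.adj_smul, (isPolar_polarMat hB).adj_one]
      show _ = (qadj Q ω + a • (1 : Matrix ι ι F)) * (ω + a • 1) - qadj Q ω * ω
      rw [hωa, add_mul, mul_add, mul_add, Matrix.mul_smul, Matrix.smul_mul, mul_one, one_mul,
        Matrix.mul_smul, mul_one, smul_smul, smul_add, add_smul]
      have h3 := hadd (a • ω)
      calc a • (1 : Matrix ι ι F) + (a * a) • 1 = a • 1 + (a * a) • 1 + (a • ω + a • ω) := by rw [h3, add_zero]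
        _ = _ := by abel
    rw [hN', hN, sub_self] at h1
    exact (smul_eq_zero.1 h1).resolve_right one_ne_zero
  have h3 : ω *ᵥ ((h : Matrix ι ι F) *ᵥ x) = (h : Matrix ι ι F) *ᵥ (w *ᵥ x) := by
    rw [Matrix.mulVec_mulVec, Matrix.mulVec_mulVec, hw, GeoClasses.conjGL_apply, inv_inv]
    simp [← mul_assoc]
  show Q _ - _ = Q _ - _
  rw [isometry_apply (hH hh), h3, isometry_polar (hH hh), hwω, Matrix.add_mulVec, polar_add_left,
    Matrix.smul_mulVec, Matrix.one_mulVec, polar_smul_left, OrthGen.polar_self_two, h2, zero_mul, smul_zero,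
    add_zero]

/-- A non-self-adjoint quadratic field acts by similitudes. -/
theorem similitude_of_field (hB : BNondeg Q) (hn : 2 ≤ Fintype.card ι) {H : Subgroup (GL ι F)}
    (hH : H ≤ Cfsg.isometryGroup F ⇑Q) (hirr : ActsIrreducibly (matrixSet H)) (hK : IsFieldSubalgebra 2 K)
    (hs : StarClosed (RingEquiv.refl F) (polarMat Q) K) (hsa : ¬ ∀ k ∈ K, qadj Q k = k)
    (hle : H ≤ subalgebraNormalizer K) :
    ∀ k ∈ K, ∃ c : F, (k ≠ 0 → c ≠ 0) ∧ ∀ v, Q (k *ᵥ v) = c * Q v := by
  haveI : Nonempty ι := Fintype.card_pos_iff.1 (by omega)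
  obtain ⟨-, hnorm⟩ := exists_norm hB hK hs hsa
  intro k hk
  obtain ⟨c, hc⟩ := hnorm k hk
  have hc0 : k ≠ 0 → c ≠ 0 := fun hk0 h0 => by
    obtain ⟨y, hy, hky⟩ := hK.inv k hk hk0
    rw [h0, zero_smul] at hc
    have h1 : qadj Q k = 0 := by rw [← mul_one (qadj Q k), ← hky, ← mul_assoc, hc, zero_mul]
    apply hk0
    rw [← qadj_qadj (hB := hB) k, h1]
    exact GeoClasses.adj_zero
  have hpol : ∀ u v, polar Q (k *ᵥ u) (k *ᵥ v) = c * polar Q u v := fun u v => by
    rw [polar_qadj hB, Matrix.mulVec_mulVec, hc, Matrix.smul_mulVec, Matrix.one_mulVec, polar_smul_right,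
      smul_eq_mul]
  refine ⟨c, hc0, fun v => ?_⟩
  by_cases h2 : (2 : F) = 0
  · obtain ⟨ω, hω, hωa⟩ := exists_omega hB h2 hK hs hsa
    rw [quad_eq_omega hB hn h2 hH hirr hK hs hsa hle hω hωa v,
      quad_eq_omega hB hn h2 hH hirr hK hs hsa hle hω hωa (k *ᵥ v), Matrix.mulVec_mulVec,
      hK.comm ω hω k hk, ← Matrix.mulVec_mulVec, hpol]
  · have h := hpol v v
    rw [OrthGen.polar_self_two, OrthGen.polar_self_two] at h
    exact mul_left_cancel₀ h2 (by rw [h]; ring)

/-- A non-self-adjoint quadratic field with an odd number of lines gives minus type. -/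
theorem not_plus_of_field (hB : BNondeg Q) {H : Subgroup (GL ι F)}
    (hH : H ≤ Cfsg.isometryGroup F ⇑Q) (hirr : ActsIrreducibly (matrixSet H)) (hK : IsFieldSubalgebra 2 K)
    (hs : StarClosed (RingEquiv.refl F) (polarMat Q) K) (hsa : ¬ ∀ k ∈ K, qadj Q k = k)
    (hle : H ≤ subalgebraNormalizer K) {j : ℕ} (hj : Fintype.card ι = 4 * j + 2) :
    ¬ IsPlusTypeOn ⇑Q ⊤ := by
  haveI : Nonempty ι := Fintype.card_pos_iff.1 (by omega)
  have hn : 2 ≤ Fintype.card ι := by omega
  have hsim := similitude_of_field hB hn hH hirr hK hs hsa hle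
  -- lines on anisotropic vectors
  have hline : ∀ v, Q v ≠ 0 → IsNondegenerateOn (polar ⇑Q) (kline K v) ∧ finrank F (kline K v) = 2 ∧
      ∀ x ∈ kline K v, Q x = 0 → x = 0 := by
    intro v hv
    have hv0 : v ≠ 0 := fun h => hv (by rw [h, QuadraticMap.map_zero])
    have hani : ∀ x ∈ kline K v, Q x = 0 → x = 0 := by
      intro x hx hQx
      obtain ⟨k, hk, rfl⟩ := mem_kline.1 hx
      by_contra hne
      obtain ⟨c, hc, hcQ⟩ := hsim k hk
      rw [hcQ] at hQx
      exact mul_ne_zero (hc fun h => hne (by rw [h, Matrix.zero_mulVec])) hv hQx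
    refine ⟨fun x hx hx0 => ?_, finrank_kline hK hv0, hani⟩
    have key : ∃ y ∈ kline K v, polar Q y x ≠ 0 := by
      by_cases h2 : (2 : F) = 0
      · obtain ⟨ω, hω, hωa⟩ := exists_omega hB h2 hK hs hsa
        exact ⟨ω *ᵥ x, mulVec_mem_kline hω hx, by
          rw [← quad_eq_omega hB hn h2 hH hirr hK hs hsa hle hω hωa]; exact fun h => hx0 (hani x hx h)⟩
      · exact ⟨x, hx, by rw [OrthGen.polar_self_two]; exact mul_ne_zero h2 fun h => hx0 (hani x hx h)⟩
    exact ⟨key, key.imp fun y hy => ⟨hy.1, by rw [polar_comm]; exact hy.2⟩⟩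
  suffices key : ∀ (i : ℕ) (S : Submodule F (ι → F)), finrank F S = 4 * i + 2 →
      IsNondegenerateOn (polar ⇑Q) S → (∀ k ∈ K, ∀ x ∈ S, k *ᵥ x ∈ S) → ¬ IsPlusTypeOn ⇑Q S by
    refine key j ⊤ (by rw [finrank_top, Module.finrank_fintype_fun_eq_card, hj]) ?_
      fun _ _ _ _ => Submodule.mem_top
    rw [isNondegenerateOn_iff, top_inf_eq, eq_bot_iff]
    exact fun x hx => (Submodule.mem_bot F).2 (hB x fun y => (polar_comm Q x y).trans (hx y Submodule.mem_top))
  intro i
  induction i with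
  | zero =>
    rintro S hd hS hKS ⟨U, hUS, hU, hUd⟩
    obtain ⟨v, hv, hQv⟩ := exists_value_ne_zero hS fun h => by rw [h, finrank_bot] at hd; omega
    obtain ⟨-, hvd, hani⟩ := hline v hQv
    obtain ⟨u, hu, hu0⟩ := U.exists_mem_ne_zero_of_ne_bot fun h => by rw [h, finrank_bot] at hUd; omega
    refine hu0 (hani u ?_ (hU u hu))
    rw [Submodule.eq_of_le_of_finrank_eq (kline_le hKS hv) (by omega)]
    exact hUS hu
  | succ i ih =>
    intro S hd hS hKS hplus
    obtain ⟨v, hv, hQv⟩ := exists_value_ne_zero hS fun h => by rw [h, finrank_bot] at hd; omega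
    obtain ⟨hPn, hPd, hPa⟩ := hline v hQv
    obtain ⟨hS1, -, hd1⟩ := split_nondeg hB hS hPn (kline_le hKS hv)
    have hS1K : ∀ k ∈ K, ∀ x ∈ S ⊓ OrthGen.perpSub Q (kline K v), k *ᵥ x ∈ S ⊓ OrthGen.perpSub Q (kline K v) :=
      fun k hk x hx => ⟨hKS k hk x hx.1, perp_stable hB hs (fun k hk y hy => mulVec_mem_kline hk hy) k hk x hx.2⟩
    obtain ⟨w, hw, hQw⟩ := exists_value_ne_zero hS1 fun h => by rw [h, finrank_bot] at hd1; omega
    obtain ⟨hRn, hRd, hRa⟩ := hline w hQw
    have horth : AreOrthogonalFor (polar ⇑Q) (kline K v) (kline K w) := fun x hx y hy =>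
      (kline_le hS1K hw hy).2 x hx
    set X := kline K v ⊔ kline K w with hXdef
    have hXd : finrank F X = 4 := by rw [hXdef, finrank_sup_orth hPn horth, hPd, hRd]
    have hXn : IsNondegenerateOn (polar ⇑Q) X := by
      rw [isNondegenerateOn_iff, eq_bot_iff]
      rintro x ⟨hx, hx'⟩
      obtain ⟨a, ha, b, hb, rfl⟩ := Submodule.mem_sup.1 hx
      have ha0 : a ∈ kline K v ⊓ OrthGen.perpSub Q (kline K v) := ⟨ha, fun n hn => by
        have h1 : polar Q n (a + b) = 0 := hx' n (Submodule.mem_sup_left hn)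
        rwa [polar_add_right, horth n hn b hb, add_zero] at h1⟩
      have hb0 : b ∈ kline K w ⊓ OrthGen.perpSub Q (kline K w) := ⟨hb, fun n hn => by
        have h1 : polar Q n (a + b) = 0 := hx' n (Submodule.mem_sup_right hn)
        rwa [polar_add_right, polar_comm Q n a, horth a ha n hn, zero_add] at h1⟩
      rw [isNondegenerateOn_iff.1 hPn, Submodule.mem_bot] at ha0
      rw [isNondegenerateOn_iff.1 hRn, Submodule.mem_bot] at hb0
      simp [ha0, hb0]
    have hXK : ∀ k ∈ K, ∀ x ∈ X, k *ᵥ x ∈ X := fun k hk x hx => by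
      obtain ⟨a, ha, b, hb, rfl⟩ := Submodule.mem_sup.1 hx
      rw [Matrix.mulVec_add]
      exact Submodule.add_mem_sup (mulVec_mem_kline hk ha) (mulVec_mem_kline hk hb)
    -- a singular line of the field inside `X`
    have hXp : IsPlusTypeOn ⇑Q X := by
      have h3 : finrank F ↥((F ∙ v) ⊔ kline K w) = 3 := by
        have hv0 : v ≠ 0 := fun h => hQv (by rw [h, QuadraticMap.map_zero])
        have h := Submodule.finrank_sup_add_finrank_inf_eq (F ∙ v) (kline K w)
        rw [eq_bot_iff.2 ((inf_le_inf_right _ ((Submodule.span_singleton_le_iff_mem _ _).2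
          (self_mem_kline v))).trans (inf_eq_bot_of_orth hPn horth).le), finrank_bot,
          finrank_span_singleton hv0, hRd] at h
        omega
      obtain ⟨z, hz, hz0, hQz⟩ := Forms.exists_singular_vector_of_three_le Q
        (S := (F ∙ v) ⊔ kline K w) (by omega)
      have hzX : z ∈ X := sup_le_sup_right ((Submodule.span_singleton_le_iff_mem _ _).2 (self_mem_kline v)) _ hz
      refine plus_of_ts (U := kline K z) (kline_le hXK hzX) (fun y hy => ?_) (by rw [hXd]; decide) ?_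
      · obtain ⟨k, hk, rfl⟩ := mem_kline.1 hy
        obtain ⟨c, -, hcQ⟩ := hsim k hk
        rw [hcQ, hQz, mul_zero]
      · rw [hXd, finrank_kline hK hz0]
    have hXS : X ≤ S := sup_le (kline_le hKS hv) ((kline_le hS1K hw).trans inf_le_left)
    obtain ⟨hS2, hsup, hd2⟩ := split_nondeg hB hS hXn hXS
    refine ih _ (by omega) hS2 (fun k hk x hx => ⟨hKS k hk x hx.1, perp_stable hB hs hXK k hk x hx.2⟩) ?_
    exact plus_cancel hB hXn (fun u hu y hy => hy.2 u hu) hXp (hsup.symm ▸ hplus)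

end Field

end Cfsg.Agent.OrthMax
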