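import Cfsg.Agent.OrthMax.Types
import Cfsg.Agent.GeoClasses.Symplectic
import Cfsg.Agent.ClassicalMax.FormProper
import Cfsg.Agent.MaxSub.LinearClasses

/-!
Subgroups of the orthogonal groups in even dimension: the first reduction.
-/

set_option autoImplicit false
set_option linter.style.haveILetI false
set_option linter.unusedSectionVars false

namespace Cfsg.Agent.OrthMax

open Matrix Cfsg.Geo QuadraticMap Module
open Cfsg.Agent.Classical (OQ BNondeg)
open Cfsg.Agent.GeoClasses (formOf IsPolar IsSim adj StarClosed IsTensorData IsWreathData HasNonsolvableFactor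
  IsMinNormal ModComm spanAlg IsSimpleData gl_inv_mulVec gl_mulVec_inv)
open scoped MatrixGroups Matrix

variable {F : Type*} [Field F] {ι : Type} [Fintype ι] [DecidableEq ι] {Q : QuadraticForm F (ι → F)}

/-- The Gram matrix of the polar form. -/
def polarMat (Q : QuadraticForm F (ι → F)) : Matrix ι ι F := gramMatrix (polar ⇑Q)

theorem formOf_polarMat (Q : QuadraticForm F (ι → F)) :
    formOf (RingEquiv.refl F) (polarMat Q) = polar ⇑Q :=
  (GeoClasses.bilinearForm_eq_formOf (f := polar ⇑Q) ⟨fun x y v => polar_add_left Q x y v,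
    fun c x v => by rw [polar_smul_left, smul_eq_mul], fun v x y => polar_add_right Q v x y,
    fun c v x => by rw [polar_smul_right, smul_eq_mul]⟩).symm

theorem isPolar_polarMat (hB : BNondeg Q) : IsPolar (RingEquiv.refl F) (polarMat Q) 1 where
  invol _ := rfl
  unit := GeoClasses.isUnit_of_isNondegenerateForm (σ := RingEquiv.refl F) (by
    rw [formOf_polarMat]
    intro v hv
    obtain ⟨y, hy⟩ : ∃ y, polar Q v y ≠ 0 := by
      by_contra h
      push Not at h
      exact hv (hB v h)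
    exact ⟨⟨y, by rwa [polar_comm]⟩, ⟨y, hy⟩⟩)
  star := by
    ext i j
    simp [GeoClasses.starMat, polarMat, gramMatrix, polar_comm]

theorem isSim_of_isometry {g : GL ι F} (hg : g ∈ Cfsg.isometryGroup F ⇑Q) :
    IsSim (RingEquiv.refl F) (polarMat Q) g 1 :=
  GeoClasses.isSim_of_formOf fun u v => by rw [formOf_polarMat, one_mul]; exact isometry_polar hg u v

theorem isometry_inv_apply {g : GL ι F} (hg : g ∈ Cfsg.isometryGroup F ⇑Q) (v : ι → F) :
    Q (((g⁻¹ : GL ι F) : Matrix ι ι F) *ᵥ v) = Q v :=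
  isometry_apply ((Cfsg.isometryGroup F ⇑Q).inv_mem hg) v

/-- A non-degenerate subspace of odd dimension forces odd characteristic. -/
theorem two_ne_zero_of_odd [Finite F] {W : Submodule F (ι → F)} (hW : IsNondegenerateOn (polar ⇑Q) W)
    (ho : Odd (finrank F W)) : (2 : F) ≠ 0 := by
  obtain ⟨m, hm⟩ := ho
  obtain ⟨c, hc, e, he⟩ := normal_form_odd hW hm
  intro h2
  set z₀ : Unit ⊕ (Fin m ⊕ Fin m) → F := Pi.single (.inl ()) 1
  have hne : e.symm z₀ ≠ 0 := fun h => by
    have := congrArg (fun w => e w (.inl ())) h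
    simp [z₀] at this
  obtain ⟨⟨x, hx, hx'⟩, -⟩ := hW _ (e.symm z₀).2 (fun h => hne (Subtype.ext h))
  apply hx'
  obtain ⟨z, hz⟩ : ∃ z, e.symm z = ⟨x, hx⟩ := ⟨e ⟨x, hx⟩, e.symm_apply_apply _⟩
  have hval : ∀ z, Q (e.symm z : ι → F) = c * Cfsg.quadFormOdd m F z := fun z => by
    rw [he, LinearEquiv.apply_symm_apply]
  have hxz : x = (e.symm z : ι → F) := (congrArg Subtype.val hz).symm
  rw [hxz]
  simp only [polar, ← Submodule.coe_add, ← map_add, hval]
  simp [Cfsg.quadFormOdd, z₀]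
  linear_combination c * z (.inl ()) * h2

/-- Transitively permuted parts are isometric. -/
theorem isOrthogonalMDecomposition_of_trans {t k : ℕ} {D : Fin t → Submodule F (ι → F)} {H : Subgroup (GL ι F)}
    (hH : H ≤ Cfsg.isometryGroup F ⇑Q) (hD : IsNondegenerateMDecomposition (polar ⇑Q) k D)
    (htr : ∀ i j, ∃ g ∈ H, (D i).map (Matrix.toLin' (g : Matrix ι ι F)) = D j) :
    IsOrthogonalMDecomposition ⇑Q k D := by
  refine ⟨hD, fun i j => ?_⟩
  obtain ⟨g, hg, hgD⟩ := htr i j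
  have hinj : Function.Injective (Matrix.toLin' (g : Matrix ι ι F)) := fun x y h => by
    rw [Matrix.toLin'_apply, Matrix.toLin'_apply] at h
    exact GeoClasses.mulVec_injective g h
  refine ⟨(Submodule.equivMapOfInjective _ hinj (D i)).trans (LinearEquiv.ofEq _ _ hgD), fun w => ?_⟩
  exact (congrArg (⇑Q) (Matrix.toLin'_apply (g : Matrix ι ι F) (w : ι → F))).trans (isometry_apply (hH hg) _)

/-- The outcomes of the reduction. -/
theorem even_cases [Fintype F] (hB : BNondeg Q) (hn : 8 ≤ Fintype.card ι) (he : Even (Fintype.card ι))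
    {H : Subgroup (GL ι F)} (hH : H ≤ omegaGL ⇑Q) :
    (∃ W : Submodule F (ι → F), W ≠ ⊥ ∧ IsTotallySingularQuad ⇑Q W ∧ H ≤ subspaceStabilizer W) ∨
    ((2 : F) = 0 ∧ ∃ v : ι → F, Q v ≠ 0 ∧ H ≤ subspaceStabilizer (Submodule.span F {v})) ∨
    (∃ W : Submodule F (ι → F), 0 < finrank F W ∧ 2 * finrank F W ≤ Fintype.card ι ∧
      IsNondegenerateOn (polar ⇑Q) W ∧ H ≤ subspaceStabilizer W ∧
      H ≤ subspaceStabilizer (OrthGen.perpSub Q W)) ∨
    (ActsIrreducibly (matrixSet H) ∧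
      ((∃ (t k : ℕ) (D : Fin t → Submodule F (ι → F)),
          IsOrthogonalMDecomposition ⇑Q k D ∧ H ≤ decompositionStabilizer D) ∨
      (∃ (k : ℕ) (D : Fin 2 → Submodule F (ι → F)), 2 * k = Fintype.card ι ∧ IsMDecomposition k D ∧
          (∀ i, IsTotallySingularQuad ⇑Q (D i)) ∧ H ≤ decompositionStabilizer D ∧
          ∃ g ∈ H, (D 0).map (Matrix.toLin' (g : Matrix ι ι F)) = D 1) ∨
      (∃ (r : ℕ) (K : Subalgebra F (Matrix ι ι F)), r.Prime ∧ r ∣ Fintype.card ι ∧ IsFieldSubalgebra r K ∧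
          StarClosed (RingEquiv.refl F) (polarMat Q) K ∧ H ≤ subalgebraNormalizer K) ∨
      (∃ (a b : ℕ) (L : (Fin a × Fin b → F) ≃ₗ[F] (ι → F)) (J₁ : Matrix (Fin a) (Fin a) F)
          (J₂ : Matrix (Fin b) (Fin b) F), IsTensorData (RingEquiv.refl F) (polarMat Q) 1 H L J₁ J₂) ∨
      (∃ (a t : ℕ) (L : ((Fin t → Fin a) → F) ≃ₗ[F] (ι → F)) (J : Matrix (Fin a) (Fin a) F) (s : F),
          IsWreathData (RingEquiv.refl F) (polarMat Q) 1 H L J s ∧ HasNonsolvableFactor (RingEquiv.refl F) J) ∨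
      (∃ N, IsMinNormal (H ⊔ scalars ι F) N ∧ ModComm N ∧ spanAlg N = ⊤) ∨
      (∃ P, IsSimpleData (RingEquiv.refl F) (polarMat Q) H P))) := by
  classical
  haveI : Nonempty ι := Fintype.card_pos_iff.1 (by omega)
  have hP := isPolar_polarMat hB
  have hHiso : H ≤ Cfsg.isometryGroup F ⇑Q := hH.trans omega_le_isometry
  have hH' : ∀ h ∈ H, IsSim (RingEquiv.refl F) (polarMat Q) h 1 := fun h hh => isSim_of_isometry (hHiso hh)
  by_cases hirr : ActsIrreducibly (matrixSet H)
  swap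
  · obtain ⟨W, hb, ht, hW⟩ : ∃ W : Submodule F (ι → F), W ≠ ⊥ ∧ W ≠ ⊤ ∧ H ≤ subspaceStabilizer W := by
      simp only [ActsIrreducibly, not_forall, not_or] at hirr
      obtain ⟨W, hW, hb, ht⟩ := hirr
      exact ⟨W, hb, ht, fun g hg => GeoClasses.mem_subspaceStabilizer_of_le fun v hv =>
        hW _ ⟨g, hg, rfl⟩ ⟨v, hv, Matrix.toLin'_apply _ _⟩⟩
    have hWperp : H ≤ subspaceStabilizer (OrthGen.perpSub Q W) :=
      (le_inf hW hHiso).trans (stabilizer_le_stabilizer_perp W)
    by_cases hR : W ⊓ OrthGen.perpSub Q W = ⊥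
    · have hnd : IsNondegenerateOn (polar ⇑Q) W := isNondegenerateOn_iff.2 hR
      have hd := finrank_perp_add hB W
      refine Or.inr (Or.inr (Or.inl ?_))
      by_cases hlt : 2 * finrank F W ≤ Fintype.card ι
      · exact ⟨W, Nat.pos_of_ne_zero fun h => hb (Submodule.finrank_eq_zero.1 h), hlt, hnd, hW, hWperp⟩
      · refine ⟨OrthGen.perpSub Q W, ?_, by omega, isNondegenerateOn_perp hB hnd, hWperp,
          by rw [perp_perp hB]; exact hW⟩
        have := Submodule.finrank_lt ht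
        rw [Module.finrank_fintype_fun_eq_card] at this
        omega
    set R := W ⊓ OrthGen.perpSub Q W with hRdef
    have hRH : ∀ h ∈ H, ∀ x ∈ R, (h : Matrix ι ι F) *ᵥ x ∈ R := fun h hh x hx =>
      ⟨(GeoClasses.mem_subspaceStabilizer_iff.1 (hW hh) x).1 hx.1,
        (GeoClasses.mem_subspaceStabilizer_iff.1 (hWperp hh) x).1 hx.2⟩
    have hadd : ∀ x ∈ R, ∀ y ∈ R, Q (x + y) = Q x + Q y := fun x hx y hy => by
      rw [Classical.qf_add, show polar Q x y = 0 from hy.2 x hx.1, add_zero]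
    let X₀ : Submodule F (ι → F) :=
      { carrier := {x | x ∈ R ∧ Q x = 0}
        add_mem' := fun {a b} ha hb => ⟨R.add_mem ha.1 hb.1, by rw [hadd a ha.1 b hb.1, ha.2, hb.2, add_zero]⟩
        zero_mem' := ⟨R.zero_mem, QuadraticMap.map_zero Q⟩
        smul_mem' := fun c a ha => ⟨R.smul_mem c ha.1, by rw [QuadraticMap.map_smul, ha.2, smul_zero]⟩ }
    by_cases hX : X₀ = ⊥
    swap
    · exact Or.inl ⟨X₀, hX, fun x hx => hx.2, fun g hg => GeoClasses.mem_subspaceStabilizer_of_le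
        fun x hx => ⟨hRH g hg x hx.1, by rw [isometry_apply (hHiso hg)]; exact hx.2⟩⟩
    obtain ⟨u, hu, hu0⟩ := R.exists_mem_ne_zero_of_ne_bot hR
    have hinj : ∀ x ∈ R, Q x = 0 → x = 0 := fun x hx h => by
      have : x ∈ X₀ := ⟨hx, h⟩
      rwa [hX, Submodule.mem_bot] at this
    have hQu : Q u ≠ 0 := fun h => hu0 (hinj u hu h)
    have h2 : (2 : F) = 0 := by
      by_contra h2
      apply hQu
      have h : polar Q u u = 0 := hu.2 u hu.1
      rw [OrthGen.polar_self_two] at h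
      exact (mul_eq_zero.1 h).resolve_left h2
    refine Or.inr (Or.inl ⟨h2, u, hQu, fun g hg => GeoClasses.mem_subspaceStabilizer_of_le fun x hx => ?_⟩)
    obtain ⟨c, rfl⟩ := Submodule.mem_span_singleton.1 hx
    rw [Matrix.mulVec_smul]
    refine Submodule.smul_mem _ _ ?_
    have hgu := hRH g hg u hu
    have h0 : (g : Matrix ι ι F) *ᵥ u - u = 0 := hinj _ (R.sub_mem hgu hu) (by
      rw [Classical.qf_sub, isometry_apply (hHiso hg), show polar Q ((g : Matrix ι ι F) *ᵥ u) u = 0 from hu.2 _ hgu.1]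
      linear_combination Q u * h2)
    rw [sub_eq_zero.1 h0]
    exact Submodule.mem_span_singleton_self u
  refine Or.inr (Or.inr (Or.inr ⟨hirr, ?_⟩))
  rcases hP.isometry_cases hH' hirr (by omega) with
    ⟨t, k, D, hD, hle, htr⟩ | ⟨A, e, he', h01⟩ | ⟨r, K, hr, hK, hKs, hle⟩ | h | h | ⟨-, h⟩ | ⟨-, h⟩
  · rw [formOf_polarMat] at hD
    exact Or.inl ⟨t, k, D, isOrthogonalMDecomposition_of_trans hHiso hD htr, hle⟩
  · obtain ⟨k, hk, hle⟩ := he'.decomposition
    have h10 : adj (RingEquiv.refl F) (polarMat Q) (e 1) = e 0 := by rw [← h01, hP.adj_adj]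
    have hts : ∀ i, IsTotallySingularFor (polar ⇑Q) (GeoClasses.blockSpaces e i) := fun i => by
      have := hP.singular_pair he' h01 i
      rwa [formOf_polarMat] at this
    have hQ0 : ∀ i, IsTotallySingularQuad ⇑Q (GeoClasses.blockSpaces e i) := by
      intro i w hw
      by_cases h2 : (2 : F) = 0
      swap
      · have := hts i w hw w hw
        rw [OrthGen.polar_self_two] at this
        exact (mul_eq_zero.1 this).resolve_left h2
      have hsum : ∀ v, e 0 *ᵥ v + e 1 *ᵥ v = v := fun v => by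
        rw [← Matrix.add_mulVec, show e 0 + e 1 = 1 by rw [← he'.sum_eq, Fin.sum_univ_two], Matrix.one_mulVec]
      have hmem : ∀ i v, e i *ᵥ v ∈ GeoClasses.blockSpaces e i := fun i v => ⟨v, Matrix.toLin'_apply _ _⟩
      have hDz := GeoClasses.eq_zero_of_additive_irreducible hirr h2 (by omega)
        (D := fun v => Q v - polar Q (e 0 *ᵥ v) (e 1 *ᵥ v)) (fun x y => ?_) (fun c x => ?_) (fun g hg v => ?_) w
      · have h0 := sub_eq_zero.1 hDz
        rw [GeoClasses.mem_blockSpaces he'.idem] at hw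
        rw [h0]
        rcases (show i = 0 ∨ i = 1 by omega) with rfl | rfl
        · rw [← hw, Matrix.mulVec_mulVec _ (e 1), he'.orth 1 0 (by decide), Matrix.zero_mulVec, polar_zero_right]
        · rw [← hw, Matrix.mulVec_mulVec _ (e 0), he'.orth 0 1 (by decide), Matrix.zero_mulVec, polar_zero_left]
      · simp only [Matrix.mulVec_add, polar_add_left, polar_add_right]
        have hxy : polar Q x y = polar Q (e 0 *ᵥ x) (e 1 *ᵥ y) + polar Q (e 0 *ᵥ y) (e 1 *ᵥ x) := by
          conv_lhs => rw [← hsum x, ← hsum y]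
          simp only [polar_add_left, polar_add_right, hts 0 _ (hmem 0 x) _ (hmem 0 y),
            hts 1 _ (hmem 1 x) _ (hmem 1 y), polar_comm Q (e 1 *ᵥ x) (e 0 *ᵥ y)]
          ring
        rw [Classical.qf_add, hxy]
        ring
      · simp only [Matrix.mulVec_smul, polar_smul_left, polar_smul_right, QuadraticMap.map_smul, smul_eq_mul]
        ring
      · obtain ⟨ρ, hρ⟩ := he'.exists_perm hg
        have hc : ∀ j, e (ρ j) *ᵥ ((g : Matrix ι ι F) *ᵥ v) = (g : Matrix ι ι F) *ᵥ (e j *ᵥ v) := fun j => by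
          rw [← hρ j, GeoClasses.conjGL_apply, Matrix.mulVec_mulVec, Matrix.mulVec_mulVec]
          simp [mul_assoc]
        have h0 := hc 0
        have h1 := hc 1
        show Q _ - _ = Q _ - _
        rw [isometry_apply (hHiso hg)]
        rcases (show ρ 0 = 0 ∧ ρ 1 = 1 ∨ ρ 0 = 1 ∧ ρ 1 = 0 by
          have hne : ρ 0 ≠ ρ 1 := fun h => absurd (ρ.injective h) (by decide)
          omega) with ⟨e0, e1⟩ | ⟨e0, e1⟩ <;> rw [e0] at h0 <;> rw [e1] at h1 <;>
          rw [h0, h1, isometry_polar (hHiso hg)]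
        rw [polar_comm]
    have hcard := GeoClasses.card_eq_of_decomposition hk
    obtain ⟨g, hg, hg01⟩ := he'.trans 0 1
    exact Or.inr (Or.inl ⟨k, GeoClasses.blockSpaces e, hcard, hk, hQ0, hle, g, hg, he'.map_blockSpaces hg01⟩)
  · exact Or.inr (Or.inr (Or.inl ⟨r, K, hr, MaxSub.degree_dvd_card hK, hK, hKs, hle⟩))
  · exact Or.inr (Or.inr (Or.inr (Or.inl h)))
  · exact Or.inr (Or.inr (Or.inr (Or.inr (Or.inl h))))
  · exact Or.inr (Or.inr (Or.inr (Or.inr (Or.inr (Or.inl h)))))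
  · exact Or.inr (Or.inr (Or.inr (Or.inr (Or.inr (Or.inr h)))))

end Cfsg.Agent.OrthMax
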