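import Cfsg.Agent.OrthMax.EvenDecomp
import Cfsg.Agent.OrthMax.EvenTensor

/-!
Two special cases over the field with two elements in dimension twelve.
-/

set_option autoImplicit false
set_option linter.style.haveILetI false
set_option linter.unusedSectionVars false

namespace Cfsg.Agent.OrthMax

open Matrix Cfsg.Geo QuadraticMap Module
open Cfsg.Agent.Classical (OQ BNondeg)
open Cfsg.Agent.GeoClasses (IsTensorData conjMat conjGL altTwo Normalises)
open scoped MatrixGroups Matrix Kronecker

variable {F : Type*} [Field F] {ι : Type} [Fintype ι] [DecidableEq ι] {Q : QuadraticForm F (ι → F)}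

/-- The two orthogonal anisotropic planes of a plus space of dimension four over two elements. -/
theorem exists_minus_pair (hall : ∀ c : F, c = 0 ∨ c = 1) [Fintype F] {W : Submodule F (ι → F)}
    (hW : IsNondegenerateOn (polar ⇑Q) W) (hd : finrank F W = 4) (hplus : IsPlusTypeOn ⇑Q W) :
    ∃ p : Fin 2 → Fin 2 → (ι → F), (∀ s k, p s k ∈ W ∧ Q (p s k) = 1) ∧
      (∀ s, polar Q (p s 0) (p s 1) = 1) ∧ (∀ s s' k k', s ≠ s' → polar Q (p s k) (p s' k') = 0) ∧
      ∀ x ∈ W, Q x = 1 → ∃ s, x ∈ Submodule.span F ({p s 0, p s 1} : Set (ι → F)) := by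
  classical
  obtain ⟨m, hm, e, he⟩ : ∃ m, finrank F W = 2 * m ∧ ∃ e : W ≃ₗ[F] (Fin m ⊕ Fin m → F),
      ∀ w : W, Q (w : ι → F) = Cfsg.quadFormPlus m F (e w) := by
    rcases normal_form_even hW (by rw [hd]; decide) with ⟨-, h⟩ | ⟨h, -⟩
    · exact h
    · exact absurd hplus h
  obtain rfl : m = 2 := by omega
  let V : (Fin 4 → F) → (ι → F) := fun z => (e.symm (Sum.elim ![z 0, z 1] ![z 2, z 3]) : W)
  have hV : ∀ z, Q (V z) = z 0 * z 2 + z 1 * z 3 := fun z => by
    show Q _ = _
    rw [he, e.apply_symm_apply]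
    simp [Cfsg.quadFormPlus, Fin.sum_univ_two]
  have hVadd : ∀ z z', V (z + z') = V z + V z' := fun z z' => by
    show ((e.symm _ : W) : ι → F) = _ + _
    rw [← Submodule.coe_add, ← map_add]
    congr 2
    funext i
    rcases i with i | i <;> fin_cases i <;> simp
  have hVmem : ∀ z, V z ∈ W := fun z => (e.symm _).2
  have hVp : ∀ z z', polar Q (V z) (V z') = z 0 * z' 2 + z' 0 * z 2 + (z 1 * z' 3 + z' 1 * z 3) := fun z z' => by
    simp only [polar, ← hVadd, hV, Pi.add_apply]
    ring
  have h2 : (2 : F) = 0 := by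
    rcases hall 2 with h | h
    · exact h
    · exact absurd (show (1 : F) = 0 by linear_combination h) one_ne_zero
  let p : Fin 2 → Fin 2 → (ι → F) := ![![V ![1, 0, 1, 0], V ![1, 1, 0, 1]], ![V ![0, 1, 0, 1], V ![1, 1, 1, 0]]]
  refine ⟨p, ?_, ?_, ?_, fun x hx hQx => ?_⟩
  · intro s k
    fin_cases s <;> fin_cases k <;> simp [p, hV, hVmem]
  · intro s
    fin_cases s <;> simp [p, hVp]
  · intro s s' k k' hne
    fin_cases s <;> fin_cases s' <;> fin_cases k <;> fin_cases k' <;>
      first | exact absurd rfl hne | (simp [p, hVp]; done) | (simp [p, hVp]; linear_combination h2)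
  obtain ⟨z, rfl⟩ : ∃ z, V z = x := by
    refine ⟨![e ⟨x, hx⟩ (.inl 0), e ⟨x, hx⟩ (.inl 1), e ⟨x, hx⟩ (.inr 0), e ⟨x, hx⟩ (.inr 1)], ?_⟩
    show ((e.symm _ : W) : ι → F) = x
    have h1 : (Sum.elim ![e ⟨x, hx⟩ (.inl 0), e ⟨x, hx⟩ (.inl 1)] ![e ⟨x, hx⟩ (.inr 0), e ⟨x, hx⟩ (.inr 1)]
        : Fin 2 ⊕ Fin 2 → F) = e ⟨x, hx⟩ := by
      funext i
      rcases i with i | i <;> fin_cases i <;> simp
    simp only [Matrix.cons_val_zero, Matrix.cons_val_one, Matrix.cons_val]
    rw [h1, e.symm_apply_apply]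
  rw [hV] at hQx
  have hz : z = ![1, 0, 1, 0] ∨ z = ![1, 1, 0, 1] ∨ z = ![1, 0, 1, 0] + ![1, 1, 0, 1] ∨
      z = ![0, 1, 0, 1] ∨ z = ![1, 1, 1, 0] ∨ z = ![0, 1, 0, 1] + ![1, 1, 1, 0] := by
    rw [show z = ![z 0, z 1, z 2, z 3] from funext fun i => by fin_cases i <;> simp]
    rcases hall (z 0) with a | a <;> rcases hall (z 1) with b | b <;> rcases hall (z 2) with c | c <;>
      rcases hall (z 3) with d | d <;> rw [a, b, c, d] at hQx ⊢ <;>
      first
        | (exfalso; simp [h2, show (1 : F) + 1 = 0 by linear_combination h2] at hQx; done)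
        | simp [show (1 : F) + 1 = 0 by linear_combination h2]
  have hs : ∀ s k, p s k ∈ Submodule.span F ({p s 0, p s 1} : Set (ι → F)) := fun s k =>
    Submodule.subset_span (by fin_cases k <;> simp)
  rcases hz with rfl | rfl | rfl | rfl | rfl | rfl
  · exact ⟨0, hs 0 0⟩
  · exact ⟨0, hs 0 1⟩
  · exact ⟨0, by rw [hVadd]; exact Submodule.add_mem _ (hs 0 0) (hs 0 1)⟩
  · exact ⟨1, hs 1 0⟩
  · exact ⟨1, hs 1 1⟩
  · exact ⟨1, by rw [hVadd]; exact Submodule.add_mem _ (hs 1 0) (hs 1 1)⟩

/-- Three plus spaces of dimension four over two elements refine to six minus planes. -/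
theorem six_planes_of_three [Fintype F] (h2 : Fintype.card F = 2) (hn : Fintype.card ι = 12)
    {H : Subgroup (GL ι F)} (hH : H ≤ Cfsg.isometryGroup F ⇑Q) {D : Fin 3 → Submodule F (ι → F)}
    (hD : IsOrthogonalMDecomposition ⇑Q 4 D) (hplus : ∀ i, IsPlusTypeOn ⇑Q (D i))
    (hle : H ≤ decompositionStabilizer D) :
    ∃ D' : Fin 6 → Submodule F (ι → F), IsOrthogonalMDecomposition ⇑Q 2 D' ∧
      (∀ i, ¬ IsPlusTypeOn ⇑Q (D' i)) ∧ H ≤ decompositionStabilizer D' := by
  classical
  have hall : ∀ c : F, c = 0 ∨ c = 1 := fun c => by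
    by_cases hc : c = 0
    · exact Or.inl hc
    · exact Or.inr (by simpa [h2] using FiniteField.pow_card_sub_one_eq_one c hc)
  have h20 : (2 : F) = 0 := by
    rcases hall 2 with h | h
    · exact h
    · exact absurd (show (1 : F) = 0 by linear_combination h) one_ne_zero
  choose p hp hp1 hp0 hclass using
    fun i => exists_minus_pair hall (hD.1.nondegenerate i) (hD.1.decomp.finrank_eq i) (hplus i)
  let e6 : Fin 3 × Fin 2 ≃ Fin 6 := finProdFinEquiv (m := 3) (n := 2)
  let D' : Fin 6 → Submodule F (ι → F) := fun q =>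
    Submodule.span F ({p (e6.symm q).1 (e6.symm q).2 0, p (e6.symm q).1 (e6.symm q).2 1} : Set (ι → F))
  have hD' : ∀ i s, D' (e6 (i, s)) = Submodule.span F ({p i s 0, p i s 1} : Set (ι → F)) := fun i s => by
    simp only [D', Equiv.symm_apply_apply]
  have hQ : ∀ i s (a b : F), Q (a • p i s 0 + b • p i s 1) = a * a + b * b + a * b := fun i s a b => by
    rw [Classical.qf_add, QuadraticMap.map_smul, QuadraticMap.map_smul, (hp i s 0).2, (hp i s 1).2,
      polar_smul_left, polar_smul_right, hp1]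
    simp
  have hmemD : ∀ i s, D' (e6 (i, s)) ≤ D i := fun i s => by
    rw [hD', Submodule.span_le]
    rintro _ (rfl | rfl)
    exacts [(hp i s 0).1, (hp i s 1).1]
  have haniso : ∀ q, ∀ x ∈ D' q, Q x = 0 → x = 0 := by
    intro q x hx h0
    obtain ⟨⟨i, s⟩, rfl⟩ := e6.surjective q
    rw [hD', Submodule.mem_span_pair] at hx
    obtain ⟨a, b, rfl⟩ := hx
    rw [hQ] at h0
    rcases hall a with rfl | rfl <;> rcases hall b with rfl | rfl <;> simp at h0 ⊢
    exact absurd (show (1 : F) = 0 by linear_combination h0 - h20) one_ne_zero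
  have hli : ∀ i s, LinearIndependent F ![p i s 0, p i s 1] := fun i s => by
    rw [LinearIndependent.pair_iff]
    intro a b hab
    have e0 := congrArg (polar Q (p i s 0)) hab
    have e1 := congrArg (polar Q (p i s 1)) hab
    simp only [polar_add_right, polar_smul_right, OrthGen.polar_self_two, polar_comm Q (p i s 1) (p i s 0), hp1,
      (hp i s 0).2, (hp i s 1).2, h20, polar_zero_right, smul_eq_mul, mul_zero, mul_one, zero_mul, zero_add,
      add_zero] at e0 e1
    exact ⟨e1, e0⟩
  have hd : ∀ q, finrank F (D' q) = 2 := fun q => by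
    obtain ⟨⟨i, s⟩, rfl⟩ := e6.surjective q
    rw [hD', show ({p i s 0, p i s 1} : Set (ι → F)) = Set.range ![p i s 0, p i s 1] by
      simp [Matrix.range_cons, Matrix.range_empty, Set.pair_comm], finrank_span_eq_card (hli i s), Fintype.card_fin]
  have hnd : ∀ q, IsNondegenerateOn (polar ⇑Q) (D' q) := by
    intro q x hx hx0
    obtain ⟨⟨i, s⟩, rfl⟩ := e6.surjective q
    obtain ⟨a, b, rfl⟩ := Submodule.mem_span_pair.1 ((hD' i s) ▸ hx)
    have hm0 : p i s 0 ∈ D' (e6 (i, s)) := by rw [hD']; exact Submodule.subset_span (Set.mem_insert _ _)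
    have hm1 : p i s 1 ∈ D' (e6 (i, s)) := by
      rw [hD']; exact Submodule.subset_span (Set.mem_insert_of_mem _ rfl)
    have hex : ∃ y ∈ D' (e6 (i, s)), polar Q y (a • p i s 0 + b • p i s 1) ≠ 0 := by
      by_cases hb : b = 0
      · refine ⟨_, hm1, ?_⟩
        subst hb
        rw [zero_smul, add_zero, polar_smul_right, polar_comm, hp1, smul_eq_mul, mul_one]
        intro ha
        exact hx0 (by rw [ha, zero_smul, zero_smul, add_zero])
      · refine ⟨_, hm0, ?_⟩
        rw [polar_add_right, polar_smul_right, polar_smul_right, OrthGen.polar_self_two, h20, zero_mul, hp1,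
          smul_zero, zero_add, smul_eq_mul, mul_one]
        exact hb
    obtain ⟨y, hy, hne⟩ := hex
    exact ⟨⟨y, hy, hne⟩, ⟨y, hy, by rwa [polar_comm]⟩⟩
  have horth : ∀ q q', q ≠ q' → AreOrthogonalFor (polar ⇑Q) (D' q) (D' q') := by
    intro q q' hne x hx y hy
    obtain ⟨⟨i, s⟩, rfl⟩ := e6.surjective q
    obtain ⟨⟨j, s'⟩, rfl⟩ := e6.surjective q'
    by_cases hij : i = j
    · subst hij
      have hs : s ≠ s' := fun h => hne (by rw [h])
      rw [hD', Submodule.mem_span_pair] at hx hy
      obtain ⟨a, b, rfl⟩ := hx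
      obtain ⟨c, d, rfl⟩ := hy
      simp [polar_add_left, polar_add_right, polar_smul_left, polar_smul_right, hp0 i s s' _ _ hs]
    · exact hD.1.orthogonal i j hij x (hmemD i s hx) y (hmemD j s' hy)
  have hdec := decomp_of_orth (by norm_num) (by norm_num) hd hnd horth (by rw [hn])
  have hminus : ∀ q, ¬ IsPlusTypeOn ⇑Q (D' q) := by
    rintro q ⟨U, hUD, hU, hUd⟩
    obtain ⟨u, hu, hu0⟩ := U.exists_mem_ne_zero_of_ne_bot fun hb => by rw [hb, finrank_bot, hd] at hUd; omega
    exact hu0 (haniso q u (hUD hu) (hU u hu))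
  refine ⟨D', ⟨hdec, fun q q' => areIsometric_of_type (hnd q) (hnd q') (by rw [hd, hd]) (by rw [hd]; decide)
    (iff_of_false (hminus q) (hminus q'))⟩, hminus, fun h hh => mem_decompositionStabilizer_of hdec.decomp ?_⟩
  intro q
  obtain ⟨⟨i, s⟩, rfl⟩ := e6.surjective q
  obtain ⟨π, hπ⟩ := exists_perm_of_mem (hle hh)
  have hq : ∀ k, Q ((h : Matrix ι ι F) *ᵥ p i s k) = 1 := fun k => by
    rw [isometry_apply (hH hh)]; exact (hp i s k).2
  obtain ⟨s0, hs0⟩ := hclass (π i) _ (hπ i _ (hp i s 0).1) (hq 0)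
  obtain ⟨s1, hs1⟩ := hclass (π i) _ (hπ i _ (hp i s 1).1) (hq 1)
  have hs : s0 = s1 := by
    by_contra hne
    have h1 : polar Q ((h : Matrix ι ι F) *ᵥ p i s 0) ((h : Matrix ι ι F) *ᵥ p i s 1) = 0 :=
      horth (e6 (π i, s0)) (e6 (π i, s1)) (fun h' => hne (congrArg Prod.snd (e6.injective h'))) _
        (by rw [hD']; exact hs0) _ (by rw [hD']; exact hs1)
    rw [isometry_polar (hH hh), hp1] at h1
    exact one_ne_zero h1
  refine ⟨e6 (π i, s0), fun x hx => ?_⟩
  rw [hD', Submodule.mem_span_pair] at hx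
  obtain ⟨a, b, rfl⟩ := hx
  rw [Matrix.mulVec_add, Matrix.mulVec_smul, Matrix.mulVec_smul, hD']
  exact Submodule.add_mem _ (Submodule.smul_mem _ _ hs0) (Submodule.smul_mem _ _ (hs ▸ hs1))

/-- A tensor decomposition with an alternating plane over two elements normalises a field. -/
theorem field_of_tensor_two [Fintype F] (h2 : Fintype.card F = 2) {b : ℕ} {H : Subgroup (GL ι F)}
    {L : (Fin 2 × Fin b → F) ≃ₗ[F] (ι → F)} {J₁ : Matrix (Fin 2) (Fin 2) F} {J₂ : Matrix (Fin b) (Fin b) F}
    (hT : IsTensorData (RingEquiv.refl F) (polarMat Q) 1 H L J₁ J₂) :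
    ∃ K : Subalgebra F (Matrix ι ι F), IsFieldSubalgebra 2 K ∧ H ≤ subalgebraNormalizer K := by
  classical
  haveI : NeZero b := ⟨by have := hT.right_two_le; omega⟩
  have hall : ∀ c : F, c = 0 ∨ c = 1 := fun c => by
    by_cases hc : c = 0
    · exact Or.inl hc
    · exact Or.inr (by simpa [h2] using FiniteField.pow_card_sub_one_eq_one c hc)
  have h20 : (1 : F) + 1 = 0 := by
    rcases hall (1 + 1) with h | h
    · exact h
    · exact absurd (show (1 : F) = 0 by linear_combination h) one_ne_zero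
  let W : Matrix (Fin 2) (Fin 2) F := !![0, 1; 1, 1]
  set ω := conjMat L (W ⊗ₖ (1 : Matrix (Fin b) (Fin b) F)) with hω
  have hWW : W * W = 1 + W := by
    ext i j
    fin_cases i <;> fin_cases j <;> simp [W, Matrix.mul_apply, Fin.sum_univ_two, h20]
  have hωω : ω * ω = 1 + ω := by
    rw [hω, ← map_mul, ← Matrix.mul_kronecker_mul, one_mul, hWW, Matrix.add_kronecker, Matrix.one_kronecker_one,
      map_add, map_one]
  set K := Algebra.adjoin F ({ω} : Set (Matrix ι ι F)) with hK
  have hform : ∀ x ∈ K, ∃ c d : F, x = c • (1 : Matrix ι ι F) + d • ω := by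
    intro x hx
    induction hx using Algebra.adjoin_induction with
    | mem x hx => rw [Set.mem_singleton_iff] at hx; exact ⟨0, 1, by simp [hx]⟩
    | algebraMap c => exact ⟨c, 0, by simp [Algebra.algebraMap_eq_smul_one]⟩
    | add x y _ _ hx hy =>
      obtain ⟨c, d, rfl⟩ := hx
      obtain ⟨c', d', rfl⟩ := hy
      exact ⟨c + c', d + d', by simp only [add_smul]; abel⟩
    | mul x y _ _ hx hy =>
      obtain ⟨c, d, rfl⟩ := hx
      obtain ⟨c', d', rfl⟩ := hy
      refine ⟨c * c' + d * d', c * d' + d * c' + d * d', ?_⟩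
      simp only [add_mul, mul_add, Matrix.smul_mul, Matrix.mul_smul, one_mul, mul_one, hωω, smul_add, smul_smul,
        add_smul]
      simp only [mul_comm c', mul_comm d']
      abel
  have hmem : ∀ c d : F, c • (1 : Matrix ι ι F) + d • ω ∈ K := fun c d =>
    add_mem (K.smul_mem K.one_mem c) (K.smul_mem (Algebra.subset_adjoin rfl) d)
  have hWne : ∀ c : F, W ≠ c • (1 : Matrix (Fin 2) (Fin 2) F) := fun c hc => by
    have := congrFun (congrFun hc 0) 1
    simp [W] at this
  have hne : ∀ c d : F, c • (1 : Matrix ι ι F) + d • ω = 0 → c = 0 ∧ d = 0 := by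
    intro c d h0
    have h1 : c • (1 : Matrix (Fin 2) (Fin 2) F) + d • W = 0 := by
      rw [hω, ← map_one (conjMat L), ← map_smul, ← map_smul, ← map_add] at h0
      have h' := (conjMat L).injective (h0.trans (map_zero (conjMat L)).symm)
      ext i j
      have := congrFun (congrFun h' (i, 0)) (j, 0)
      simpa [Matrix.kroneckerMap_apply, Matrix.one_apply] using this
    have a := congrFun (congrFun h1 0) 0
    have a' := congrFun (congrFun h1 0) 1
    simp [W] at a a'
    exact ⟨a, a'⟩
  have hfin : finrank F K = 2 := by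
    let φ : (Fin 2 → F) →ₗ[F] K :=
      { toFun := fun v => ⟨v 0 • 1 + v 1 • ω, hmem _ _⟩
        map_add' := fun v w => Subtype.ext (by
          show (v 0 + w 0) • (1 : Matrix ι ι F) + (v 1 + w 1) • ω = (v 0 • 1 + v 1 • ω) + (w 0 • 1 + w 1 • ω)
          simp only [add_smul]; abel)
        map_smul' := fun r v => Subtype.ext (by
          show (r * v 0) • (1 : Matrix ι ι F) + (r * v 1) • ω = r • (v 0 • 1 + v 1 • ω)
          rw [smul_add, smul_smul, smul_smul]) }
    have hinj : Function.Injective φ := by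
      rw [← LinearMap.ker_eq_bot, LinearMap.ker_eq_bot']
      intro v hv
      obtain ⟨a, a'⟩ := hne _ _ (congrArg Subtype.val hv)
      funext i
      fin_cases i
      exacts [a, a']
    have hsurj : Function.Surjective φ := fun x => by
      obtain ⟨c, d, hcd⟩ := hform x x.2
      exact ⟨![c, d], Subtype.ext (by simp [φ, hcd])⟩
    rw [← (LinearEquiv.ofBijective φ ⟨hinj, hsurj⟩).finrank_eq, Module.finrank_fin_fun]
  refine ⟨K, ⟨fun x hx y hy => ?_, fun x hx hx0 => ?_, hfin⟩, Normalises.le_subalgebraNormalizer fun g hg x hx => ?_⟩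
  · obtain ⟨c, d, rfl⟩ := hform x hx
    obtain ⟨c', d', rfl⟩ := hform y hy
    simp only [add_mul, mul_add, Matrix.smul_mul, Matrix.mul_smul, one_mul, mul_one, smul_smul]
    simp only [mul_comm c', mul_comm d']
    abel
  · obtain ⟨c, d, rfl⟩ := hform x hx
    have hone : ω * (1 + ω) = 1 := by
      rw [mul_add, mul_one, hωω]
      have h : ω + ω = 0 := by rw [← two_smul F, show (2 : F) = 0 by linear_combination h20, zero_smul]
      rw [add_left_comm, h, add_zero]
    rcases hall c with rfl | rfl <;> rcases hall d with rfl | rfl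
    · simp at hx0
    · exact ⟨1 + ω, by simpa using hmem 1 1, by simpa using hone⟩
    · exact ⟨1, K.one_mem, by simp⟩
    · refine ⟨ω, Algebra.subset_adjoin rfl, ?_⟩
      rw [one_smul, one_smul, add_mul, one_mul, hωω]
      have h : ω + ω = 0 := by rw [← two_smul F, show (2 : F) = 0 by linear_combination h20, zero_smul]
      rw [add_left_comm, h, add_zero]
  · have hle : K ≤ K.comap (conjGL g).toAlgHom := Algebra.adjoin_le (by
      rintro y hy
      rw [Set.mem_singleton_iff] at hy
      subst hy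
      show conjGL g ω ∈ K
      obtain ⟨c, d, μ, ν, hcd, -, -⟩ := hT.mem g hg
      have key : (c : Matrix (Fin 2) (Fin 2) F) * W = W * (c : Matrix (Fin 2) (Fin 2) F) ∨
          (c : Matrix (Fin 2) (Fin 2) F) * W = (1 + W) * (c : Matrix (Fin 2) (Fin 2) F) := by
        have hdet : (c : Matrix (Fin 2) (Fin 2) F).det ≠ 0 :=
          ((Matrix.isUnit_iff_isUnit_det _).1 c.isUnit).ne_zero
        rw [Matrix.det_fin_two] at hdet
        generalize (c : Matrix (Fin 2) (Fin 2) F) = C at hdet
        rcases hall (C 0 0) with a | a <;> rcases hall (C 0 1) with a' | a' <;> rcases hall (C 1 0) with e | e <;>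
          rcases hall (C 1 1) with e' | e' <;>
          first
            | (exfalso; apply hdet; simp [a, a', e, e', h20]; done)
            | (left; ext i j; fin_cases i <;> fin_cases j <;>
                simp [W, Matrix.mul_apply, Fin.sum_univ_two, a, a', e, e', h20]; done)
            | (right; ext i j; fin_cases i <;> fin_cases j <;>
                simp [W, Matrix.mul_apply, Fin.sum_univ_two, a, a', e, e', h20]; done)
      have hto : ∀ M : Matrix (Fin 2) (Fin 2) F,
          (c : Matrix (Fin 2) (Fin 2) F) * W = M * (c : Matrix (Fin 2) (Fin 2) F) →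
          conjGL g ω = conjMat L (M ⊗ₖ (1 : Matrix (Fin b) (Fin b) F)) := fun M hM => by
        refine GeoClasses.conjGL_eq_of_mul_eq ?_
        rw [hω, hcd, ← map_mul, ← map_mul, ← Matrix.mul_kronecker_mul, ← Matrix.mul_kronecker_mul, one_mul,
          mul_one, hM]
      rcases key with h | h
      · rw [hto W h]; exact Algebra.subset_adjoin rfl
      · rw [hto _ h, Matrix.add_kronecker, Matrix.one_kronecker_one, map_add, map_one]
        exact add_mem K.one_mem (Algebra.subset_adjoin rfl))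
    exact hle hx

end Cfsg.Agent.OrthMax
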