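import Cfsg.Agent.OrthMax.EvenCases

/-!
Decompositions in dimension ten.
-/

set_option autoImplicit false
set_option linter.style.haveILetI false
set_option linter.unusedSectionVars false

namespace Cfsg.Agent.OrthMax

open Matrix Cfsg.Geo QuadraticMap Module
open Cfsg.Agent.Classical (OQ BNondeg)
open scoped MatrixGroups Matrix

variable {F : Type*} [Field F] [Fintype F] {ι : Type} [Fintype ι] [DecidableEq ι]
  {Q : QuadraticForm F (ι → F)} {H : Subgroup (GL ι F)}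

theorem areIsometric_symm {X Y : Submodule F (ι → F)} (h : AreIsometricFor ⇑Q X Y) : AreIsometricFor ⇑Q Y X := by
  obtain ⟨e, he⟩ := h
  exact ⟨e.symm, fun w => by rw [← he (e.symm w), e.apply_symm_apply]⟩

theorem areIsometric_refl (X : Submodule F (ι → F)) : AreIsometricFor ⇑Q X X :=
  ⟨LinearEquiv.refl F X, fun _ => rfl⟩

/-- Two orthogonal five-spaces. -/
theorem ten_half (hB : BNondeg Q) (hn : Fintype.card ι = 10) (hH : IsMaximalIn (omegaGL ⇑Q) H)
    {D : Fin 2 → Submodule F (ι → F)} (hD : IsNondegenerateMDecomposition (polar ⇑Q) 5 D)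
    (hle : H ≤ decompositionStabilizer D) :
    (2 : F) ≠ 0 ∧
    (((IsPlusTypeOn ⇑Q ⊤ ↔ IsSquare (-1 : F)) ∧
      ∃ D : Fin 2 → Submodule F (ι → F), IsOrthogonalMDecomposition ⇑Q 5 D ∧
        H = decompositionStabilizer D ⊓ omegaGL ⇑Q) ∨
    ((IsPlusTypeOn ⇑Q ⊤ ↔ ¬ IsSquare (-1 : F)) ∧
      ∃ D : Fin 2 → Submodule F (ι → F), IsNondegenerateMDecomposition (polar ⇑Q) 5 D ∧
        ¬ AreIsometricFor ⇑Q (D 0) (D 1) ∧ H = decompositionStabilizer D ⊓ omegaGL ⇑Q)) := by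
  have h2 : (2 : F) ≠ 0 := two_ne_zero_of_odd (hD.nondegenerate 0) (by rw [hD.decomp.finrank_eq]; decide)
  obtain ⟨h1, h1'⟩ := plus_iff_two_odd hB h2 (hD.nondegenerate 0) (hD.nondegenerate 1)
    (hD.orthogonal 0 1 (by decide)) (m := 2) (hD.decomp.finrank_eq 0) (hD.decomp.finrank_eq 1) hn
  have heq := eq_decomposition hB (by omega) hH hD.decomp hle
  refine ⟨h2, ?_⟩
  by_cases hiso : AreIsometricFor ⇑Q (D 0) (D 1)
  · refine Or.inl ⟨h1 hiso, D, ⟨hD, fun i j => ?_⟩, heq⟩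
    fin_cases i <;> fin_cases j
    exacts [areIsometric_refl _, hiso, areIsometric_symm hiso, areIsometric_refl _]
  · exact Or.inr ⟨h1' hiso, D, hD, hiso, heq⟩

/-- Ten orthogonal lines of one value. -/
theorem ten_lines (hB : BNondeg Q) (hn : Fintype.card ι = 10) (hH : IsMaximalIn (omegaGL ⇑Q) H)
    {D : Fin 10 → Submodule F (ι → F)} (hD : IsOrthogonalMDecomposition ⇑Q 1 D)
    (hle : H ≤ decompositionStabilizer D) :
    (2 : F) ≠ 0 ∧ (IsPlusTypeOn ⇑Q ⊤ ↔ IsSquare (-1 : F)) ∧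
    (((Fintype.card F).Prime ∧ ∃ D : Fin 10 → Submodule F (ι → F), IsOrthogonalMDecomposition ⇑Q 1 D ∧
        H = decompositionStabilizer D ⊓ omegaGL ⇑Q) ∨
    (∃ (F₀ : Subfield F) (r : ℕ) (P : GL ι F) (ζ : F), r.Prime ∧ Fintype.card F = Nat.card F₀ ^ r ∧ ζ ≠ 0 ∧
      IsQuadFormRationalStructure (fun v => ζ * Q v) F₀ P ∧ H ≤ subfieldSubgroup F₀ P)) := by
  have h2 := two_ne_zero_of_odd_parts hD odd_one
  refine ⟨h2, plus_iff_lines hB h2 hD (s := 2) (by norm_num), ?_⟩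
  by_cases hp : (Fintype.card F).Prime
  · exact Or.inl ⟨hp, D, hD, eq_decomposition hB (by omega) hH hD.decomp.decomp hle⟩
  · exact Or.inr (subfield_of_lines h2 hp (hH.1.le.trans omega_le_isometry) hD hle)

end Cfsg.Agent.OrthMax
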