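import Cfsg.Agent.OrthMax.EvenCases
import Cfsg.Agent.OrthMax.EvenSix

/-!
Tensor decompositions in dimension twelve.
-/

set_option autoImplicit false
set_option linter.style.haveILetI false
set_option linter.unusedSectionVars false

namespace Cfsg.Agent.OrthMax

open Matrix Cfsg.Geo QuadraticMap Module
open Cfsg.Agent.Classical (OQ BNondeg)
open Cfsg.Agent.GeoClasses (IsTensorData tensorVec)
open scoped MatrixGroups Matrix

variable {F : Type*} [Field F] [Fintype F] {ι : Type} [Fintype ι] [DecidableEq ι]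
  {Q : QuadraticForm F (ι → F)} {H : Subgroup (GL ι F)}

theorem card_ne_six : Fintype.card F ≠ 6 := by
  intro h
  obtain ⟨p, hp⟩ := CharP.exists F
  obtain ⟨n, hpp, hn⟩ := FiniteField.card F p
  rw [h] at hn
  have hdvd : ∀ q : ℕ, q.Prime → q ∣ 6 → q = p := fun q hq hd =>
    (Nat.prime_dvd_prime_iff_eq hq hpp).1 (hq.dvd_of_dvd_pow (hn ▸ hd))
  have h2 := hdvd 2 Nat.prime_two (by norm_num)
  have h3 := hdvd 3 Nat.prime_three (by norm_num)
  omega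

/-- A symplectic decomposition two by six. -/
theorem tensor_six (hB : BNondeg Q) (hH : IsMaximalIn (omegaGL ⇑Q) H)
    {L : (Fin 2 × Fin 6 → F) ≃ₗ[F] (ι → F)} {J₁ : Matrix (Fin 2) (Fin 2) F} {J₂ : Matrix (Fin 6) (Fin 6) F}
    (hT : IsTensorData (RingEquiv.refl F) (polarMat Q) 1 H L J₁ J₂)
    (h1 : J₁ᵀ = -J₁) (h1d : ∀ i, J₁ i i = 0) (h2 : J₂ᵀ = -J₂) (h2d : ∀ i, J₂ i i = 0)
    (hpure : ∀ u w, Q (L (tensorVec u w)) = 0) :
    (3 ≤ Fintype.card F ∧ ∃ (e : ι ≃ Fin 2 × Fin 6) (P : GL ι F) (f₁ : (Fin 2 → F) → (Fin 2 → F) → F)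
      (f₂ : (Fin 6 → F) → (Fin 6 → F) → F), IsSymplecticForm f₁ ∧ IsSymplecticForm f₂ ∧
      IsTensorFormStructure id (polar ⇑Q) f₁ f₂ e P ∧
      (∀ (x₁ : Fin 2 → F) (x₂ : Fin 6 → F),
        Q ((P : Matrix ι ι F) *ᵥ ((fun a : Fin 2 × Fin 6 => x₁ a.1 * x₂ a.2) ∘ e)) = 0) ∧
      H = tensorProductSubgroup 2 6 e P ⊓ omegaGL ⇑Q) ∨
    (∃ K : Subalgebra F (Matrix ι ι F), IsFieldSubalgebra 2 K ∧ H = subalgebraNormalizer K ⊓ omegaGL ⇑Q) := by
  have hcard : Fintype.card ι = 12 := card_eq_of_tensor hT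
  by_cases hq : 3 ≤ Fintype.card F
  · obtain ⟨e, P, f₁, f₂, hf₁, hf₂, hst, hp, hle⟩ := exists_tensor_listing hT h1 h1d h2 h2d hpure
    exact Or.inl ⟨hq, e, P, f₁, f₂, hf₁, hf₂, hst, hp, ClassicalMax.eq_inf_max hH hle
      (omega_not_le_tensorProductSubgroup hB (by omega) le_rfl (by norm_num) e P)⟩
  · have h2q : Fintype.card F = 2 := by have := Fintype.one_lt_card (α := F); omega
    obtain ⟨K, hK, hle⟩ := field_of_tensor_two h2q hT
    exact Or.inr ⟨K, hK, eq_normalizer hB (by omega) hH Nat.prime_two hK hle⟩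

end Cfsg.Agent.OrthMax
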