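import Cfsg.Agent.OrthMax.Basics
import Cfsg.Agent.Forms.Similarity

/-!
Plus and minus type of orthogonal sums.
-/

set_option autoImplicit false
set_option linter.style.haveILetI false
set_option linter.unusedSectionVars false

namespace Cfsg.Agent.OrthMax

open Matrix Cfsg.Geo QuadraticMap Module
open Cfsg.Agent.Classical (OQ BNondeg)
open scoped MatrixGroups Matrix

variable {F : Type*} [Field F] {ι : Type} [Fintype ι] [DecidableEq ι] {Q : QuadraticForm F (ι → F)}

/-! ### Orthogonal sums -/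

/-- The value on a sum of pairwise orthogonal vectors. -/
theorem qf_sum_orth {κ : Type*} [Fintype κ] (y : κ → (ι → F))
    (h : ∀ p q, p ≠ q → polar Q (y p) (y q) = 0) : Q (∑ p, y p) = ∑ p, Q (y p) := by
  classical
  suffices ∀ s : Finset κ, Q (∑ p ∈ s, y p) = ∑ p ∈ s, Q (y p) from this _
  intro s
  induction s using Finset.induction_on with
  | empty => simp
  | @insert a s ha ih =>
    rw [Finset.sum_insert ha, Finset.sum_insert ha, Classical.qf_add, ih]
    have : polar Q (y a) (∑ p ∈ s, y p) = 0 := by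
      rw [← polarBilin_apply_apply, map_sum]
      exact Finset.sum_eq_zero fun p hp => h a p fun hap => ha (hap ▸ hp)
    rw [this, add_zero]

/-- Half the dimension of a totally singular subspace gives plus type. -/
theorem plus_of_ts {W U : Submodule F (ι → F)} (hUW : U ≤ W) (hU : IsTotallySingularQuad ⇑Q U)
    (he : Even (finrank F W)) (hd : finrank F W ≤ 2 * finrank F U) : IsPlusTypeOn ⇑Q W := by
  obtain ⟨m, hm⟩ := he
  set b := Module.finBasis F U
  have hmU : m ≤ finrank F U := by omega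
  set v : Fin m → (ι → F) := fun i => (b (Fin.castLE hmU i) : ι → F) with hv
  have hli : LinearIndependent F v :=
    (b.linearIndependent.map' U.subtype (Submodule.ker_subtype _)).comp _ (Fin.castLE_injective hmU)
  have hle : Submodule.span F (Set.range v) ≤ U := by
    rw [Submodule.span_le]; rintro _ ⟨i, rfl⟩; exact (b _).2
  refine ⟨Submodule.span F (Set.range v), hle.trans hUW, fun w hw => hU w (hle hw), ?_⟩
  rw [finrank_span_eq_card hli, Fintype.card_fin]
  omega

theorem inf_eq_bot_of_orth {X Y : Submodule F (ι → F)} (hX : IsNondegenerateOn (polar ⇑Q) X)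
    (hXY : AreOrthogonalFor (polar ⇑Q) X Y) : X ⊓ Y = ⊥ := by
  rw [eq_bot_iff]
  rintro x ⟨hx, hy⟩
  by_contra h0
  obtain ⟨⟨z, hz, hne⟩, -⟩ := hX x hx (fun h => h0 (by simp [h]))
  exact hne (hXY z hz x hy)

theorem finrank_sup_orth {X Y : Submodule F (ι → F)} (hX : IsNondegenerateOn (polar ⇑Q) X)
    (hXY : AreOrthogonalFor (polar ⇑Q) X Y) :
    finrank F ↥(X ⊔ Y) = finrank F X + finrank F Y := by
  have h := Submodule.finrank_sup_add_finrank_inf_eq X Y
  rw [inf_eq_bot_of_orth hX hXY, finrank_bot] at h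
  omega

/-- The orthogonal sum of two plus spaces is plus. -/
theorem plus_sup {X Y : Submodule F (ι → F)} (hX : IsNondegenerateOn (polar ⇑Q) X)
    (hXY : AreOrthogonalFor (polar ⇑Q) X Y) (h1 : IsPlusTypeOn ⇑Q X) (h2 : IsPlusTypeOn ⇑Q Y) :
    IsPlusTypeOn ⇑Q (X ⊔ Y) := by
  obtain ⟨U, hUX, hU, hUd⟩ := h1
  obtain ⟨V, hVY, hV, hVd⟩ := h2
  have hd : finrank F ↥(U ⊔ V) = finrank F U + finrank F V := by
    have h := Submodule.finrank_sup_add_finrank_inf_eq U V
    rw [eq_bot_iff.2 ((inf_le_inf hUX hVY).trans (inf_eq_bot_of_orth hX hXY).le), finrank_bot] at h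
    omega
  refine ⟨U ⊔ V, sup_le_sup hUX hVY, ?_, ?_⟩
  · intro w hw
    obtain ⟨u, hu, v, hv, rfl⟩ := Submodule.mem_sup.1 hw
    rw [Classical.qf_add, hU u hu, hV v hv, hXY u (hUX hu) v (hVY hv), zero_add, zero_add]
  · rw [finrank_sup_orth hX hXY, hd]
    omega

theorem polar_eq_zero_of_ts {U : Submodule F (ι → F)} (hU : IsTotallySingularQuad ⇑Q U) {a b : ι → F}
    (ha : a ∈ U) (hb : b ∈ U) : polar Q a b = 0 :=
  Forms.polar_eq_zero_of_totallySingular (Q := Q) hU ha hb

/-- Cancellation of a plus summand. -/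
theorem plus_cancel (hB : BNondeg Q) {X Y : Submodule F (ι → F)}
    (hX : IsNondegenerateOn (polar ⇑Q) X) (hXY : AreOrthogonalFor (polar ⇑Q) X Y)
    (hXp : IsPlusTypeOn ⇑Q X) (h : IsPlusTypeOn ⇑Q (X ⊔ Y)) : IsPlusTypeOn ⇑Q Y := by
  obtain ⟨U, hUX, hU, hUd⟩ := hXp
  obtain ⟨M, hMZ, hM, hMd⟩ := h
  rw [finrank_sup_orth hX hXY] at hMd
  set M' := M ⊓ OrthGen.perpSub Q U with hM'
  set T := U ⊔ M' with hT
  have hTts : IsTotallySingularQuad ⇑Q T := by
    intro t ht
    obtain ⟨u, hu, m, hm, rfl⟩ := Submodule.mem_sup.1 ht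
    rw [Classical.qf_add, hU u hu, hM m hm.1, show polar Q u m = 0 from hm.2 u hu, zero_add, zero_add]
  have hUperp : U ≤ OrthGen.perpSub Q U := fun u hu n hn => polar_eq_zero_of_ts hU hn hu
  have hTd' : finrank F M ≤ finrank F T := by
    have h1 := Submodule.finrank_sup_add_finrank_inf_eq M (OrthGen.perpSub Q U)
    have h2 : M ⊔ OrthGen.perpSub Q U ≤ OrthGen.perpSub Q (U ⊓ M) := by
      refine sup_le (fun m hm n hn => polar_eq_zero_of_ts hM hn.2 hm) ?_
      exact fun x hx n hn => hx n hn.1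
    have h3 := Submodule.finrank_mono h2
    have h4 := finrank_perp_add hB (U ⊓ M)
    have h5 := finrank_perp_add hB U
    have h6 := Submodule.finrank_sup_add_finrank_inf_eq U M'
    rw [← hT, show U ⊓ M' = U ⊓ M by rw [hM', ← inf_assoc, inf_eq_left.2 (inf_le_left.trans hUperp)]] at h6
    rw [← hM'] at h1
    omega
  -- the part of `X` orthogonal to `U`
  have hXU : X ⊓ OrthGen.perpSub Q U = U := by
    refine (Submodule.eq_of_le_of_finrank_eq (le_inf hUX hUperp) ?_).symm
    have h1 : X ⊔ OrthGen.perpSub Q U = ⊤ := eq_top_iff.2 <| (sup_perp_eq_top hB hX).ge.trans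
      (sup_le_sup_left (fun x hx n hn => hx n (hUX hn)) _)
    have h2 := Submodule.finrank_sup_add_finrank_inf_eq X (OrthGen.perpSub Q U)
    rw [h1, finrank_top, Module.finrank_fintype_fun_eq_card] at h2
    have h3 := finrank_perp_add hB U
    omega
  have hdec : T ≤ U ⊔ (T ⊓ Y) := by
    intro t ht
    have htZ : t ∈ X ⊔ Y := by
      have h1 : T ≤ X ⊔ Y := sup_le (hUX.trans le_sup_left) (inf_le_left.trans hMZ)
      exact h1 ht
    obtain ⟨x, hx, y, hy, rfl⟩ := Submodule.mem_sup.1 htZ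
    have hxU : x ∈ U := by
      rw [← hXU]
      refine ⟨hx, fun n hn => ?_⟩
      have h1 : polar Q n (x + y) = 0 := polar_eq_zero_of_ts hTts (Submodule.mem_sup_left hn) ht
      rwa [polar_add_right, hXY n (hUX hn) y hy, add_zero] at h1
    refine Submodule.add_mem_sup hxU ⟨?_, hy⟩
    have := T.sub_mem ht (Submodule.mem_sup_left hxU)
    rwa [add_sub_cancel_left] at this
  have h1 := Submodule.finrank_mono hdec
  have h2 := Submodule.finrank_sup_add_finrank_inf_eq U (T ⊓ Y)
  refine plus_of_ts (U := T ⊓ Y) inf_le_right (fun w hw => hTts w hw.1) ?_ (by omega)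
  refine ⟨finrank F M - finrank F U, ?_⟩
  omega

theorem areOrthogonal_perp {X : Submodule F (ι → F)} :
    AreOrthogonalFor (polar ⇑Q) X (OrthGen.perpSub Q X) := fun u hu v hv => hv u hu

theorem areOrthogonal_perp' {X : Submodule F (ι → F)} :
    AreOrthogonalFor (polar ⇑Q) (OrthGen.perpSub Q X) X := fun u hu v hv => (polar_comm Q u v).trans (hu v hv)

/-! ### Totally singular subspaces inside isometric decompositions -/

section Decomp

variable {t k : ℕ} {D : Fin t → Submodule F (ι → F)}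

/-- A totally singular subspace from coefficient maps into the parts. -/
theorem exists_ts_family (hD : IsOrthogonalMDecomposition ⇑Q k D) (i₀ : Fin t)
    {κ : Type*} [Fintype κ] {idx : κ → Fin t} (hidx : Function.Injective idx) {Z : Type*} [AddCommGroup Z]
    [Module F Z] (f : κ → Z →ₗ[F] D i₀) (hinj : ∀ z, (∀ p, f p z = 0) → z = 0)
    (hsum : ∀ z, ∑ p, Q (f p z : ι → F) = 0) :
    ∃ U : Submodule F (ι → F), IsTotallySingularQuad ⇑Q U ∧ finrank F U = finrank F Z ∧
      ∀ S : Submodule F (ι → F), (∀ p, D (idx p) ≤ S) → U ≤ S := by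
  choose e he using fun i => hD.isometric i₀ i
  let g : κ → Z →ₗ[F] (ι → F) := fun p => (D (idx p)).subtype ∘ₗ (e (idx p)).toLinearMap ∘ₗ f p
  have hmem : ∀ p z, g p z ∈ D (idx p) := fun p z => ((e (idx p)) (f p z)).2
  have horth : ∀ p q z w, p ≠ q → polar Q (g p z) (g q w) = 0 := fun p q z w hpq =>
    hD.decomp.orthogonal _ _ (fun h => hpq (hidx h)) _ (hmem p z) _ (hmem q w)
  let Φ : Z →ₗ[F] (ι → F) := ∑ p, g p
  have hΦ : ∀ z, Φ z = ∑ p, g p z := fun z => LinearMap.sum_apply _ _ _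
  have hΦinj : Function.Injective Φ := by
    rw [← LinearMap.ker_eq_bot, LinearMap.ker_eq_bot']
    intro z hz
    refine hinj z fun p => ?_
    have hp : g p z = 0 := by
      by_contra hne
      obtain ⟨⟨y, hy, hy'⟩, -⟩ := hD.decomp.nondegenerate (idx p) _ (hmem p z) hne
      apply hy'
      have h0 : polar Q y (Φ z) = 0 := by rw [hz, polar_zero_right]
      rw [hΦ, ← polarBilin_apply_apply, map_sum, Finset.sum_eq_single p] at h0
      · exact h0
      · intro q _ hq
        exact hD.decomp.orthogonal _ _ (fun h => hq (hidx h.symm)) _ hy _ (hmem q z)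
      · simp
    have h1 : (e (idx p)) (f p z) = 0 := Subtype.ext hp
    exact (map_eq_zero_iff _ (e (idx p)).injective).1 h1
  refine ⟨LinearMap.range Φ, ?_, LinearMap.finrank_range_of_inj hΦinj, fun S hS => ?_⟩
  · rintro _ ⟨z, rfl⟩
    rw [hΦ, qf_sum_orth _ fun p q hpq => horth p q z z hpq]
    rw [← hsum z]
    exact Finset.sum_congr rfl fun p _ => he _ _
  · rintro _ ⟨z, rfl⟩
    rw [hΦ]
    exact S.sum_mem fun p _ => hS p (hmem p z)

theorem exists_sum_two_squares [Finite F] : ∃ a b : F, a * a + b * b = -1 := by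
  obtain ⟨p, hp⟩ := CharP.exists F
  haveI := hp
  haveI : NeZero p := ⟨CharP.char_ne_zero_of_finite F p⟩
  obtain ⟨a, b, h⟩ := CharP.sq_add_sq F p (-1)
  exact ⟨a, b, by rw [← pow_two, ← pow_two, h]; simp⟩

/-- Four isometric parts span a plus space. -/
theorem exists_ts_quads [Finite F] (hD : IsOrthogonalMDecomposition ⇑Q k D) {s : ℕ}
    {idx : Fin s × Fin 4 → Fin t} (hidx : Function.Injective idx) :
    ∃ U : Submodule F (ι → F), IsTotallySingularQuad ⇑Q U ∧ finrank F U = s * (2 * k) ∧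
      ∀ S : Submodule F (ι → F), (∀ p, D (idx p) ≤ S) → U ≤ S := by
  have ht := hD.decomp.decomp.two_le
  set i₀ : Fin t := ⟨0, by omega⟩
  obtain ⟨a, b, hab⟩ := exists_sum_two_squares (F := F)
  let π : Fin s → (Fin s → D i₀ × D i₀) →ₗ[F] D i₀ × D i₀ := fun j => LinearMap.proj j
  let x : Fin s → (Fin s → D i₀ × D i₀) →ₗ[F] D i₀ := fun j => LinearMap.fst F _ _ ∘ₗ π j
  let y : Fin s → (Fin s → D i₀ × D i₀) →ₗ[F] D i₀ := fun j => LinearMap.snd F _ _ ∘ₗ π j
  have key := exists_ts_family hD i₀ hidx (Z := Fin s → D i₀ × D i₀)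
    (fun p => ![x p.1, y p.1, a • x p.1 + b • y p.1, b • x p.1 - a • y p.1] p.2)
  obtain ⟨U, hU, hUd, hUS⟩ := key (by
    intro z hz
    funext j
    exact Prod.ext (hz (j, 0)) (hz (j, 1))
  ) (by
    intro z
    rw [Fintype.sum_prod_type]
    refine Finset.sum_eq_zero fun j _ => ?_
    simp only [Fin.sum_univ_four, Matrix.cons_val_zero, Matrix.cons_val_one, Matrix.cons_val,
      LinearMap.add_apply, LinearMap.sub_apply, LinearMap.smul_apply, Submodule.coe_add,
      Submodule.coe_sub, Submodule.coe_smul, Classical.qf_add, Classical.qf_sub,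
      QuadraticMap.map_smul, polar_smul_left, polar_smul_right, smul_eq_mul]
    linear_combination (Q (x j z : ι → F) + Q (y j z : ι → F)) * hab
  )
  refine ⟨U, hU, hUd.trans ?_, hUS⟩
  rw [Module.finrank_pi_fintype, Finset.sum_const, Finset.card_univ, Fintype.card_fin, Module.finrank_prod,
      hD.decomp.decomp.finrank_eq, smul_eq_mul, two_mul]

/-- Pairs of isometric parts of even dimension span plus spaces. -/
theorem exists_ts_pairs [Finite F] (hD : IsOrthogonalMDecomposition ⇑Q k D) (hk : Even k) {s : ℕ}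
    {idx : Fin s × Fin 2 → Fin t} (hidx : Function.Injective idx) :
    ∃ U : Submodule F (ι → F), IsTotallySingularQuad ⇑Q U ∧ finrank F U = s * k ∧
      ∀ S : Submodule F (ι → F), (∀ p, D (idx p) ≤ S) → U ≤ S := by
  have ht := hD.decomp.decomp.two_le
  set i₀ : Fin t := ⟨0, by omega⟩
  obtain ⟨g, hg⟩ := Forms.exists_similarity (Q.comp (D i₀).subtype) (fun r hr hpol _ => by
      by_contra hr0
      obtain ⟨⟨z, hz, hne⟩, -⟩ := hD.decomp.nondegenerate i₀ r r.2 (fun h => hr0 (Subtype.ext h))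
      apply hne
      rw [polar_comm]
      have := hpol ⟨z, hz⟩ trivial
      simpa [polar] using this)
    (by rw [hD.decomp.decomp.finrank_eq]; exact hk) (neg_ne_zero.2 (one_ne_zero (α := F)))
  have key := exists_ts_family hD i₀ hidx (Z := Fin s → D i₀)
    (fun p => ![LinearMap.proj p.1, g.toLinearMap ∘ₗ LinearMap.proj p.1] p.2)
  obtain ⟨U, hU, hUd, hUS⟩ := key (by
    intro z hz
    funext j
    exact hz (j, 0)
  ) (by
    intro z
    rw [Fintype.sum_prod_type]
    refine Finset.sum_eq_zero fun j _ => ?_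
    rw [Fin.sum_univ_two]
    have := hg (z j)
    simp only [QuadraticMap.comp_apply, Submodule.subtype_apply] at this
    show Q (z j : ι → F) + Q (g (z j) : ι → F) = 0
    rw [this]
    ring
  )
  refine ⟨U, hU, hUd.trans ?_, hUS⟩
  rw [Module.finrank_pi_fintype, Finset.sum_const, Finset.card_univ, Fintype.card_fin,
      hD.decomp.decomp.finrank_eq, smul_eq_mul]

theorem card_eq_mul (hD : IsOrthogonalMDecomposition ⇑Q k D) : t * k = Fintype.card ι :=
  GeoClasses.card_eq_of_decomposition hD.decomp.decomp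

/-- A decomposition into a multiple of four isometric parts gives plus type. -/
theorem plus_of_four_dvd [Finite F] (hD : IsOrthogonalMDecomposition ⇑Q k D) (ht : 4 ∣ t) :
    IsPlusTypeOn ⇑Q ⊤ := by
  obtain ⟨s, hs⟩ := ht
  obtain ⟨U, hU, hUd, -⟩ := exists_ts_quads hD (s := s)
    (idx := fun p => (finCongr (by omega : s * 4 = t)) (finProdFinEquiv p))
    (fun p q h => finProdFinEquiv.injective ((finCongr _).injective h))
  refine ⟨U, le_top, hU, ?_⟩
  rw [hUd, finrank_top, Module.finrank_fintype_fun_eq_card, ← card_eq_mul hD, hs]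
  ring

/-- An even number of isometric parts of even dimension gives plus type. -/
theorem plus_of_even_even [Finite F] (hD : IsOrthogonalMDecomposition ⇑Q k D) (hk : Even k) (ht : Even t) :
    IsPlusTypeOn ⇑Q ⊤ := by
  obtain ⟨s, hs⟩ := ht
  obtain ⟨U, hU, hUd, -⟩ := exists_ts_pairs hD hk (s := s)
    (idx := fun p => (finCongr (by omega : s * 2 = t)) (finProdFinEquiv p))
    (fun p q h => finProdFinEquiv.injective ((finCongr _).injective h))
  refine ⟨U, le_top, hU, ?_⟩
  rw [hUd, finrank_top, Module.finrank_fintype_fun_eq_card, ← card_eq_mul hD, hs]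
  ring

theorem plus_part_transport (hD : IsOrthogonalMDecomposition ⇑Q k D) {i : Fin t}
    (h : IsPlusTypeOn ⇑Q (D i)) (j : Fin t) : IsPlusTypeOn ⇑Q (D j) := by
  obtain ⟨e, he⟩ := hD.isometric i j
  obtain ⟨U, hUi, hU, hUd⟩ := h
  let φ : U →ₗ[F] (ι → F) := (D j).subtype ∘ₗ e.toLinearMap ∘ₗ Submodule.inclusion hUi
  have hφ : Function.Injective φ :=
    Subtype.val_injective.comp (e.injective.comp (Submodule.inclusion_injective hUi))
  refine ⟨LinearMap.range φ, ?_, ?_, ?_⟩
  · rintro _ ⟨u, rfl⟩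
    exact (e _).2
  · rintro _ ⟨u, rfl⟩
    exact (he _).trans (hU u u.2)
  · rw [LinearMap.finrank_range_of_inj hφ, hUd, hD.decomp.decomp.finrank_eq, hD.decomp.decomp.finrank_eq]

/-- Plus parts give a plus space. -/
theorem plus_of_parts (hD : IsOrthogonalMDecomposition ⇑Q k D) {i₀ : Fin t}
    (h : IsPlusTypeOn ⇑Q (D i₀)) : IsPlusTypeOn ⇑Q ⊤ := by
  obtain ⟨U₀, hU₀i, hU₀, hU₀d⟩ := h
  obtain ⟨U, hU, hUd, -⟩ := exists_ts_family hD i₀ (idx := id) Function.injective_id (Z := Fin t → U₀)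
    (fun p => Submodule.inclusion hU₀i ∘ₗ LinearMap.proj p) (fun z hz => funext fun p =>
      Submodule.inclusion_injective hU₀i ((hz p).trans (map_zero _).symm))
    (fun z => Finset.sum_eq_zero fun p _ => hU₀ _ (z p).2)
  refine ⟨U, le_top, hU, ?_⟩
  rw [hUd, Module.finrank_pi_fintype, Finset.sum_const, Finset.card_univ, Fintype.card_fin, smul_eq_mul,
    finrank_top, Module.finrank_fintype_fun_eq_card, ← card_eq_mul hD, ← hD.decomp.decomp.finrank_eq i₀,
    ← hU₀d]
  ring

/-- An odd number of parts of even dimension of a plus space are plus. -/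
theorem parts_plus [Finite F] (hB : BNondeg Q) (hD : IsOrthogonalMDecomposition ⇑Q k D) (hk : Even k)
    (ht : Odd t) (h : IsPlusTypeOn ⇑Q ⊤) (i : Fin t) : IsPlusTypeOn ⇑Q (D i) := by
  obtain ⟨s, hs⟩ := ht
  set l : Fin t := ⟨2 * s, by omega⟩
  refine plus_part_transport hD (i := l) ?_ i
  set S := OrthGen.perpSub Q (D l)
  have hS := isNondegenerateOn_perp hB (hD.decomp.nondegenerate l)
  obtain ⟨U, hU, hUd, hUS⟩ := exists_ts_pairs hD hk (s := s)
    (idx := fun p => Fin.castLE (by omega) (finProdFinEquiv p))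
    (fun p q h => finProdFinEquiv.injective (Fin.castLE_injective _ h))
  have hdS := finrank_perp_add hB (D l)
  rw [hD.decomp.decomp.finrank_eq, ← card_eq_mul hD, hs] at hdS
  rw [show finrank F ↥(OrthGen.perpSub Q (D l)) = finrank F S from rfl] at hdS
  have hdS' : finrank F S = 2 * (s * k) := by
    have : (2 * s + 1) * k = 2 * (s * k) + k := by ring
    omega
  refine plus_cancel hB hS areOrthogonal_perp'
    ⟨U, hUS S fun p => ?_, hU, by rw [hUd, hdS']⟩ ?_
  · intro x hx y hy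
    refine hD.decomp.orthogonal _ _ (fun he => ?_) y hy x hx
    have h1 := congrArg Fin.val he
    have h2 := (finProdFinEquiv p).2
    simp [l] at h1
    omega
  · rwa [sup_comm, sup_perp_eq_top hB (hD.decomp.nondegenerate l)]

end Decomp

/-! ### Normal forms -/

section Normal

variable [Finite F] {W : Submodule F (ι → F)}

theorem nonsingOn_comp (hW : IsNondegenerateOn (polar ⇑Q) W) : Forms.NonsingOn (Q.comp W.subtype) ⊤ := by
  intro r _ hpol _
  by_contra hr0
  obtain ⟨⟨z, hz, hne⟩, -⟩ := hW r r.2 (fun h => hr0 (Subtype.ext h))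
  apply hne
  rw [polar_comm]
  have := hpol ⟨z, hz⟩ trivial
  simpa [polar] using this

/-- The normal form of an even-dimensional non-degenerate subspace. -/
theorem normal_form_even (hW : IsNondegenerateOn (polar ⇑Q) W) (he : Even (finrank F W)) :
    (IsPlusTypeOn ⇑Q W ∧ ∃ m, finrank F W = 2 * m ∧
      ∃ e : W ≃ₗ[F] (Fin m ⊕ Fin m → F), ∀ w : W, Q (w : ι → F) = Cfsg.quadFormPlus m F (e w)) ∨
    (¬ IsPlusTypeOn ⇑Q W ∧ ∃ m, finrank F W = 2 * m + 2 ∧ ∃ a b, Forms.BinaryAniso a b ∧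
      ∃ e : W ≃ₗ[F] ((Fin m ⊕ Fin m) ⊕ Fin 2 → F),
        ∀ w : W, Q (w : ι → F) = Cfsg.quadFormMinus m F a b (e w)) := by
  obtain ⟨m, h⟩ := Forms.exists_finite_witt_decomposition (Q.comp W.subtype) (nonsingOn_comp hW)
  rcases h with ⟨hd, e, he'⟩ | ⟨hd, -⟩ | ⟨hd, a, b, hab, e, he'⟩
  · refine Or.inl ⟨?_, m, hd, e, he'⟩
    let ι₁ : (Fin m → F) →ₗ[F] (Fin m ⊕ Fin m → F) :=
      { toFun := fun x => Sum.elim x 0
        map_add' := fun x y => by ext (i | i) <;> simp
        map_smul' := fun c x => by ext (i | i) <;> simp }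
    let φ : (Fin m → F) →ₗ[F] (ι → F) := W.subtype ∘ₗ e.symm.toLinearMap ∘ₗ ι₁
    have hφ : Function.Injective φ := fun x y hxy => funext fun i =>
      congrFun (e.symm.injective (Subtype.val_injective hxy)) (.inl i)
    refine ⟨LinearMap.range φ, ?_, ?_, ?_⟩
    · rintro _ ⟨x, rfl⟩
      exact (e.symm _).2
    · rintro _ ⟨x, rfl⟩
      show Q ((e.symm (ι₁ x) : W) : ι → F) = 0
      rw [show Q ((e.symm (ι₁ x) : W) : ι → F) = _ from he' _, LinearEquiv.apply_symm_apply]
      simp [Cfsg.quadFormPlus, ι₁]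
    · rw [LinearMap.finrank_range_of_inj hφ, Module.finrank_fin_fun, hd]
  · rw [hd, Nat.even_iff] at he
    omega
  · refine Or.inr ⟨fun hp => ?_, m, hd, a, b, hab, e, he'⟩
    obtain ⟨U, hUW, hU, hUd⟩ := hp
    have hinj : Function.Injective (e.toLinearMap ∘ₗ Submodule.inclusion hUW) :=
      e.injective.comp (Submodule.inclusion_injective hUW)
    have := Forms.finrank_le_of_vanishes_quadFormMinus hab
      (LinearMap.range (e.toLinearMap ∘ₗ Submodule.inclusion hUW)) (by
        rintro _ ⟨u, rfl⟩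
        exact (he' _).symm.trans (hU u u.2))
    rw [LinearMap.finrank_range_of_inj hinj] at this
    omega

/-- Subspaces of one even dimension and one type are isometric. -/
theorem areIsometric_of_type {W' : Submodule F (ι → F)} (hW : IsNondegenerateOn (polar ⇑Q) W)
    (hW' : IsNondegenerateOn (polar ⇑Q) W') (hd : finrank F W = finrank F W') (he : Even (finrank F W))
    (htype : IsPlusTypeOn ⇑Q W ↔ IsPlusTypeOn ⇑Q W') : AreIsometricFor ⇑Q W W' := by
  rcases normal_form_even hW he with ⟨hp, m, hm, e, he₁⟩ | ⟨hp, m, hm, a, b, hab, e, he₁⟩ <;>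
    rcases normal_form_even hW' (hd ▸ he) with ⟨hp', m', hm', e', he'⟩ | ⟨hp', m', hm', a', b', hab', e', he'⟩
  · obtain rfl : m = m' := by omega
    exact ⟨e.trans e'.symm, fun w => by simp [he', he₁]⟩
  · exact absurd (htype.1 hp) hp'
  · exact absurd (htype.2 hp') hp
  · obtain rfl : m = m' := by omega
    obtain ⟨T, hT⟩ := Forms.exists_quadFormMinus_equiv hab hab' m
    exact ⟨(e.trans T).trans e'.symm, fun w => by simp [he', he₁, hT]⟩

/-- The sum of two orthogonal similar subspaces of even dimension is plus. -/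
theorem plus_of_similar {X Y : Submodule F (ι → F)} (hX : IsNondegenerateOn (polar ⇑Q) X)
    (hXY : AreOrthogonalFor (polar ⇑Q) X Y) (hd : finrank F X = finrank F Y) (he : Even (finrank F X))
    (h : X →ₗ[F] (ι → F)) (hh : ∀ x, h x ∈ Y) {μ : F} (hμ : μ ≠ 0) (hQ : ∀ x, Q (h x) = μ * Q (x : ι → F)) :
    IsPlusTypeOn ⇑Q (X ⊔ Y) := by
  obtain ⟨g, hg⟩ := Forms.exists_similarity (Q.comp X.subtype) (nonsingOn_comp hX) he (neg_ne_zero.2 hμ)
  let Φ : X →ₗ[F] (ι → F) := X.subtype ∘ₗ g.toLinearMap + h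
  have hdisj := inf_eq_bot_of_orth hX hXY
  have hΦ : Function.Injective Φ := by
    rw [← LinearMap.ker_eq_bot, LinearMap.ker_eq_bot']
    intro x hx
    have hx' : (g x : ι → F) + h x = 0 := hx
    have h1 : (g x : ι → F) ∈ X ⊓ Y :=
      ⟨(g x).2, by rw [eq_neg_of_add_eq_zero_left hx']; exact Y.neg_mem (hh x)⟩
    rw [hdisj, Submodule.mem_bot] at h1
    exact (map_eq_zero_iff _ g.injective).1 (Subtype.ext h1)
  refine ⟨LinearMap.range Φ, ?_, ?_, ?_⟩
  · rintro _ ⟨x, rfl⟩
    exact Submodule.add_mem_sup (g x).2 (hh x)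
  · rintro _ ⟨x, rfl⟩
    show Q ((g x : ι → F) + h x) = 0
    rw [Classical.qf_add, hXY _ (g x).2 _ (hh x), hQ]
    have := hg x
    simp only [QuadraticMap.comp_apply, Submodule.subtype_apply] at this
    rw [this]
    ring
  · rw [LinearMap.finrank_range_of_inj hΦ, finrank_sup_orth hX hXY, ← hd, two_mul]

/-- Type of a space split into a plane and a plus space. -/
theorem plus_iff_of_plane (hB : BNondeg Q) (h2 : (2 : F) ≠ 0) {x₀ y₀ : ι → F} {c d : F}
    (hc : Q x₀ = c) (hd : Q y₀ = d) (hc0 : c ≠ 0) (hd0 : d ≠ 0) (horth : polar Q x₀ y₀ = 0)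
    {U : Submodule F (ι → F)} (hU : IsTotallySingularQuad ⇑Q U)
    (hUx : ∀ u ∈ U, polar Q x₀ u = 0) (hUy : ∀ u ∈ U, polar Q y₀ u = 0)
    (hUd : 2 * finrank F U + 2 = Fintype.card ι) :
    IsPlusTypeOn ⇑Q ⊤ ↔ IsSquare (-(c / d)) := by
  set P : Submodule F (ι → F) := Submodule.span F (Set.range ![x₀, y₀]) with hPdef
  have hli : LinearIndependent F ![x₀, y₀] := by
    rw [LinearIndependent.pair_iff]
    intro s t hst
    have h1 := congrArg (polar Q x₀) hst
    have h3 := congrArg (polar Q y₀) hst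
    simp only [polar_add_right, polar_smul_right, horth, polar_comm Q y₀ x₀, OrthGen.polar_self_two, hc, hd,
      polar_zero_right, smul_eq_mul, mul_zero, add_zero, zero_add] at h1 h3
    exact ⟨(mul_eq_zero.1 h1).resolve_right (mul_ne_zero h2 hc0),
      (mul_eq_zero.1 h3).resolve_right (mul_ne_zero h2 hd0)⟩
  have hPd : finrank F P = 2 := by rw [finrank_span_eq_card hli, Fintype.card_fin]
  have hmemP : ∀ w, w ∈ P ↔ ∃ s t : F, w = s • x₀ + t • y₀ := fun w => by
    rw [hPdef, Submodule.mem_span_range_iff_exists_fun]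
    constructor
    · rintro ⟨f, rfl⟩
      exact ⟨f 0, f 1, by simp [Fin.sum_univ_two]⟩
    · rintro ⟨s, t, rfl⟩
      exact ⟨![s, t], by simp [Fin.sum_univ_two]⟩
  have hQP : ∀ s t : F, Q (s • x₀ + t • y₀) = s * s * c + t * t * d := fun s t => by
    simp [Classical.qf_add, QuadraticMap.map_smul, polar_smul_left, polar_smul_right, horth, hc, hd]
  have hPn : IsNondegenerateOn (polar ⇑Q) P := by
    rw [isNondegenerateOn_iff, eq_bot_iff]
    rintro w ⟨hw, hw'⟩
    obtain ⟨s, t, rfl⟩ := (hmemP w).1 hw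
    have h1 : polar Q x₀ (s • x₀ + t • y₀) = 0 := hw' x₀ ((hmemP _).2 ⟨1, 0, by simp⟩)
    have h3 : polar Q y₀ (s • x₀ + t • y₀) = 0 := hw' y₀ ((hmemP _).2 ⟨0, 1, by simp⟩)
    simp only [polar_add_right, polar_smul_right, horth, polar_comm Q y₀ x₀, OrthGen.polar_self_two, hc, hd,
      smul_eq_mul, mul_zero, add_zero, zero_add] at h1 h3
    rw [(mul_eq_zero.1 h1).resolve_right (mul_ne_zero h2 hc0),
      (mul_eq_zero.1 h3).resolve_right (mul_ne_zero h2 hd0)]
    simp
  set S := OrthGen.perpSub Q P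
  have hSn := isNondegenerateOn_perp hB hPn
  have hSd : finrank F S + finrank F P = Fintype.card ι := finrank_perp_add hB P
  have hSp : IsPlusTypeOn ⇑Q S := by
    refine ⟨U, fun u hu w hw => ?_, hU, by rw [hPd] at hSd; omega⟩
    obtain ⟨s, t, rfl⟩ := (hmemP w).1 hw
    show polar Q (s • x₀ + t • y₀) u = 0
    simp [polar_add_left, polar_smul_left, hUx u hu, hUy u hu]
  have htop : S ⊔ P = ⊤ := by rw [sup_comm]; exact sup_perp_eq_top hB hPn
  constructor
  · intro h
    obtain ⟨L, hLP, hL, hLd⟩ := plus_cancel hB hSn areOrthogonal_perp' hSp (htop.symm ▸ h)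
    obtain ⟨w, hw, hw0⟩ := L.exists_mem_ne_zero_of_ne_bot fun h => by rw [h, finrank_bot, hPd] at hLd; omega
    obtain ⟨s, t, rfl⟩ := (hmemP w).1 (hLP hw)
    have h0 := hL _ hw
    rw [hQP] at h0
    have hs : s ≠ 0 := by
      rintro rfl
      simp [hd0] at h0
      simp [h0] at hw0
    refine ⟨t / s, ?_⟩
    field_simp
    linear_combination -h0
  · rintro ⟨r, hr⟩
    rw [← htop]
    refine plus_sup hSn areOrthogonal_perp' hSp (plus_of_ts (U := F ∙ (x₀ + r • y₀))
      ((Submodule.span_singleton_le_iff_mem _ _).2 ((hmemP _).2 ⟨1, r, by simp⟩)) ?_ (by rw [hPd]; decide) ?_)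
    · intro w hw
      obtain ⟨a, rfl⟩ := Submodule.mem_span_singleton.1 hw
      have h1 : Q (x₀ + r • y₀) = 0 := by
        have := hQP 1 r
        rw [one_smul] at this
        rw [this, ← hr]
        field_simp
        ring
      rw [QuadraticMap.map_smul, h1, smul_zero]
    · have hne : x₀ + r • y₀ ≠ 0 := fun h => by
        have h1 := (LinearIndependent.pair_iff.1 hli) 1 r (by rwa [one_smul])
        exact one_ne_zero h1.1
      rw [hPd, finrank_span_singleton hne]

/-- The product of two non-squares is a square. -/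
theorem isSquare_mul_of_not {a b : F} (h2 : (2 : F) ≠ 0) (ha : ¬ IsSquare a) (hb : ¬ IsSquare b) :
    IsSquare (a * b) := by
  classical
  haveI := Fintype.ofFinite F
  have hF : ringChar F ≠ 2 := fun h => h2 (by
    have := ringChar.Nat.cast_ringChar (R := F)
    rw [h] at this
    exact_mod_cast this)
  have ha0 : a ≠ 0 := fun h => ha (h ▸ IsSquare.zero)
  have hb0 : b ≠ 0 := fun h => hb (h ▸ IsSquare.zero)
  rw [← quadraticChar_one_iff_isSquare (mul_ne_zero ha0 hb0), map_mul,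
    quadraticChar_neg_one_iff_not_isSquare.2 ha, quadraticChar_neg_one_iff_not_isSquare.2 hb]
  rfl

/-- The normal form of an odd-dimensional non-degenerate subspace. -/
theorem normal_form_odd (hW : IsNondegenerateOn (polar ⇑Q) W) {m : ℕ} (hd : finrank F W = 2 * m + 1) :
    ∃ c : F, c ≠ 0 ∧ ∃ e : W ≃ₗ[F] (Unit ⊕ (Fin m ⊕ Fin m) → F),
      ∀ w : W, Q (w : ι → F) = c * Cfsg.quadFormOdd m F (e w) := by
  obtain ⟨m', h⟩ := Forms.exists_finite_witt_decomposition (Q.comp W.subtype) (nonsingOn_comp hW)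
  rcases h with ⟨hd', -⟩ | ⟨hd', c, hc, e, he⟩ | ⟨hd', -⟩
  · omega
  · obtain rfl : m' = m := by omega
    exact ⟨c, hc, e, he⟩
  · omega

/-- An anisotropic vector and a totally singular subspace orthogonal to it from the odd normal form. -/
theorem exists_point_of_odd {m : ℕ} {c : F} (e : W ≃ₗ[F] (Unit ⊕ (Fin m ⊕ Fin m) → F))
    (he : ∀ w : W, Q (w : ι → F) = c * Cfsg.quadFormOdd m F (e w)) :
    ∃ x₀ ∈ W, Q x₀ = c ∧ ∃ U ≤ W, IsTotallySingularQuad ⇑Q U ∧ finrank F U = m ∧
      ∀ u ∈ U, polar Q x₀ u = 0 := by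
  set z₀ : Unit ⊕ (Fin m ⊕ Fin m) → F := Pi.single (.inl ()) 1 with hz₀
  let ι₁ : (Fin m → F) →ₗ[F] (Unit ⊕ (Fin m ⊕ Fin m) → F) :=
    { toFun := fun x => Sum.elim 0 (Sum.elim x 0)
      map_add' := fun x y => by ext (u | i | i) <;> simp
      map_smul' := fun a x => by ext (u | i | i) <;> simp }
  let φ : (Fin m → F) →ₗ[F] (ι → F) := W.subtype ∘ₗ e.symm.toLinearMap ∘ₗ ι₁
  have hval : ∀ z, Q (e.symm z : ι → F) = c * Cfsg.quadFormOdd m F z := fun z => by
    rw [he, LinearEquiv.apply_symm_apply]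
  have hφ : ∀ x, φ x = (e.symm (ι₁ x) : ι → F) := fun _ => rfl
  have hinj : Function.Injective φ := fun x y hxy => funext fun i =>
    congrFun (e.symm.injective (Subtype.val_injective hxy)) (.inr (.inl i))
  refine ⟨(e.symm z₀ : ι → F), (e.symm z₀).2, by simp [hval, Cfsg.quadFormOdd, hz₀], LinearMap.range φ,
    ?_, ?_, by rw [LinearMap.finrank_range_of_inj hinj, Module.finrank_fin_fun], ?_⟩
  · rintro _ ⟨x, rfl⟩
    exact (e.symm _).2
  · rintro _ ⟨x, rfl⟩
    simp [hφ, hval, Cfsg.quadFormOdd, ι₁]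
  · rintro _ ⟨x, rfl⟩
    rw [hφ]
    simp only [polar, ← Submodule.coe_add, ← map_add, hval]
    simp [Cfsg.quadFormOdd, hz₀, ι₁]

/-- Two orthogonal subspaces of one odd dimension. -/
theorem plus_iff_two_odd (hB : BNondeg Q) (h2 : (2 : F) ≠ 0) {X Y : Submodule F (ι → F)}
    (hX : IsNondegenerateOn (polar ⇑Q) X) (hY : IsNondegenerateOn (polar ⇑Q) Y)
    (hXY : AreOrthogonalFor (polar ⇑Q) X Y) {m : ℕ} (hdX : finrank F X = 2 * m + 1)
    (hdY : finrank F Y = 2 * m + 1) (hcard : Fintype.card ι = 2 * (2 * m + 1)) :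
    (AreIsometricFor ⇑Q X Y → (IsPlusTypeOn ⇑Q ⊤ ↔ IsSquare (-1 : F))) ∧
    (¬ AreIsometricFor ⇑Q X Y → (IsPlusTypeOn ⇑Q ⊤ ↔ ¬ IsSquare (-1 : F))) := by
  have key : ∀ c d : F, c ≠ 0 → d ≠ 0 →
      ∀ (e₁ : X ≃ₗ[F] (Unit ⊕ (Fin m ⊕ Fin m) → F)) (e₂ : Y ≃ₗ[F] (Unit ⊕ (Fin m ⊕ Fin m) → F)),
      (∀ w : X, Q (w : ι → F) = c * Cfsg.quadFormOdd m F (e₁ w)) →
      (∀ w : Y, Q (w : ι → F) = d * Cfsg.quadFormOdd m F (e₂ w)) →
      (IsPlusTypeOn ⇑Q ⊤ ↔ IsSquare (-(c / d))) := by
    intro c d hc hd e₁ e₂ he₁ he₂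
    obtain ⟨x₀, hx₀, hQx, U₁, hU₁X, hU₁, hU₁d, hU₁o⟩ := exists_point_of_odd e₁ he₁
    obtain ⟨y₀, hy₀, hQy, U₂, hU₂Y, hU₂, hU₂d, hU₂o⟩ := exists_point_of_odd e₂ he₂
    have hinf : finrank F ↥(U₁ ⊔ U₂) = finrank F U₁ + finrank F U₂ := by
      have h := Submodule.finrank_sup_add_finrank_inf_eq U₁ U₂
      rw [eq_bot_iff.2 ((inf_le_inf hU₁X hU₂Y).trans (inf_eq_bot_of_orth hX hXY).le), finrank_bot] at h
      omega
    refine plus_iff_of_plane hB h2 hQx hQy hc hd (hXY _ hx₀ _ hy₀) (U := U₁ ⊔ U₂) ?_ ?_ ?_ (by omega)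
    · intro w hw
      obtain ⟨u, hu, v, hv, rfl⟩ := Submodule.mem_sup.1 hw
      rw [Classical.qf_add, hU₁ u hu, hU₂ v hv, hXY u (hU₁X hu) v (hU₂Y hv), zero_add, zero_add]
    · intro w hw
      obtain ⟨u, hu, v, hv, rfl⟩ := Submodule.mem_sup.1 hw
      rw [polar_add_right, hU₁o u hu, hXY _ hx₀ v (hU₂Y hv), add_zero]
    · intro w hw
      obtain ⟨u, hu, v, hv, rfl⟩ := Submodule.mem_sup.1 hw
      rw [polar_add_right, hU₂o v hv, polar_comm, hXY u (hU₁X hu) _ hy₀, add_zero]
  constructor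
  · rintro ⟨e, he⟩
    obtain ⟨c, hc, e₁, he₁⟩ := normal_form_odd hX hdX
    rw [key c c hc hc e₁ (e.symm.trans e₁) he₁ (fun w => ?_), div_self hc]
    rw [LinearEquiv.trans_apply, ← he₁, ← he (e.symm w), LinearEquiv.apply_symm_apply]
  · intro hiso
    obtain ⟨c, hc, e₁, he₁⟩ := normal_form_odd hX hdX
    obtain ⟨d, hd, e₂, he₂⟩ := normal_form_odd hY hdY
    rw [key c d hc hd e₁ e₂ he₁ he₂]
    have hns : ¬ IsSquare (c / d) := by
      rintro ⟨s, hs⟩
      have hs0 : s ≠ 0 := fun h => div_ne_zero hc hd (by rw [hs, h, mul_zero])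
      refine hiso ⟨e₁.trans ((LinearEquiv.smulOfUnit (Units.mk0 s hs0)).trans e₂.symm), fun w => ?_⟩
      rw [LinearEquiv.trans_apply, LinearEquiv.trans_apply, he₂, LinearEquiv.apply_symm_apply, he₁,
        show (LinearEquiv.smulOfUnit (Units.mk0 s hs0)) (e₁ w) = s • e₁ w from rfl]
      simp only [Cfsg.quadFormOdd, Pi.smul_apply, smul_eq_mul]
      rw [mul_add, Finset.mul_sum, mul_add, Finset.mul_sum]
      have hcd : c = d * (s * s) := by rw [← hs, mul_div_cancel₀ _ hd]
      rw [hcd]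
      congr 1
      · ring
      · exact Finset.sum_congr rfl fun i _ => by ring
    constructor
    · intro h h1
      exact hns (by have := h1.mul h; simpa using this)
    · intro h
      have := isSquare_mul_of_not h2 h hns
      simpa using this

/-- An orthogonal frame of equal values in dimension `4 s + 2`. -/
theorem plus_iff_lines (hB : BNondeg Q) (h2 : (2 : F) ≠ 0) {t s : ℕ} {D : Fin t → Submodule F (ι → F)}
    (hD : IsOrthogonalMDecomposition ⇑Q 1 D) (hs : t = 4 * s + 2) :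
    IsPlusTypeOn ⇑Q ⊤ ↔ IsSquare (-1 : F) := by
  set a : Fin t := ⟨4 * s, by omega⟩
  set b : Fin t := ⟨4 * s + 1, by omega⟩
  obtain ⟨e, he⟩ := hD.isometric a b
  obtain ⟨⟨x, hx⟩, hx0⟩ : ∃ x : D a, x ≠ 0 := by
    have h := hD.decomp.decomp.finrank_eq a
    obtain ⟨w, hw, hw0⟩ := (D a).exists_mem_ne_zero_of_ne_bot fun h' => by rw [h', finrank_bot] at h; omega
    exact ⟨⟨w, hw⟩, fun h => hw0 (congrArg Subtype.val h)⟩
  have hx0' : x ≠ 0 := fun h => hx0 (Subtype.ext h)
  have hQx : Q x ≠ 0 := by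
    intro h
    obtain ⟨-, y, hy, hne⟩ := hD.decomp.nondegenerate a x hx hx0'
    apply hne
    obtain ⟨r, hr⟩ := exists_smul_eq_of_finrank_eq_one (hD.decomp.decomp.finrank_eq a) hx0 ⟨y, hy⟩
    have : y = r • x := (congrArg Subtype.val hr).symm
    rw [this, polar_smul_right, OrthGen.polar_self_two, h, mul_zero, smul_zero]
  obtain ⟨U, hU, hUd, hUS⟩ := exists_ts_quads hD (s := s)
    (idx := fun p => Fin.castLE (by omega) (finProdFinEquiv p))
    (fun p q h => finProdFinEquiv.injective (Fin.castLE_injective _ h))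
  have hcard := card_eq_mul hD
  have hperp : ∀ z, (z = x ∨ z = (e ⟨x, hx⟩ : ι → F)) → ∀ u ∈ U, polar Q z u = 0 := by
    intro z hz u hu
    have h1 : U ≤ OrthGen.perpSub Q (F ∙ z) := hUS _ fun p y hy n hn => by
      obtain ⟨r, rfl⟩ := Submodule.mem_span_singleton.1 hn
      show polar Q (r • z) y = 0
      rw [polar_smul_left]
      have hlt : ((finProdFinEquiv p : Fin (s * 4)) : ℕ) < 4 * s := by
        have := (finProdFinEquiv p).2; omega
      rcases hz with rfl | rfl
      · rw [hD.decomp.orthogonal _ _ (fun h => ?_) _ hx y hy, smul_zero]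
        have := congrArg Fin.val h
        simp [a] at this
        omega
      · rw [hD.decomp.orthogonal _ _ (fun h => ?_) _ (e ⟨x, hx⟩).2 y hy, smul_zero]
        have := congrArg Fin.val h
        simp [b] at this
        omega
    exact h1 hu z (Submodule.mem_span_singleton_self z)
  rw [plus_iff_of_plane hB h2 (x₀ := x) (y₀ := (e ⟨x, hx⟩ : ι → F)) rfl (he _) hQx hQx
    (hD.decomp.orthogonal a b (by simp [a, b, Fin.ext_iff]) _ hx _ (e ⟨x, hx⟩).2) hU
    (hperp _ (Or.inl rfl)) (hperp _ (Or.inr rfl)) (by rw [hUd]; omega), div_self hQx]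

end Normal

end Cfsg.Agent.OrthMax
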